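import Mathlib
import Cfsg.Agent.Lib.Lead.BrHalfStmt

set_option autoImplicit false

namespace Cfsg.Agent.Lib.Helper21.BrCPerBase

open Cfsg.Agent.Lib.Lead
open scoped ComplexConjugate

variable (p : ℕ) [Fact p.Prime]

theorem mem_sq (s : ZMod p) : s ∈ BrHalf.sq p ↔ s ≠ 0 ∧ IsSquare s := by
  unfold BrHalf.sq
  rw [Finset.mem_filter]
  simp

/-- `per` in terms of the additive character -/
theorem per_eq {ζ : ℂ} (hζ : IsPrimitiveRoot ζ p) (a : ℕ) :
    BrHalf.per p ζ a
      = ∑ s ∈ BrHalf.sq p, AddChar.zmodChar p hζ.pow_eq_one ((a : ZMod p) * s) := by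
  unfold BrHalf.per
  apply Finset.sum_congr rfl
  intro s _
  rw [← AddChar.zmodChar_apply' hζ.pow_eq_one (a * s.val)]
  congr 1
  rw [Nat.cast_mul, ZMod.natCast_zmod_val]

theorem psi_primitive {ζ : ℂ} (hζ : IsPrimitiveRoot ζ p) :
    (AddChar.zmodChar p hζ.pow_eq_one).IsPrimitive :=
  AddChar.zmodChar_primitive_of_primitive_root p hζ

/-- the quadratic character with complex values -/
noncomputable def chi : MulChar (ZMod p) ℂ :=
  (quadraticChar (ZMod p)).ringHomComp (Int.castRingHom ℂ)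

theorem chi_apply (a : ZMod p) : chi p a = ((quadraticChar (ZMod p) a : ℤ) : ℂ) := rfl

theorem chi_ne_one (hp2 : p ≠ 2) : chi p ≠ 1 := by
  unfold chi
  rw [MulChar.ringHomComp_ne_one_iff (Int.cast_injective)]
  apply quadraticChar_ne_one
  rw [ZMod.ringChar_zmod_n]
  exact hp2

theorem chi_quadratic : (chi p).IsQuadratic :=
  (quadraticChar_isQuadratic (F := ZMod p)).comp _

theorem chi_of_sq {s : ZMod p} (hs0 : s ≠ 0) (hs : IsSquare s) : chi p s = 1 := by
  rw [chi_apply, (quadraticChar_one_iff_isSquare hs0).2 hs]; simp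

theorem chi_of_nonsq {s : ZMod p} (hs : ¬ IsSquare s) : chi p s = -1 := by
  rw [chi_apply, quadraticChar_neg_one_iff_not_isSquare.2 hs]; simp

theorem chi_zero : chi p 0 = 0 := by
  rw [chi_apply, quadraticChar_zero]; simp

theorem chi_sq_one {s : ZMod p} (hs0 : s ≠ 0) : chi p s * chi p s = 1 := by
  by_cases hs : IsSquare s
  · rw [chi_of_sq p hs0 hs]; ring
  · rw [chi_of_nonsq p hs]; ring

/-- the quadratic Gauss sum -/
noncomputable def gs {ζ : ℂ} (hζ : IsPrimitiveRoot ζ p) : ℂ :=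
  gaussSum (chi p) (AddChar.zmodChar p hζ.pow_eq_one)

theorem gs_sq (hp2 : p ≠ 2) {ζ : ℂ} (hζ : IsPrimitiveRoot ζ p) :
    gs p hζ ^ 2 = if p % 4 = 1 then (p : ℂ) else -(p : ℂ) := by
  unfold gs
  rw [gaussSum_sq (chi_ne_one p hp2) (chi_quadratic p) (psi_primitive p hζ), ZMod.card,
    chi_apply, quadraticChar_neg_one (by rw [ZMod.ringChar_zmod_n]; exact hp2), ZMod.card]
  have hodd : p % 2 = 1 := by
    rcases (Fact.out : p.Prime).eq_two_or_odd with h | h
    · exact absurd h hp2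
    · exact h
  by_cases h4 : p % 4 = 1
  · rw [if_pos h4, ZMod.χ₄_nat_one_mod_four h4]; simp
  · rw [if_neg h4, ZMod.χ₄_nat_three_mod_four (by omega)]; simp

theorem gs_mul_conj (hp2 : p ≠ 2) {ζ : ℂ} (hζ : IsPrimitiveRoot ζ p) :
    gs p hζ * conj (gs p hζ) = (p : ℂ) := by
  unfold gs
  rw [starRingEnd_apply, star_gaussSum_eq,
    gaussSum_mul_gaussSum_eq_card (chi_ne_one p hp2) (psi_primitive p hζ), ZMod.card]

/-- the basic formula: `2 * per a = -1 + χ(a) * g` for `a ≠ 0`. -/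
theorem two_per (hp2 : p ≠ 2) {ζ : ℂ} (hζ : IsPrimitiveRoot ζ p) (a : ℕ) (ha : ¬ p ∣ a) :
    2 * BrHalf.per p ζ a = -1 + chi p (a : ZMod p) * gs p hζ := by
  classical
  have ha0 : (a : ZMod p) ≠ 0 := by rwa [Ne, ZMod.natCast_eq_zero_iff]
  rw [per_eq p hζ a, Finset.mul_sum]
  have h1 : ∑ s ∈ BrHalf.sq p, 2 * AddChar.zmodChar p hζ.pow_eq_one ((a : ZMod p) * s)
      = ∑ s : ZMod p, ((1 + chi p s) * AddChar.zmodChar p hζ.pow_eq_one ((a : ZMod p) * s)
          - if s = 0 then 1 else 0) := by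
    rw [← Finset.sum_subset (Finset.subset_univ (BrHalf.sq p))]
    · apply Finset.sum_congr rfl
      intro s hs
      rw [mem_sq] at hs
      rw [chi_of_sq p hs.1 hs.2, if_neg hs.1]
      ring
    · intro s _ hs
      rw [mem_sq] at hs
      by_cases hs0 : s = 0
      · subst hs0
        rw [chi_zero, if_pos rfl, mul_zero, AddChar.map_zero_eq_one]
        ring
      · have hns : ¬ IsSquare s := fun h => hs ⟨hs0, h⟩
        rw [chi_of_nonsq p hns, if_neg hs0]
        ring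
  rw [h1, Finset.sum_sub_distrib, Finset.sum_ite_eq' Finset.univ (0 : ZMod p)]
  simp only [Finset.mem_univ, if_true, add_mul, one_mul, Finset.sum_add_distrib]
  have h2 : ∑ s : ZMod p, AddChar.zmodChar p hζ.pow_eq_one ((a : ZMod p) * s) = 0 := by
    have := AddChar.sum_mulShift (a : ZMod p) (psi_primitive p hζ)
    rw [if_neg ha0, Nat.cast_zero] at this
    rw [← this]
    apply Finset.sum_congr rfl
    intro s _
    rw [mul_comm]
  have h3 : ∑ s : ZMod p, chi p s * AddChar.zmodChar p hζ.pow_eq_one ((a : ZMod p) * s)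
      = chi p (a : ZMod p) * gs p hζ := by
    have h4 := gaussSum_mulShift (chi p) (AddChar.zmodChar p hζ.pow_eq_one) (Units.mk0 _ ha0)
    have h5 : gaussSum (chi p) (AddChar.mulShift (AddChar.zmodChar p hζ.pow_eq_one)
        ((Units.mk0 _ ha0 : (ZMod p)ˣ) : ZMod p))
        = ∑ s : ZMod p, chi p s * AddChar.zmodChar p hζ.pow_eq_one ((a : ZMod p) * s) := rfl
    rw [h5] at h4
    unfold gs
    rw [← h4, ← mul_assoc]
    have : chi p (a : ZMod p) * chi p ((Units.mk0 _ ha0 : (ZMod p)ˣ) : ZMod p) = 1 :=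
      chi_sq_one p ha0
    rw [this, one_mul]
  rw [h2, h3]
  ring

/-- the two periods of `a` and `a * k`, `k` a non-square -/
theorem key (hp2 : p ≠ 2) {ζ : ℂ} (hζ : IsPrimitiveRoot ζ p) (a k : ℕ) (ha : ¬ p ∣ a)
    (hk : ¬ IsSquare ((k : ℕ) : ZMod p)) :
    BrHalf.per p ζ a + BrHalf.per p ζ (a * k) = -1 ∧
    BrHalf.per p ζ a - BrHalf.per p ζ (a * k) = chi p (a : ZMod p) * gs p hζ ∧
    chi p (a : ZMod p) * chi p (a : ZMod p) = 1 := by
  have ha0 : (a : ZMod p) ≠ 0 := by rwa [Ne, ZMod.natCast_eq_zero_iff]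
  have hk0 : (k : ZMod p) ≠ 0 := by
    intro h; apply hk; rw [h]; exact IsSquare.zero
  have hak : ¬ p ∣ a * k := by
    rw [← ZMod.natCast_eq_zero_iff, Nat.cast_mul]
    exact mul_ne_zero ha0 hk0
  have e1 := two_per p hp2 hζ a ha
  have e2 := two_per p hp2 hζ (a * k) hak
  rw [Nat.cast_mul, map_mul, chi_of_nonsq p hk] at e2
  refine ⟨?_, ?_, chi_sq_one p ha0⟩
  · have : 2 * (BrHalf.per p ζ a + BrHalf.per p ζ (a * k)) = 2 * (-1) := by
      rw [mul_add, e1, e2]; ring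
    exact mul_left_cancel₀ two_ne_zero this
  · have : 2 * (BrHalf.per p ζ a - BrHalf.per p ζ (a * k))
        = 2 * (chi p (a : ZMod p) * gs p hζ) := by
      rw [mul_sub, e1, e2]; ring
    exact mul_left_cancel₀ two_ne_zero this

end Cfsg.Agent.Lib.Helper21.BrCPerBase
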