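import Mathlib
import Cfsg.Agent.Lib.Helper12.AOStmt
import Cfsg.Agent.S0494

/-!
S4068 piece Q4 (helper21, second seat): `PSL₂(4) ≃* A₅`, from the order formula `CardPSL`,
Mathlib's simplicity of `PSL₂` and the landed S0494 (a simple group of order 60).
-/

set_option autoImplicit false

namespace Cfsg.Agent.Lib.Helper21.AOQ4

open Cfsg.Agent.Lib.Helper12

theorem main : AOStmt.Q4 := by
  intro hCard F _ _ hF
  have hsimple : IsSimpleGroup (Matrix.ProjectiveSpecialLinearGroup (Fin 2) F) :=
    Matrix.ProjectiveSpecialLinearGroup.rank_two_simple (by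
      rw [Nat.card_eq_fintype_card, hF])
  have h := hCard F 2 (by norm_num) (by rw [hF]; norm_num)
  have h60 : Nat.card (Matrix.ProjectiveSpecialLinearGroup (Fin 2) F) = 60 := by
    rw [h]; norm_num
  have hfin : Finite (Matrix.ProjectiveSpecialLinearGroup (Fin 2) F) :=
    Nat.finite_of_card_ne_zero (by omega)
  exact Cfsg.Agent.S0494.result h60

end Cfsg.Agent.Lib.Helper21.AOQ4
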