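import Mathlib
import Cfsg.Agent.Lib.Helper96.AltStmt2

/-!
# S5165, part 2: shared lemmas on the translations `mk 1 1 b` and the block translations
-/

set_option autoImplicit false

namespace Cfsg.Agent.Lib.Helper21.AltBlock

open Equiv Cfsg.Agent.Lib.Helper96.AltStmt Cfsg.Agent.Lib.Helper96.AltModel

variable (p : ℕ) [Fact p.Prime] {β : Type} (δ : Type)

theorem tr_apply_inl (b : β → ZMod p) (i : β) (j : ZMod p) :
    mk p δ (1 : Perm β) (fun _ => 1) b (Sum.inl (i, j)) = Sum.inl (i, j + b i) := by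
  simp

theorem tr_mul (a b : β → ZMod p) :
    mk p δ (1 : Perm β) (fun _ => 1) a * mk p δ 1 (fun _ => 1) b =
      mk p δ 1 (fun _ => 1) (a + b) := by
  ext x
  rcases x with ⟨i, j⟩ | d
  · simp only [Perm.mul_apply, tr_apply_inl, Pi.add_apply]
    congr 2
    ring
  · simp

theorem tr_zero : mk p δ (1 : Perm β) (fun _ => 1) (0 : β → ZMod p) = 1 := mk_one p

theorem tr_neg (a : β → ZMod p) :
    mk p δ (1 : Perm β) (fun _ => 1) (-a) = (mk p δ 1 (fun _ => 1) a)⁻¹ := by
  apply eq_inv_of_mul_eq_one_right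
  rw [tr_mul, add_neg_cancel, tr_zero]

theorem tr_pow (a : β → ZMod p) (n : ℕ) :
    (mk p δ (1 : Perm β) (fun _ => 1) a) ^ n = mk p δ 1 (fun _ => 1) (n • a) := by
  induction n with
  | zero => rw [pow_zero, zero_smul, tr_zero]
  | succ n ih => rw [pow_succ, ih, tr_mul, succ_nsmul]

theorem tr_pow_p (a : β → ZMod p) : (mk p δ (1 : Perm β) (fun _ => 1) a) ^ p = 1 := by
  rw [tr_pow]
  have : p • a = 0 := by
    funext i
    simp
  rw [this, tr_zero]

variable [DecidableEq β]

/-- the translation of block `i` -/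
def blockTr (i : β) : Perm (β × ZMod p ⊕ δ) := mk p δ 1 (fun _ => 1) (Pi.single i 1)

theorem blockTr_mem (i : β) : blockTr p δ i ∈ Tr p β δ := ⟨_, rfl⟩

theorem blockTr_self (i : β) (j : ZMod p) :
    blockTr p δ i (Sum.inl (i, j)) = Sum.inl (i, j + 1) := by
  simp [blockTr]

theorem blockTr_of_ne {i k : β} (h : k ≠ i) (j : ZMod p) :
    blockTr p δ i (Sum.inl (k, j)) = Sum.inl (k, j) := by
  simp [blockTr, h]

theorem blockTr_inr (i : β) (d : δ) : blockTr p δ i (Sum.inr d) = Sum.inr d := rfl

theorem blockTr_pow_p (i : β) : blockTr p δ i ^ p = 1 := tr_pow_p p δ _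

theorem blockTr_ne_one (i : β) : blockTr p δ i ≠ 1 := by
  intro h
  have h1 := congrArg (fun g : Perm (β × ZMod p ⊕ δ) => g (Sum.inl (i, 0))) h
  simp only [blockTr_self] at h1
  simp at h1

theorem orderOf_blockTr (i : β) : orderOf (blockTr p δ i) = p :=
  orderOf_eq_prime (blockTr_pow_p p δ i) (blockTr_ne_one p δ i)

/-- an additive subgroup of `β → ZMod p` containing the `Pi.single i 1` is everything -/
theorem mem_of_singles [Fintype β] (K : AddSubgroup (β → ZMod p))
    (h : ∀ i, Pi.single i (1 : ZMod p) ∈ K) (b : β → ZMod p) : b ∈ K := by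
  have hb : b = ∑ i, (b i).val • Pi.single i (1 : ZMod p) := by
    funext k
    rw [Finset.sum_apply]
    simp [Pi.single_apply]
  rw [hb]
  exact K.sum_mem (fun i _ => K.nsmul_mem (h i) _)

variable [Fintype β] [DecidableEq δ] [Fintype δ]

theorem blockTr_support_subset (i : β) : (blockTr p δ i).support ⊆
    Finset.univ.image (fun j : ZMod p => (Sum.inl (i, j) : β × ZMod p ⊕ δ)) := by
  intro x hx
  rw [Perm.mem_support] at hx
  rcases x with ⟨k, j⟩ | d
  · by_cases hk : k = i
    · subst hk
      exact Finset.mem_image.mpr ⟨j, Finset.mem_univ _, rfl⟩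
    · exact absurd (blockTr_of_ne p δ hk j) hx
  · exact absurd (blockTr_inr p δ i d) hx

theorem blockTr_isCycle (i : β) : (blockTr p δ i).IsCycle := by
  apply Perm.isCycle_of_prime_order
  · rw [orderOf_blockTr]
    exact Fact.out
  · rw [orderOf_blockTr]
    have h1 := Finset.card_le_card (blockTr_support_subset p δ i)
    have h2 : (Finset.univ.image
        (fun j : ZMod p => (Sum.inl (i, j) : β × ZMod p ⊕ δ))).card ≤ p := by
      refine Finset.card_image_le.trans ?_
      rw [Finset.card_univ, ZMod.card]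
    have hp : 0 < p := (Fact.out : p.Prime).pos
    omega

theorem blockTr_support_card (i : β) : (blockTr p δ i).support.card = p := by
  rw [← (blockTr_isCycle p δ i).orderOf, orderOf_blockTr]

end Cfsg.Agent.Lib.Helper21.AltBlock
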