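import Mathlib
import Cfsg.Agent.Lib.Helper96.AltStmt2

/-!
# S5165 / piece DP: the product of the multipliers of the torus element
-/

set_option autoImplicit false

namespace Cfsg.Agent.Lib.Helper21.AltDP

open Equiv Cfsg.Agent.Lib.Helper96.AltStmt Cfsg.Agent.Lib.Helper96.AltModel
  Cfsg.Agent.Lib.Helper96.AltStmt2

theorem unit_pow_card (p : ℕ) [Fact p.Prime] (v : (ZMod p)ˣ) : v ^ p = v := by
  apply Units.ext
  rw [Units.val_pow_eq_pow_val, ZMod.pow_card]

theorem unit_pow_card_pow (p : ℕ) [Fact p.Prime] (v : (ZMod p)ˣ) (n : ℕ) : v ^ p ^ n = v := by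
  induction n with
  | zero => simp
  | succ n ih => rw [pow_succ, pow_mul, ih, unit_pow_card]

/-- [DP] -/
theorem main : Cfsg.Agent.Lib.Helper96.AltStmt2.DProd := by
  intro p _ Γ Λ _ _ _ _ Γ' a ha u
  rw [Fintype.prod_sum_type]
  simp only [Sum.elim_inl, Sum.elim_inr, Finset.prod_const_one, mul_one]
  rw [Fintype.prod_prod_type]
  have h1 : ∀ γ : Γ, ∏ _i : ZMod p, (if γ ∈ Γ' then u⁻¹ else (1 : (ZMod p)ˣ)) =
      if γ ∈ Γ' then u⁻¹ else 1 := by
    intro γ
    rw [Finset.prod_const, Finset.card_univ, ZMod.card]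
    split_ifs
    · exact unit_pow_card p _
    · exact one_pow _
  rw [Finset.prod_congr rfl (fun γ _ => h1 γ)]
  rw [Finset.prod_ite_mem, Finset.univ_inter, Finset.prod_const, ha]
  exact unit_pow_card_pow p _ a

end Cfsg.Agent.Lib.Helper21.AltDP
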