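import Mathlib
import Cfsg.Agent.Lib.Helper96.AltStmt2
import Cfsg.Agent.Lib.Helper21.AltBlock

/-!
# S5165 / piece NT: the normalizer of a `p`-group containing the translations normalizes the
translations
-/

set_option autoImplicit false

namespace Cfsg.Agent.Lib.Helper21.AltNT

open Equiv Cfsg.Agent.Lib.Helper96.AltStmt Cfsg.Agent.Lib.Helper96.AltModel
  Cfsg.Agent.Lib.Helper96.AltStmt2 Cfsg.Agent.Lib.Helper21.AltBlock

theorem claimA (hPC : PCycC) (p : ℕ) [Fact p.Prime] (β δ : Type) [DecidableEq β] [Fintype β]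
    [DecidableEq δ] [Fintype δ] (hδ : Fintype.card δ < p)
    (P : Subgroup (Perm (β × ZMod p ⊕ δ))) (hP : IsPGroup p P) (hTr : Tr p β δ ≤ P)
    (g : Perm (β × ZMod p ⊕ δ))
    (hg : g ∈ Subgroup.normalizer (P : Set (Perm (β × ZMod p ⊕ δ)))) :
    ∀ h ∈ Tr p β δ, g * h * g⁻¹ ∈ Tr p β δ := by
  let K : AddSubgroup (β → ZMod p) :=
    { carrier := {b | g * mk p δ 1 (fun _ => 1) b * g⁻¹ ∈ Tr p β δ}
      add_mem' := by
        intro a b ha hb
        show g * mk p δ 1 (fun _ => 1) (a + b) * g⁻¹ ∈ Tr p β δ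
        rw [← tr_mul]
        have : g * (mk p δ 1 (fun _ => 1) a * mk p δ 1 (fun _ => 1) b) * g⁻¹ =
            (g * mk p δ 1 (fun _ => 1) a * g⁻¹) * (g * mk p δ 1 (fun _ => 1) b * g⁻¹) := by
          group
        rw [this]
        exact Subgroup.mul_mem _ ha hb
      zero_mem' := by
        show g * mk p δ 1 (fun _ => 1) (0 : β → ZMod p) * g⁻¹ ∈ Tr p β δ
        rw [tr_zero, mul_one, mul_inv_cancel]
        exact Subgroup.one_mem _
      neg_mem' := by
        intro a ha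
        show g * mk p δ 1 (fun _ => 1) (-a) * g⁻¹ ∈ Tr p β δ
        rw [tr_neg]
        have : g * (mk p δ 1 (fun _ => 1) a)⁻¹ * g⁻¹ =
            (g * mk p δ 1 (fun _ => 1) a * g⁻¹)⁻¹ := by group
        rw [this]
        exact Subgroup.inv_mem _ ha }
  have hK : ∀ b, b ∈ K := by
    apply mem_of_singles
    intro i
    show g * blockTr p δ i * g⁻¹ ∈ Tr p β δ
    apply hPC p β δ hδ P hP hTr
    · exact (Subgroup.mem_normalizer_iff.mp hg _).mp (hTr (blockTr_mem p δ i))
    · exact (blockTr_isCycle p δ i).conj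
    · rw [Perm.card_support_conj]
      exact blockTr_support_card p δ i
  rintro _ ⟨b, rfl⟩
  exact hK b

/-- [NT] -/
theorem main : Cfsg.Agent.Lib.Helper96.AltStmt2.NormTr := by
  intro hPC p _ β δ _ _ _ _ hδ P hP hTr g hg
  rw [Subgroup.mem_normalizer_iff]
  intro h
  constructor
  · exact claimA hPC p β δ hδ P hP hTr g hg h
  · intro hh
    have := claimA hPC p β δ hδ P hP hTr g⁻¹ (Subgroup.inv_mem _ hg) _ hh
    have e : g⁻¹ * (g * h * g⁻¹) * g⁻¹⁻¹ = h := by group
    rwa [e] at this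

end Cfsg.Agent.Lib.Helper21.AltNT
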