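import Mathlib
import Cfsg.Agent.Lib.Helper96.AltStmt2

/-!
# S5165 / piece OB: a `p`-group of permutations of a nonempty set has an invariant subset of
`p`-power size (an orbit)
-/

set_option autoImplicit false

namespace Cfsg.Agent.Lib.Helper21.AltOB

open Equiv Cfsg.Agent.Lib.Helper96.AltStmt Cfsg.Agent.Lib.Helper96.AltModel
  Cfsg.Agent.Lib.Helper96.AltStmt2

/-- [OB] -/
theorem main : Cfsg.Agent.Lib.Helper96.AltStmt2.OrbitSet := by
  intro p _ Γ _ _ _ P₂ hP
  obtain ⟨γ₀⟩ := (inferInstance : Nonempty Γ)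
  have hfin : (MulAction.orbit P₂ γ₀).Finite := Set.toFinite _
  obtain ⟨a, ha⟩ := hP.card_orbit γ₀
  refine ⟨hfin.toFinset, a, ?_, ?_⟩
  · rw [← Set.ncard_eq_toFinset_card _ hfin, ← Nat.card_coe_set_eq]
    exact ha
  · intro π hπ γ
    rw [Set.Finite.mem_toFinset, Set.Finite.mem_toFinset]
    have h1 : π γ = (⟨π, hπ⟩ : ↥P₂) • γ := rfl
    rw [h1, ← MulAction.orbit_eq_iff, ← MulAction.orbit_eq_iff (a := γ), MulAction.orbit_smul]

end Cfsg.Agent.Lib.Helper21.AltOB
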