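import Mathlib
import Cfsg.Agent.Lib.Helper96.AltStmt2
import Cfsg.Agent.Lib.Helper21.AltBlock

/-!
# S5165 / piece PC: a `p`-cycle of a `p`-group containing the translations is a translation
-/

set_option autoImplicit false

namespace Cfsg.Agent.Lib.Helper21.AltPC

open Equiv Cfsg.Agent.Lib.Helper96.AltStmt Cfsg.Agent.Lib.Helper96.AltModel
  Cfsg.Agent.Lib.Helper96.AltStmt2 Cfsg.Agent.Lib.Helper21.AltBlock

/-- [PC] -/
theorem main : Cfsg.Agent.Lib.Helper96.AltStmt2.PCyc := by
  intro hC2 p _ β δ _ _ _ _ hδ P hP hTr c hcP hc hcard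
  by_cases hmv : ∃ i j, c (Sum.inl (i, j)) ≠ Sum.inl (i, j)
  · obtain ⟨i, j, hij⟩ := hmv
    have h1 := hC2 (β × ZMod p ⊕ δ) p P hP (blockTr p δ i) c (hTr (blockTr_mem p δ i)) hcP
      (blockTr_isCycle p δ i) (blockTr_support_card p δ i) hc hcard (Sum.inl (i, j))
      (by rw [blockTr_self]; simp) hij
    exact (Subgroup.zpowers_le.mpr (blockTr_mem p δ i)) h1
  · push Not at hmv
    exfalso
    have hsub : c.support ⊆
        Finset.univ.image (fun d : δ => (Sum.inr d : β × ZMod p ⊕ δ)) := by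
      intro x hx
      rw [Perm.mem_support] at hx
      rcases x with ⟨k, j⟩ | d
      · exact absurd (hmv k j) hx
      · exact Finset.mem_image.mpr ⟨d, Finset.mem_univ _, rfl⟩
    have h1 := Finset.card_le_card hsub
    have h2 : (Finset.univ.image (fun d : δ => (Sum.inr d : β × ZMod p ⊕ δ))).card ≤
        Fintype.card δ := by
      refine Finset.card_image_le.trans ?_
      rw [Finset.card_univ]
    omega

end Cfsg.Agent.Lib.Helper21.AltPC
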