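import Mathlib
import Cfsg.Prelude.Def_Local
import Cfsg.Prelude.Def_Balance
import Cfsg.Agent.Lib.Helper21.LBal
import Cfsg.Agent.Lib.Helper23.Cores

set_option autoImplicit false

/-!
The automizer `Aut_H(L) = H / C_H(L)` of a subgroup `L ⊴ H` as a group of automorphisms of `L`
(or of `L / Z(L)` when `L` is quasisimple) containing the inner automorphisms; transport of
`O_{p'}(C(x))` and of `Δ` along isomorphisms; local `k`-balance gives `Δ = 1` in automizers.
-/

namespace Cfsg.Agent.Lib.Helper21.AutEmb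

open Subgroup
open scoped commutatorElement
open Cfsg.Agent.Lib.Helper21

universe u

section transport

variable {G₁ G₂ : Type*} [Group G₁] [Group G₂]

theorem map_centralizer_singleton (e : G₁ ≃* G₂) (x : G₁) :
    (centralizer ({x} : Set G₁)).map e.toMonoidHom = centralizer ({e x} : Set G₂) := by
  ext y
  rw [Subgroup.mem_map_equiv, mem_centralizer_singleton_iff, mem_centralizer_singleton_iff]
  constructor
  · intro h
    have := congrArg e h
    simpa using this
  · intro h
    apply e.injective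
    simpa using h

/-- `O_{p'}(C(x))` is carried by isomorphisms. -/
theorem cpc_map (p : ℕ) (e : G₁ ≃* G₂) (x : G₁) :
    (Cfsg.centralizerPPrimeCore p x).map e.toMonoidHom = Cfsg.centralizerPPrimeCore p (e x) := by
  unfold Cfsg.centralizerPPrimeCore
  rw [← Cfsg.Agent.Lib.Helper23.Cores.pPrimeCore_subgroup_map p e (centralizer ({x} : Set G₁)),
    map_centralizer_singleton]

/-- `Δ` is carried by isomorphisms (one inclusion). -/
theorem delta_map_le (p : ℕ) (e : G₁ ≃* G₂) (B : Subgroup G₁) :
    (Cfsg.signalizerDelta p B).map e.toMonoidHom ≤ Cfsg.signalizerDelta p (B.map e.toMonoidHom) := by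
  unfold Cfsg.signalizerDelta
  apply le_iInf
  rintro ⟨b, hbB, hb1⟩
  obtain ⟨a, ha, rfl⟩ := hbB
  have ha1 : a ≠ 1 := by
    rintro rfl
    exact hb1 (map_one _)
  have h1 : (⨅ a : {a : G₁ // a ∈ B ∧ a ≠ 1}, Cfsg.centralizerPPrimeCore p (a : G₁)) ≤
      Cfsg.centralizerPPrimeCore p a :=
    iInf_le (fun a : {a : G₁ // a ∈ B ∧ a ≠ 1} => Cfsg.centralizerPPrimeCore p (a : G₁))
      ⟨a, SetLike.mem_coe.1 ha, ha1⟩
  have h2 := Subgroup.map_mono (f := e.toMonoidHom) h1
  rw [cpc_map] at h2
  exact h2

theorem delta_eq_bot_of_map (p : ℕ) (e : G₁ ≃* G₂) (B : Subgroup G₁)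
    (h : Cfsg.signalizerDelta p (B.map e.toMonoidHom) = ⊥) : Cfsg.signalizerDelta p B = ⊥ := by
  have h1 := delta_map_le p e B
  rw [h, le_bot_iff] at h1
  exact (Subgroup.map_eq_bot_iff_of_injective _ e.injective).1 h1

theorem isElementaryAbelian_map (p : ℕ) (e : G₁ ≃* G₂) {B : Subgroup G₁}
    (hB : Cfsg.IsElementaryAbelian p B) : Cfsg.IsElementaryAbelian p (B.map e.toMonoidHom) := by
  refine ⟨isMulCommutative_iff.2 ?_, ?_⟩
  · rintro ⟨_, a, ha, rfl⟩ ⟨_, b, hb, rfl⟩
    apply Subtype.ext
    show e.toMonoidHom a * e.toMonoidHom b = e.toMonoidHom b * e.toMonoidHom a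
    rw [← map_mul, ← map_mul]
    congr 1
    exact congrArg Subtype.val ((isMulCommutative_iff.1 hB.1) ⟨a, ha⟩ ⟨b, hb⟩)
  · rintro _ ⟨a, ha, rfl⟩
    rw [← map_pow, hB.2 a ha, map_one]

end transport

section aut

variable {G : Type*} [Group G]

/-- Conjugation by an element of the normalizer, as an automorphism of the subgroup. -/
def conjAut (L : Subgroup G) (g : ↥(normalizer (L : Set G))) : MulAut ↥L where
  toFun l := ⟨g * l * (g : G)⁻¹, (mem_normalizer_iff.1 g.2 l).1 l.2⟩
  invFun l := ⟨(g : G)⁻¹ * l * g, by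
    have := (mem_normalizer_iff.1 (inv_mem g.2) (l : G)).1 l.2
    simpa using this⟩
  left_inv l := by apply Subtype.ext; simp [mul_assoc]
  right_inv l := by apply Subtype.ext; simp [mul_assoc]
  map_mul' a b := by apply Subtype.ext; simp [mul_assoc]

/-- The conjugation action of the normalizer on the subgroup. -/
def conjHom (L : Subgroup G) : ↥(normalizer (L : Set G)) →* MulAut ↥L where
  toFun := conjAut L
  map_one' := by ext l; simp [conjAut]
  map_mul' a b := by ext l; simp [conjAut, mul_assoc]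

theorem conjHom_apply (L : Subgroup G) (g : ↥(normalizer (L : Set G))) (l : ↥L) :
    ((conjHom L g) l : G) = g * l * (g : G)⁻¹ := rfl

/-- The induced action on the central quotient. -/
def quotAut (K : Type*) [Group K] : MulAut K →* MulAut (K ⧸ center K) where
  toFun e := QuotientGroup.congr (center K) (center K) e
    (Subgroup.characteristic_iff_map_eq.1 inferInstance e)
  map_one' := by
    ext x
    induction x using QuotientGroup.induction_on with
    | H x => rfl
  map_mul' a b := by
    ext x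
    induction x using QuotientGroup.induction_on with
    | H x => rfl

theorem quotAut_mk (K : Type*) [Group K] (e : MulAut K) (x : K) :
    quotAut K e (QuotientGroup.mk x) = QuotientGroup.mk (e x) := rfl

/-- The kernel of the conjugation action of `H ≤ N(L)` on `L` is `C_H(L)`. -/
theorem ker_conjHom_comp {L H : Subgroup G} (hHL : H ≤ normalizer (L : Set G)) :
    ((conjHom L).comp (inclusion hHL)).ker = (centralizer (L : Set G)).subgroupOf H := by
  ext h
  rw [MonoidHom.mem_ker, mem_subgroupOf, mem_centralizer_iff]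
  constructor
  · intro h1 l hl
    have h2 := congrArg (fun e : MulAut ↥L => ((e ⟨l, hl⟩ : ↥L) : G)) h1
    simp only [MonoidHom.comp_apply, MulAut.one_apply] at h2
    rw [conjHom_apply] at h2
    simp only [coe_inclusion] at h2
    calc l * h = ((h : G) * l * (h : G)⁻¹) * h := by rw [h2]
      _ = h * l := by group
  · intro h1
    ext l
    simp only [MonoidHom.comp_apply, MulAut.one_apply]
    rw [conjHom_apply]
    simp only [coe_inclusion]
    rw [← h1 l l.2]
    group

/-- Inner automorphisms of `L` are induced by `H ≥ L`. -/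
theorem inn_le_range_conjHom_comp {L H : Subgroup G} (hHL : H ≤ normalizer (L : Set G))
    (hLH : L ≤ H) :
    (MulAut.conj : ↥L →* MulAut ↥L).range ≤ ((conjHom L).comp (inclusion hHL)).range := by
  rintro _ ⟨l, rfl⟩
  refine ⟨⟨l, hLH l.2⟩, ?_⟩
  ext l'
  simp only [MonoidHom.comp_apply]
  rw [conjHom_apply]
  simp [MulAut.conj_apply]

/-- The kernel of the action of `H ≤ N(L)` on `L / Z(L)` is `C_H(L)` when `L` is quasisimple. -/
theorem ker_quotAut_comp {L H : Subgroup G} (hQ : Cfsg.IsQuasisimple L)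
    (hHL : H ≤ normalizer (L : Set G)) :
    ((quotAut ↥L).comp ((conjHom L).comp (inclusion hHL))).ker =
      (centralizer (L : Set G)).subgroupOf H := by
  apply le_antisymm
  · -- the image of the kernel in `G`
    obtain ⟨Kr, hKr⟩ : ∃ Kr, Kr = (((quotAut ↥L).comp
        ((conjHom L).comp (inclusion hHL))).ker).map H.subtype := ⟨_, rfl⟩
    have hcomm : ⁅L, Kr⁆ ≤ centralizer (L : Set G) := by
      rw [commutator_le]
      intro l hl y hy
      rw [hKr] at hy
      obtain ⟨h, hh, rfl⟩ := hy
      have hh' := MonoidHom.mem_ker.1 (SetLike.mem_coe.1 hh)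
      have h2 := congrArg (fun e : MulAut (↥L ⧸ center ↥L) =>
        e (QuotientGroup.mk (⟨l⁻¹, inv_mem hl⟩ : ↥L))) hh'
      simp only [MonoidHom.comp_apply, MulAut.one_apply] at h2
      rw [quotAut_mk, QuotientGroup.eq] at h2
      rw [mem_centralizer_iff]
      intro m hm
      have h3 := (mem_center_iff.1 h2) ⟨m, hm⟩
      have h4 := congrArg Subtype.val h3
      simp only [Subgroup.coe_mul, Subgroup.coe_inv, conjHom_apply, coe_inclusion] at h4
      have hz : Commute m (((h : G) * l⁻¹ * (h : G)⁻¹)⁻¹ * l⁻¹) := h4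
      rw [commutatorElement_def]
      simp only [Subgroup.coe_subtype]
      have e1 : l * (h : G) * l⁻¹ * (h : G)⁻¹ = (((h : G) * l⁻¹ * (h : G)⁻¹)⁻¹ * l⁻¹)⁻¹ := by group
      rw [e1]
      exact hz.inv_right.eq
    have hbot := LBal.commutator_eq_bot_of_le_centralizer hQ hcomm
    rw [commutator_comm, commutator_eq_bot_iff_le_centralizer] at hbot
    intro h hh
    rw [mem_subgroupOf]
    apply hbot
    rw [hKr]
    exact mem_map_of_mem _ hh
  · rw [← ker_conjHom_comp hHL]
    intro h hh
    rw [MonoidHom.mem_ker] at hh ⊢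
    rw [MonoidHom.comp_apply, hh, map_one]

/-- Inner automorphisms of `L / Z(L)` are induced by `H ≥ L`. -/
theorem inn_le_range_quotAut_comp {L H : Subgroup G} (hHL : H ≤ normalizer (L : Set G))
    (hLH : L ≤ H) :
    (MulAut.conj : (↥L ⧸ center ↥L) →* MulAut (↥L ⧸ center ↥L)).range ≤
      ((quotAut ↥L).comp ((conjHom L).comp (inclusion hHL))).range := by
  rintro _ ⟨k, rfl⟩
  obtain ⟨l, rfl⟩ := QuotientGroup.mk_surjective k
  refine ⟨⟨l, hLH l.2⟩, ?_⟩
  ext x
  induction x using QuotientGroup.induction_on with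
  | H x =>
    simp only [MonoidHom.comp_apply]
    rw [quotAut_mk, MulAut.conj_apply, ← QuotientGroup.mk_mul, ← QuotientGroup.mk_inv,
      ← QuotientGroup.mk_mul]
    congr 1

end aut

section main

variable {G : Type u} [Group G]

/-- Transport: `Δ = 1` in a subgroup of `MulAut K` gives `Δ = 1` in `H / N` when `H / N` is the
image of a homomorphism `ψ : H → MulAut K` with kernel `N`. -/
theorem delta_eq_bot_of_hom (p k : ℕ) {K : Type u} [Group K] {H : Subgroup G}
    (N : Subgroup ↥H) [N.Normal] (ψ : ↥H →* MulAut K) (hker : ψ.ker = N)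
    (hinn : (MulAut.conj : K →* MulAut K).range ≤ ψ.range)
    (hloc : Cfsg.IsLocallyKBalanced p k K)
    (B : Subgroup (↥H ⧸ N)) (hB : Cfsg.IsElementaryAbelian p B) (hBk : Nat.card B = p ^ k) :
    Cfsg.signalizerDelta p B = ⊥ := by
  obtain ⟨e⟩ : Nonempty ((↥H ⧸ N) ≃* ↥ψ.range) :=
    ⟨(QuotientGroup.quotientMulEquivOfEq hker.symm).trans (QuotientGroup.quotientKerEquivRange ψ)⟩
  apply delta_eq_bot_of_map p e B
  apply hloc ψ.range hinn _ (isElementaryAbelian_map p e hB)
  rw [card_map_of_injective e.injective, hBk]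

/-- Local `k`-balance of `L / Z(L)` gives `Δ = 1` in every automizer `H / C_H(L)`. -/
theorem delta_eq_bot_of_locallyKBalanced_quot (p k : ℕ) {L : Subgroup G}
    (hQ : Cfsg.IsQuasisimple L) (hloc : Cfsg.IsLocallyKBalanced p k (↥L ⧸ center ↥L))
    (H : Subgroup G) (hLH : L ≤ H) (hLn : (L.subgroupOf H).Normal)
    [((centralizer (L : Set G)).subgroupOf H).Normal]
    (B : Subgroup (↥H ⧸ (centralizer (L : Set G)).subgroupOf H))
    (hB : Cfsg.IsElementaryAbelian p B) (hBk : Nat.card B = p ^ k) :
    Cfsg.signalizerDelta p B = ⊥ := by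
  have hHL : H ≤ normalizer (L : Set G) := (normal_subgroupOf_iff_le_normalizer hLH).1 hLn
  exact delta_eq_bot_of_hom p k _ ((quotAut ↥L).comp ((conjHom L).comp (inclusion hHL)))
    (ker_quotAut_comp hQ hHL) (inn_le_range_quotAut_comp hHL hLH) hloc B hB hBk

/-- Local `k`-balance of `L` gives `Δ = 1` in every automizer `H / C_H(L)`. -/
theorem delta_eq_bot_of_locallyKBalanced (p k : ℕ) {L : Subgroup G}
    (hloc : Cfsg.IsLocallyKBalanced p k ↥L)
    (H : Subgroup G) (hLH : L ≤ H) (hLn : (L.subgroupOf H).Normal)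
    [((centralizer (L : Set G)).subgroupOf H).Normal]
    (B : Subgroup (↥H ⧸ (centralizer (L : Set G)).subgroupOf H))
    (hB : Cfsg.IsElementaryAbelian p B) (hBk : Nat.card B = p ^ k) :
    Cfsg.signalizerDelta p B = ⊥ := by
  have hHL : H ≤ normalizer (L : Set G) := (normal_subgroupOf_iff_le_normalizer hLH).1 hLn
  exact delta_eq_bot_of_hom p k _ ((conjHom L).comp (inclusion hHL))
    (ker_conjHom_comp hHL) (inn_le_range_conjHom_comp hHL hLH) hloc B hB hBk

end main

end Cfsg.Agent.Lib.Helper21.AutEmb
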