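import Mathlib
import Cfsg.Agent.Lib.Helper73.BG14Stmt

set_option autoImplicit false

namespace Cfsg.Agent.Lib.Helper21.BG14CENT

universe u

theorem main : Cfsg.Agent.Lib.Helper73.BG14Stmt.CentDecomp.{u} := by
  intro G _ A S N hcompl hNS x hx c hc hcx
  obtain ⟨hAN, hSN, hAS, hprod⟩ := hcompl
  obtain ⟨a, ha, b, hb, rfl⟩ := hprod c hc
  have hxN : x ∈ Subgroup.normalizer (S : Set G) := hNS (hAN hx)
  -- w = a⁻¹ x a x⁻¹ = b x b⁻¹ x⁻¹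
  have hw : a⁻¹ * x * a * x⁻¹ = b * x * b⁻¹ * x⁻¹ := by
    have h1 : a⁻¹ * x * a = b * x * b⁻¹ := by
      calc a⁻¹ * x * a = a⁻¹ * (x * (a * b)) * b⁻¹ := by group
        _ = a⁻¹ * (a * b * x) * b⁻¹ := by rw [hcx]
        _ = b * x * b⁻¹ := by group
    rw [h1]
  have hwA : a⁻¹ * x * a * x⁻¹ ∈ A :=
    A.mul_mem (A.mul_mem (A.mul_mem (A.inv_mem ha) hx) ha) (A.inv_mem hx)
  have hwS : b * x * b⁻¹ * x⁻¹ ∈ S := by
    have h1 : x * b⁻¹ * x⁻¹ ∈ S := (Subgroup.mem_normalizer_iff.mp hxN b⁻¹).mp (S.inv_mem hb)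
    have h2 : b * x * b⁻¹ * x⁻¹ = b * (x * b⁻¹ * x⁻¹) := by group
    rw [h2]
    exact S.mul_mem hb h1
  have hw1 : a⁻¹ * x * a * x⁻¹ = 1 := by
    have : a⁻¹ * x * a * x⁻¹ ∈ A ⊓ S := ⟨hwA, hw ▸ hwS⟩
    rw [hAS] at this
    exact Subgroup.mem_bot.mp this
  refine ⟨a, ha, b, hb, rfl, ?_, ?_⟩
  · calc a * x = a * (a⁻¹ * x * a * x⁻¹) * x := by rw [hw1, mul_one]
      _ = x * a := by group
  · have hw2 : b * x * b⁻¹ * x⁻¹ = 1 := by rw [← hw]; exact hw1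
    calc b * x = (b * x * b⁻¹ * x⁻¹) * x * b := by group
      _ = x * b := by rw [hw2, one_mul]

end Cfsg.Agent.Lib.Helper21.BG14CENT
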