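import Mathlib
import Cfsg.Agent.Lib.Helper73.BG14Stmt

set_option autoImplicit false

namespace Cfsg.Agent.Lib.Helper21.BG14REGABS

universe u

theorem mem_cj {G : Type*} [Group G] (M : Subgroup G) (g y : G) :
    y ∈ M.map (MulAut.conj g).toMonoidHom ↔ g⁻¹ * y * g ∈ M := by
  constructor
  · rintro ⟨z, hz, rfl⟩
    have : g⁻¹ * ((MulAut.conj g).toMonoidHom z) * g = z := by
      show g⁻¹ * (g * z * g⁻¹) * g = z
      group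
    rw [this]; exact hz
  · intro h
    refine ⟨g⁻¹ * y * g, h, ?_⟩
    show g * (g⁻¹ * y * g) * g⁻¹ = y
    group

theorem cj_mul_mem {G : Type*} [Group G] (M : Subgroup G) (g m : G) (hm : m ∈ M) :
    M.map (MulAut.conj (g * m)).toMonoidHom = M.map (MulAut.conj g).toMonoidHom := by
  ext y
  rw [mem_cj, mem_cj]
  constructor
  · intro h
    have : g⁻¹ * y * g = m * ((g * m)⁻¹ * y * (g * m)) * m⁻¹ := by group
    rw [this]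
    exact M.mul_mem (M.mul_mem hm h) (M.inv_mem hm)
  · intro h
    have : (g * m)⁻¹ * y * (g * m) = m⁻¹ * (g⁻¹ * y * g) * m := by group
    rw [this]
    exact M.mul_mem (M.mul_mem (M.inv_mem hm) h) hm

theorem main : Cfsg.Agent.Lib.Helper73.BG14Stmt.RegAbs.{u} := by
  intro G _ M S N hcompl hNS hNM x hx g hg hxg
  obtain ⟨hAN, hSN, hAS, hprod⟩ := hcompl
  obtain ⟨c, hc, m, hm, rfl⟩ := hg
  obtain ⟨a, ha, b, hb, hcab⟩ := hprod c⁻¹ (N.inv_mem hc)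
  have hxN : x ∈ Subgroup.normalizer (S : Set G) := hNS hx.2
  -- c = b⁻¹ a⁻¹
  have hceq : c = b⁻¹ * a⁻¹ := by
    have : c = (c⁻¹)⁻¹ := by group
    rw [this, hcab]; group
  have hcj : M.map (MulAut.conj (c * m)).toMonoidHom = M.map (MulAut.conj b⁻¹).toMonoidHom := by
    rw [cj_mul_mem M c m hm, hceq, cj_mul_mem M b⁻¹ a⁻¹ (M.inv_mem ha.1)]
  have hrS : b⁻¹ ∈ S := S.inv_mem hb
  -- r = b⁻¹ centralizes x
  have hrx : b⁻¹ * x = x * b⁻¹ := by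
    rw [hcj, mem_cj] at hxg
    -- (b⁻¹)⁻¹ x b⁻¹ ∈ M, also in N
    have h1 : (b⁻¹)⁻¹ * x * b⁻¹ ∈ M ⊓ N :=
      ⟨hxg, N.mul_mem (N.mul_mem (N.inv_mem (hSN hrS)) hx.2) (hSN hrS)⟩
    have h2 : (b⁻¹)⁻¹ * x * b⁻¹ * x⁻¹ ∈ M ⊓ N := (M ⊓ N).mul_mem h1 ((M ⊓ N).inv_mem hx)
    have h3 : (b⁻¹)⁻¹ * x * b⁻¹ * x⁻¹ ∈ S := by
      have h4 : x * b⁻¹ * x⁻¹ ∈ S := (Subgroup.mem_normalizer_iff.mp hxN b⁻¹).mp hrS
      have h5 : (b⁻¹)⁻¹ * x * b⁻¹ * x⁻¹ = b * (x * b⁻¹ * x⁻¹) := by group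
      rw [h5]; exact S.mul_mem hb h4
    have h6 : (b⁻¹)⁻¹ * x * b⁻¹ * x⁻¹ = 1 := by
      have : (b⁻¹)⁻¹ * x * b⁻¹ * x⁻¹ ∈ (M ⊓ N) ⊓ S := ⟨h2, h3⟩
      rw [hAS] at this
      exact Subgroup.mem_bot.mp this
    calc b⁻¹ * x = b⁻¹ * ((b⁻¹)⁻¹ * x * b⁻¹ * x⁻¹) * x := by rw [h6, mul_one]
      _ = x * b⁻¹ := by group
  refine ⟨b⁻¹, ⟨⟨hrS, Subgroup.mem_centralizer_singleton_iff.mpr hrx⟩, hcj.symm⟩, ?_⟩
  rintro r' ⟨⟨hr'S, -⟩, hr'cj⟩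
  -- r'⁻¹... show r' = b⁻¹
  have heq : M.map (MulAut.conj r').toMonoidHom = M.map (MulAut.conj b⁻¹).toMonoidHom := by
    rw [hr'cj, hcj]
  -- (b⁻¹)⁻¹ r' ∈ normalizer M
  have hnorm : (b⁻¹)⁻¹ * r' ∈ Subgroup.normalizer (M : Set G) := by
    rw [Subgroup.mem_normalizer_iff]
    intro h
    constructor
    · intro hh
      -- r' h r'⁻¹ ∈ cj r' M = cj b⁻¹ M
      have h1 : r' * h * r'⁻¹ ∈ M.map (MulAut.conj r').toMonoidHom := by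
        rw [mem_cj]
        have : r'⁻¹ * (r' * h * r'⁻¹) * r' = h := by group
        rw [this]; exact hh
      rw [heq, mem_cj] at h1
      have : (b⁻¹)⁻¹ * r' * h * ((b⁻¹)⁻¹ * r')⁻¹ = (b⁻¹)⁻¹ * (r' * h * r'⁻¹) * b⁻¹ := by group
      rw [this]; exact h1
    · intro hh
      have h1 : r' * h * r'⁻¹ ∈ M.map (MulAut.conj b⁻¹).toMonoidHom := by
        rw [mem_cj]
        have : (b⁻¹)⁻¹ * (r' * h * r'⁻¹) * b⁻¹ = (b⁻¹)⁻¹ * r' * h * ((b⁻¹)⁻¹ * r')⁻¹ := by group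
        rw [this]; exact hh
      rw [← heq, mem_cj] at h1
      have : r'⁻¹ * (r' * h * r'⁻¹) * r' = h := by group
      rw [this] at h1; exact h1
  rw [hNM] at hnorm
  have hS : (b⁻¹)⁻¹ * r' ∈ S := S.mul_mem (S.inv_mem hrS) hr'S
  have h1 : (b⁻¹)⁻¹ * r' ∈ (M ⊓ N) ⊓ S := ⟨⟨hnorm, hSN hS⟩, hS⟩
  rw [hAS] at h1
  have h2 : (b⁻¹)⁻¹ * r' = 1 := Subgroup.mem_bot.mp h1
  calc r' = b⁻¹ * ((b⁻¹)⁻¹ * r') := by group
    _ = b⁻¹ := by rw [h2, mul_one]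

end Cfsg.Agent.Lib.Helper21.BG14REGABS
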