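import Mathlib
import Cfsg.Agent.Lib.Helper73.BG14Stmt
import Cfsg.Agent.Lib.Helper21.BG14REGABS

set_option autoImplicit false
set_option maxHeartbeats 1000000

namespace Cfsg.Agent.Lib.Helper21.BG14COUNT

universe u

open Cfsg.Agent.Lib.Helper21.BG14REGABS

section Basic

variable {G : Type*} [Group G]

/-- conjugate of a subgroup -/
abbrev cj (g : G) (M : Subgroup G) : Subgroup G := M.map (MulAut.conj g).toMonoidHom

theorem cj_one (M : Subgroup G) : cj 1 M = M := by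
  ext y
  rw [mem_cj]
  simp

theorem cj_cj (g h : G) (M : Subgroup G) : cj g (cj h M) = cj (g * h) M := by
  ext y
  rw [mem_cj, mem_cj, mem_cj]
  have : h⁻¹ * (g⁻¹ * y * g) * h = (g * h)⁻¹ * y * (g * h) := by group
  rw [this]

theorem cj_self_mem (R : Subgroup G) (r : G) (hr : r ∈ R) : cj r R = R := by
  ext y
  rw [mem_cj]
  constructor
  · intro h
    have : y = r * (r⁻¹ * y * r) * r⁻¹ := by group
    rw [this]
    exact R.mul_mem (R.mul_mem hr h) (R.inv_mem hr)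
  · intro h
    exact R.mul_mem (R.mul_mem (R.inv_mem hr) h) hr

theorem isCoatom_cj {M : Subgroup G} (hM : IsCoatom M) (g : G) : IsCoatom (cj g M) :=
  (OrderIso.isCoatom_iff (MulEquiv.mapSubgroup (MulAut.conj g)) M).mpr hM

theorem sigmaCore_le' (M : Subgroup G) : Cfsg.sigmaCore M ≤ M := by
  unfold Cfsg.sigmaCore
  exact Subgroup.map_subtype_le _

theorem normalizer_eq [IsSimpleGroup G] {M : Subgroup G} (hM : IsCoatom M) (hne : M ≠ ⊥) :
    Subgroup.normalizer (M : Set G) = M := by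
  by_contra hcon
  have hle : M ≤ Subgroup.normalizer (M : Set G) := Subgroup.le_normalizer
  have hlt : M < Subgroup.normalizer (M : Set G) := lt_of_le_of_ne hle (Ne.symm hcon)
  have htop := hM.2 _ hlt
  have hn : M.Normal := Subgroup.normalizer_eq_top_iff.mp htop
  rcases hn.eq_bot_or_eq_top with h | h
  · exact hne h
  · exact hM.1 h

theorem cj_eq_iff {M : Subgroup G} (hN : Subgroup.normalizer (M : Set G) = M) (g g₀ : G) :
    cj g M = cj g₀ M ↔ g₀⁻¹ * g ∈ M := by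
  constructor
  · intro h
    have h1 : cj (g₀⁻¹ * g) M = M := by
      rw [← cj_cj, h, cj_cj, inv_mul_cancel, cj_one]
    have h2 : g₀⁻¹ * g ∈ Subgroup.normalizer (M : Set G) := by
      rw [Subgroup.mem_normalizer_iff]
      intro z
      constructor
      · intro hz
        have h3 : (g₀⁻¹ * g) * z * (g₀⁻¹ * g)⁻¹ ∈ cj (g₀⁻¹ * g) M := by
          rw [mem_cj]
          have e : (g₀⁻¹ * g)⁻¹ * ((g₀⁻¹ * g) * z * (g₀⁻¹ * g)⁻¹) * (g₀⁻¹ * g) = z := by group
          rw [e]; exact hz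
        rw [h1] at h3
        exact h3
      · intro hz
        have h3 : (g₀⁻¹ * g) * z * (g₀⁻¹ * g)⁻¹ ∈ cj (g₀⁻¹ * g) M := by
          rw [h1]; exact hz
        rw [mem_cj] at h3
        have e : (g₀⁻¹ * g)⁻¹ * ((g₀⁻¹ * g) * z * (g₀⁻¹ * g)⁻¹) * (g₀⁻¹ * g) = z := by group
        rw [e] at h3; exact h3
    rw [hN] at h2
    exact h2
  · intro h
    calc cj g M = cj (g₀ * (g₀⁻¹ * g)) M := by congr 1; group
      _ = cj g₀ M := cj_mul_mem M g₀ _ h

theorem card_eq_mul_of_fiber' {α β : Type*} [Finite α] [Finite β] (f : α → β) (k : ℕ)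
    (h : ∀ b, Nat.card {a // f a = b} = k) : Nat.card α = Nat.card β * k := by
  classical
  have := Fintype.ofFinite β
  rw [← Nat.card_congr (Equiv.sigmaFiberEquiv f), Nat.card_sigma]
  simp [h, Nat.card_eq_fintype_card]

open Classical in
/-- a chosen conjugate of `M` whose `σ`-core contains `b` -/
noncomputable def base (M : Subgroup G) (b : G) : Subgroup G :=
  if h : ∃ y, b ∈ Cfsg.sigmaCore (cj y M) then cj (Classical.choose h) M else M

theorem base_spec (M : Subgroup G) (b : G) (h : ∃ y, b ∈ Cfsg.sigmaCore (cj y M)) :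
    (∃ y, base M b = cj y M) ∧ b ∈ Cfsg.sigmaCore (base M b) := by
  have hb : base M b = cj (Classical.choose h) M := by
    unfold base; rw [dif_pos h]
  exact ⟨⟨_, hb⟩, by rw [hb]; exact Classical.choose_spec h⟩

theorem base_coatom {M : Subgroup G} (hM : IsCoatom M) (b : G) : IsCoatom (base M b) := by
  by_cases h : ∃ y, b ∈ Cfsg.sigmaCore (cj y M)
  · obtain ⟨⟨y, hy⟩, -⟩ := base_spec M b h
    rw [hy]; exact isCoatom_cj hM _
  · have hb : base M b = M := by unfold base; rw [dif_neg h]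
    rw [hb]; exact hM

end Basic

theorem main : Cfsg.Agent.Lib.Helper73.BG14Stmt.Gen.{u} →
    Cfsg.Agent.Lib.Helper73.BG14Stmt.Reg.{u} →
    Cfsg.Agent.Lib.Helper73.BG14Stmt.SuppEq.{u} →
    Cfsg.Agent.Lib.Helper73.BG14Stmt.SuppConj.{u} →
    Cfsg.Agent.Lib.Helper73.BG14Stmt.Disj.{u} →
    Cfsg.Agent.Lib.Helper73.BG14Stmt.Count.{u} := by
  intro _hGen hReg hSuppEq hSuppConj hDisj G _ _ hG M hM
  classical
  have hsimple : IsSimpleGroup G := hG.2.1
  -- degenerate case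
  by_cases hbot : Cfsg.sigmaCore M = ⊥
  · have hT : Cfsg.tildeOf M ((Cfsg.sigmaCore M : Set G) \ {1}) = ∅ := by
      ext t
      simp only [Set.mem_empty_iff_false, iff_false]
      rintro ⟨a, ⟨ha, ha1⟩, -⟩
      rw [hbot] at ha
      exact ha1 (Subgroup.mem_bot.mp ha)
    rw [hT, Set.ncard_empty, hbot]
    simp
  have hMne : M ≠ ⊥ := by
    intro h
    apply hbot
    have h1 := sigmaCore_le' M
    exact le_bot_iff.mp (h ▸ h1)
  have hNM : Subgroup.normalizer (M : Set G) = M := normalizer_eq hM hMne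
  -- key facts
  have key1 : ∀ L : Subgroup G, IsCoatom L → ∀ b ∈ Cfsg.sigmaCore L, b ≠ 1 →
      (Cfsg.supportR L b ≤ Subgroup.centralizer ({b} : Set G)) ∧
      ∀ g : G, b ∈ cj g L → ∃! r : G, r ∈ Cfsg.supportR L b ∧ cj r L = cj g L := by
    intro L hL b hb hb1
    obtain ⟨R, hdisj, -, -, hcompl, hreg⟩ := hReg hG L hL b hb hb1
    have hR : R = Cfsg.supportR L b := by
      rcases hdisj with ⟨hle, rfl⟩ | ⟨hnle, N, hN, hCN, rfl⟩
      · exact ((hSuppEq hG L hL b hb hb1).1 hle).symm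
      · exact ((hSuppEq hG L hL b hb hb1).2 hnle N hN hCN).symm
    rw [hR] at hcompl hreg
    exact ⟨hcompl.2.1, hreg⟩
  have key2 : ∀ L : Subgroup G, IsCoatom L → ∀ b ∈ Cfsg.sigmaCore L, b ≠ 1 → ∀ y : G,
      y * b * y⁻¹ ∈ Cfsg.sigmaCore (cj y L) ∧
      Cfsg.supportR (cj y L) (y * b * y⁻¹) = cj y (Cfsg.supportR L b) :=
    fun L hL b hb hb1 y => hSuppConj hG L hL b hb hb1 y
  have hcent : ∀ L : Subgroup G, IsCoatom L → ∀ b ∈ Cfsg.sigmaCore L, b ≠ 1 →
      ∀ r ∈ Cfsg.supportR L b, r * b * r⁻¹ = b := by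
    intro L hL b hb hb1 r hr
    have h := (key1 L hL b hb hb1).1 hr
    rw [Subgroup.mem_centralizer_singleton_iff] at h
    rw [h]; group
  have key3 : ∀ L : Subgroup G, IsCoatom L → ∀ b ∈ Cfsg.sigmaCore L, b ≠ 1 → ∀ g : G,
      b ∈ Cfsg.sigmaCore (cj g L) → Cfsg.supportR (cj g L) b = Cfsg.supportR L b := by
    intro L hL b hb hb1 g hbg
    have hbgL : b ∈ cj g L := sigmaCore_le' _ hbg
    obtain ⟨r, ⟨hr, hrL⟩, -⟩ := (key1 L hL b hb hb1).2 g hbgL
    have h2 := (key2 L hL b hb hb1 r).2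
    rw [hcent L hL b hb hb1 r hr, hrL, cj_self_mem _ r hr] at h2
    exact h2
  -- pulling back to M
  have hback : ∀ (y b : G), b ∈ Cfsg.sigmaCore (cj y M) → b ≠ 1 →
      y⁻¹ * b * y ∈ Cfsg.sigmaCore M := by
    intro y b hb hb1
    have h := (key2 (cj y M) (isCoatom_cj hM y) b hb hb1 y⁻¹).1
    rw [cj_cj, inv_mul_cancel, cj_one, inv_inv] at h
    exact h
  -- the three types
  set T : Set G := Cfsg.tildeOf M ((Cfsg.sigmaCore M : Set G) \ {1}) with hTdef
  let T' := {q : G × G // q.1 ≠ 1 ∧ (∃ y, q.1 ∈ Cfsg.sigmaCore (cj y M)) ∧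
    q.2 ∈ Cfsg.supportR (base M q.1) q.1}
  let P := {p : G × Subgroup G // (∃ y, p.2 = cj y M) ∧ p.1 ∈ Cfsg.sigmaCore p.2 ∧ p.1 ≠ 1}
  let X := {u : G × G // u.2 ∈ ((Cfsg.sigmaCore M : Set G) \ {1})}
  -- Step A : T' ≃ T
  have hA : Nat.card T' = Nat.card ↥T := by
    have hmem : ∀ q : T', q.1.1 * q.1.2 ∈ T := by
      rintro ⟨⟨b, r⟩, hb1, hD, hr⟩
      obtain ⟨⟨y₀, hy₀⟩, hbσ⟩ := base_spec M b hD
      simp only at hr hbσ hb1 ⊢
      rw [hy₀] at hr hbσ
      have ha : y₀⁻¹ * b * y₀ ∈ Cfsg.sigmaCore M := hback y₀ b hbσ hb1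
      have ha1 : y₀⁻¹ * b * y₀ ≠ 1 := by
        intro h
        apply hb1
        calc b = y₀ * (y₀⁻¹ * b * y₀) * y₀⁻¹ := by group
          _ = 1 := by rw [h]; group
      have h2 := (key2 M hM _ ha ha1 y₀).2
      have e : y₀ * (y₀⁻¹ * b * y₀) * y₀⁻¹ = b := by group
      rw [e] at h2
      rw [h2, mem_cj] at hr
      refine ⟨y₀⁻¹ * b * y₀, ⟨ha, ha1⟩, y₀⁻¹ * r * y₀, hr, y₀, ?_⟩
      group
    let e1 : T' → ↥T := fun q => ⟨q.1.1 * q.1.2, hmem q⟩
    have hinj : Function.Injective e1 := by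
      rintro ⟨⟨b, r⟩, hb1, hD, hr⟩ ⟨⟨b', r'⟩, hb1', hD', hr'⟩ h
      have h' : b * r = b' * r' := congrArg Subtype.val h
      simp only at hr hr' hb1 hb1' hD hD'
      have hbb : b = b' := by
        by_contra hne
        exact hDisj hG (base M b) (base M b') (base_coatom hM b) (base_coatom hM b') b b'
          (base_spec M b hD).2 (base_spec M b' hD').2 hb1 hb1' hne r hr r' hr' h'
      subst hbb
      have hrr : r = r' := mul_left_cancel h'
      subst hrr
      rfl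
    have hsurj : Function.Surjective e1 := by
      rintro ⟨t, ht⟩
      obtain ⟨a, ⟨ha, ha1⟩, r, hr, y, rfl⟩ := ht
      have ha1' : a ≠ 1 := ha1
      have hk := key2 M hM a ha ha1' y
      have hb1 : y * a * y⁻¹ ≠ 1 := by
        intro h
        apply ha1'
        calc a = y⁻¹ * (y * a * y⁻¹) * y := by group
          _ = 1 := by rw [h]; group
      have hD : ∃ y', y * a * y⁻¹ ∈ Cfsg.sigmaCore (cj y' M) := ⟨y, hk.1⟩
      obtain ⟨⟨y₀, hy₀⟩, hbσ⟩ := base_spec M (y * a * y⁻¹) hD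
      -- s = y r y⁻¹ ∈ supportR (cj y M) b = supportR (base b) b
      have hs : y * r * y⁻¹ ∈ Cfsg.supportR (cj y M) (y * a * y⁻¹) := by
        rw [hk.2, mem_cj]
        have e : y⁻¹ * (y * r * y⁻¹) * y = r := by group
        rw [e]; exact hr
      have hcjy : cj y M = cj (y * y₀⁻¹) (base M (y * a * y⁻¹)) := by
        rw [hy₀, cj_cj]
        congr 1; group
      have hs' : y * r * y⁻¹ ∈ Cfsg.supportR (base M (y * a * y⁻¹)) (y * a * y⁻¹) := by
        rw [← key3 (base M (y * a * y⁻¹)) (base_coatom hM _) _ hbσ hb1 (y * y₀⁻¹)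
          (by rw [← hcjy]; exact hk.1), ← hcjy]
        exact hs
      refine ⟨⟨(y * a * y⁻¹, y * r * y⁻¹), hb1, hD, hs'⟩, ?_⟩
      apply Subtype.ext
      show y * a * y⁻¹ * (y * r * y⁻¹) = y * (a * r) * y⁻¹
      group
    exact Nat.card_congr (Equiv.ofBijective e1 ⟨hinj, hsurj⟩)
  -- Step B : T' ≃ P
  have hB : Nat.card T' = Nat.card P := by
    have hmem : ∀ q : T', (∃ y, cj q.1.2 (base M q.1.1) = cj y M) ∧
        q.1.1 ∈ Cfsg.sigmaCore (cj q.1.2 (base M q.1.1)) ∧ q.1.1 ≠ 1 := by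
      rintro ⟨⟨b, r⟩, hb1, hD, hr⟩
      obtain ⟨⟨y₀, hy₀⟩, hbσ⟩ := base_spec M b hD
      simp only at hr hbσ hb1 ⊢
      refine ⟨⟨r * y₀, by rw [hy₀, cj_cj]⟩, ?_, hb1⟩
      have h := (key2 (base M b) (base_coatom hM b) b hbσ hb1 r).1
      rw [hcent (base M b) (base_coatom hM b) b hbσ hb1 r hr] at h
      exact h
    let e2 : T' → P := fun q => ⟨(q.1.1, cj q.1.2 (base M q.1.1)), hmem q⟩
    have hinj : Function.Injective e2 := by
      rintro ⟨⟨b, r⟩, hb1, hD, hr⟩ ⟨⟨b', r'⟩, hb1', hD', hr'⟩ h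
      have h' := congrArg Subtype.val h
      have hbb : b = b' := congrArg Prod.fst h'
      subst hbb
      have hcj : cj r (base M b) = cj r' (base M b) := congrArg Prod.snd h'
      simp only at hr hr' hb1 hD
      have hbσ := (base_spec M b hD).2
      have hbr : b ∈ cj r (base M b) := by
        have h := (key2 (base M b) (base_coatom hM b) b hbσ hb1 r).1
        rw [hcent (base M b) (base_coatom hM b) b hbσ hb1 r hr] at h
        exact sigmaCore_le' _ h
      obtain ⟨r₀, -, huniq⟩ := (key1 (base M b) (base_coatom hM b) b hbσ hb1).2 r hbr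
      have h1 : r = r₀ := huniq r ⟨hr, rfl⟩
      have h2 : r' = r₀ := huniq r' ⟨hr', hcj.symm⟩
      have hrr : r = r' := h1.trans h2.symm
      subst hrr
      rfl
    have hsurj : Function.Surjective e2 := by
      rintro ⟨⟨b, L'⟩, ⟨y', hL'⟩, hbL', hb1⟩
      simp only at hL' hbL' hb1
      have hD : ∃ y, b ∈ Cfsg.sigmaCore (cj y M) := ⟨y', by rw [← hL']; exact hbL'⟩
      obtain ⟨⟨y₀, hy₀⟩, hbσ⟩ := base_spec M b hD
      have hL'' : L' = cj (y' * y₀⁻¹) (base M b) := by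
        rw [hL', hy₀, cj_cj]
        congr 1; group
      have hbin : b ∈ cj (y' * y₀⁻¹) (base M b) := by
        rw [← hL'']; exact sigmaCore_le' _ hbL'
      obtain ⟨r, ⟨hr, hrL⟩, -⟩ := (key1 (base M b) (base_coatom hM b) b hbσ hb1).2 _ hbin
      refine ⟨⟨(b, r), hb1, hD, hr⟩, ?_⟩
      apply Subtype.ext
      show (b, cj r (base M b)) = (b, L')
      rw [hrL, ← hL'']
    exact Nat.card_congr (Equiv.ofBijective e2 ⟨hinj, hsurj⟩)
  -- Step C : X → P with fibers ≃ M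
  have hC : Nat.card X = Nat.card P * Nat.card M := by
    have hmem : ∀ u : X, (∃ y, cj u.1.1 M = cj y M) ∧
        u.1.1 * u.1.2 * u.1.1⁻¹ ∈ Cfsg.sigmaCore (cj u.1.1 M) ∧ u.1.1 * u.1.2 * u.1.1⁻¹ ≠ 1 := by
      rintro ⟨⟨g, a⟩, ha, ha1⟩
      have ha1' : a ≠ 1 := ha1
      refine ⟨⟨g, rfl⟩, (key2 M hM a ha ha1' g).1, ?_⟩
      intro h
      apply ha1'
      calc a = g⁻¹ * (g * a * g⁻¹) * g := by group
        _ = 1 := by rw [h]; group
    let φ : X → P := fun u => ⟨(u.1.1 * u.1.2 * u.1.1⁻¹, cj u.1.1 M), hmem u⟩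
    apply card_eq_mul_of_fiber' φ
    rintro ⟨⟨b, L⟩, ⟨y', hL⟩, hbL, hb1⟩
    simp only at hL hbL hb1
    -- ψ : M → fiber
    have hψmem : ∀ n : M, (y' * n.1)⁻¹ * b * (y' * n.1) ∈ ((Cfsg.sigmaCore M : Set G) \ {1}) := by
      intro n
      have hcjn : cj (y' * n.1) M = L := by rw [hL]; exact cj_mul_mem M y' n.1 n.2
      refine ⟨hback (y' * n.1) b (by rw [hcjn]; exact hbL) hb1, ?_⟩
      intro h
      apply hb1
      have h' : (y' * n.1)⁻¹ * b * (y' * n.1) = 1 := h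
      calc b = (y' * n.1) * ((y' * n.1)⁻¹ * b * (y' * n.1)) * (y' * n.1)⁻¹ := by group
        _ = 1 := by rw [h']; group
    have hψeq : ∀ n : M, φ ⟨(y' * n.1, (y' * n.1)⁻¹ * b * (y' * n.1)), hψmem n⟩ =
        ⟨(b, L), ⟨y', hL⟩, hbL, hb1⟩ := by
      intro n
      apply Subtype.ext
      show ((y' * n.1) * ((y' * n.1)⁻¹ * b * (y' * n.1)) * (y' * n.1)⁻¹, cj (y' * n.1) M) = (b, L)
      have hcjn : cj (y' * n.1) M = L := by rw [hL]; exact cj_mul_mem M y' n.1 n.2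
      rw [hcjn]
      congr 1
      group
    let ψ : M → {u : X // φ u = ⟨(b, L), ⟨y', hL⟩, hbL, hb1⟩} := fun n =>
      ⟨⟨(y' * n.1, (y' * n.1)⁻¹ * b * (y' * n.1)), hψmem n⟩, hψeq n⟩
    have hinj : Function.Injective ψ := by
      intro n n' h
      have h1 := congrArg (fun w => w.1.1.1) h
      simp only [ψ] at h1
      exact Subtype.ext (mul_left_cancel h1)
    have hsurj : Function.Surjective ψ := by
      rintro ⟨⟨⟨g, a⟩, ha⟩, hu⟩
      have hu' := congrArg Subtype.val hu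
      have hu1 : g * a * g⁻¹ = b := congrArg Prod.fst hu'
      have hu2 : cj g M = L := congrArg Prod.snd hu'
      have hn : y'⁻¹ * g ∈ M := (cj_eq_iff hNM g y').mp (by rw [hu2, hL])
      refine ⟨⟨y'⁻¹ * g, hn⟩, ?_⟩
      apply Subtype.ext
      apply Subtype.ext
      show (y' * (y'⁻¹ * g), (y' * (y'⁻¹ * g))⁻¹ * b * (y' * (y'⁻¹ * g))) = (g, a)
      have e1 : y' * (y'⁻¹ * g) = g := by group
      rw [e1, ← hu1]
      congr 1
      group
    exact (Nat.card_congr (Equiv.ofBijective ψ ⟨hinj, hsurj⟩)).symm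
  -- Step D : card X
  have hD : Nat.card X = Nat.card G * (Nat.card (Cfsg.sigmaCore M) - 1) := by
    have e : X ≃ G × ↥((Cfsg.sigmaCore M : Set G) \ {1}) :=
      { toFun := fun u => (u.1.1, ⟨u.1.2, u.2⟩)
        invFun := fun v => ⟨(v.1, v.2.1), v.2.2⟩
        left_inv := fun _ => rfl
        right_inv := fun _ => rfl }
    rw [Nat.card_congr e, Nat.card_prod, Nat.card_coe_set_eq,
      Set.ncard_sdiff_singleton_of_mem (Subgroup.one_mem _), ← Nat.card_coe_set_eq]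
    rfl
  -- conclusion
  rw [← Nat.card_coe_set_eq, ← hA, hB]
  have hM0 : 0 < Nat.card M := Nat.card_pos
  have h1 : Nat.card P * Nat.card M = (Nat.card (Cfsg.sigmaCore M) - 1) * M.index * Nat.card M := by
    rw [← hC, hD, ← Subgroup.card_mul_index M]
    ring
  exact Nat.eq_of_mul_eq_mul_right hM0 h1

end Cfsg.Agent.Lib.Helper21.BG14COUNT
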