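import Mathlib
import Cfsg.Agent.Lib.Lead.BrHalfStmt
import Cfsg.Agent.Lib.Helper21.BrCPerBase

set_option autoImplicit false

namespace Cfsg.Agent.Lib.Helper21.BrCPerDiff

open Cfsg.Agent.Lib.Lead
open Cfsg.Agent.Lib.Helper21.BrCPerBase
open scoped ComplexConjugate

theorem main : BrHalf.PerDiff := by
  intro p _ hp2 ζ hζ a k ha hk
  obtain ⟨-, h2, h3⟩ := key p hp2 hζ a k ha hk
  rw [h2, map_mul]
  have hconj : conj (chi p (a : ZMod p)) = chi p (a : ZMod p) := by
    rw [chi_apply]; exact map_intCast (starRingEnd ℂ) _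
  rw [hconj]
  calc chi p (a : ZMod p) * gs p hζ * (chi p (a : ZMod p) * conj (gs p hζ))
      = (chi p (a : ZMod p) * chi p (a : ZMod p)) * (gs p hζ * conj (gs p hζ)) := by ring
    _ = (p : ℂ) := by rw [h3, one_mul, gs_mul_conj p hp2 hζ]

end Cfsg.Agent.Lib.Helper21.BrCPerDiff
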