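import Mathlib
import Cfsg.Agent.Lib.Lead.BrHalfStmt
import Cfsg.Agent.Lib.Helper21.BrCPerBase

set_option autoImplicit false

namespace Cfsg.Agent.Lib.Helper21.BrCPerOrth

open Cfsg.Agent.Lib.Lead
open Cfsg.Agent.Lib.Helper21.BrCPerBase
open scoped ComplexConjugate

theorem main : BrHalf.PerOrth := by
  intro p _ hp2 ζ hζ k hk
  classical
  have hk0 : (k : ZMod p) ≠ 0 := by
    intro h; apply hk; rw [h]; exact IsSquare.zero
  have hterm : ∀ a : ℕ, BrHalf.per p ζ a * conj (BrHalf.per p ζ (a * k))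
      = ∑ s ∈ BrHalf.sq p, ∑ s' ∈ BrHalf.sq p,
          AddChar.zmodChar p hζ.pow_eq_one ((a : ZMod p) * (s - (k : ZMod p) * s')) := by
    intro a
    rw [per_eq p hζ a, per_eq p hζ (a * k), map_sum, Finset.sum_mul_sum]
    apply Finset.sum_congr rfl; intro s _
    apply Finset.sum_congr rfl; intro s' _
    rw [← AddChar.map_neg_eq_conj, ← AddChar.map_add_eq_mul]
    congr 1
    push_cast; ring
  rw [Finset.sum_congr rfl (fun a _ => hterm a), Finset.sum_comm]
  apply Finset.sum_eq_zero; intro s hs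
  rw [Finset.sum_comm]
  apply Finset.sum_eq_zero; intro s' hs'
  have hc : s - (k : ZMod p) * s' ≠ 0 := by
    rw [mem_sq] at hs hs'
    intro h
    apply hk
    have hk' : (k : ZMod p) = s * s'⁻¹ := by
      rw [sub_eq_zero] at h
      rw [h, mul_assoc, mul_inv_cancel₀ hs'.1, mul_one]
    rw [hk']
    exact hs.2.mul (hs'.2.inv)
  have hsum : ∑ a ∈ Finset.range p,
        AddChar.zmodChar p hζ.pow_eq_one ((a : ZMod p) * (s - (k : ZMod p) * s'))
      = ∑ t : ZMod p, AddChar.zmodChar p hζ.pow_eq_one (t * (s - (k : ZMod p) * s')) := by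
    refine Finset.sum_bij (s := Finset.range p) (t := (Finset.univ : Finset (ZMod p)))
      (fun (a : ℕ) _ => ((a : ℕ) : ZMod p)) ?_ ?_ ?_ ?_
    · intro a _; exact Finset.mem_univ _
    · intro a ha b hb hab
      rw [Finset.mem_range] at ha hb
      have := (ZMod.natCast_eq_natCast_iff' a b p).1 hab
      rwa [Nat.mod_eq_of_lt ha, Nat.mod_eq_of_lt hb] at this
    · intro t _
      exact ⟨t.val, Finset.mem_range.2 (ZMod.val_lt t), ZMod.natCast_zmod_val t⟩
    · intro a _; rfl
  rw [hsum, AddChar.sum_mulShift _ (psi_primitive p hζ), if_neg hc, Nat.cast_zero]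

end Cfsg.Agent.Lib.Helper21.BrCPerOrth
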