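import Mathlib
import Cfsg.Agent.Lib.Lead.BrHalfStmt
import Cfsg.Agent.Lib.Helper21.BrCPerBase

set_option autoImplicit false

namespace Cfsg.Agent.Lib.Helper21.BrCPerSq

open Cfsg.Agent.Lib.Lead
open Cfsg.Agent.Lib.Helper21.BrCPerBase
open scoped ComplexConjugate

theorem main : BrHalf.PerSq := by
  intro p _ hp2 ζ hζ a k ha hk
  obtain ⟨-, h2, h3⟩ := key p hp2 hζ a k ha hk
  rw [h2, mul_pow, pow_two (chi p (a : ZMod p)), h3, one_mul, gs_sq p hp2 hζ]

end Cfsg.Agent.Lib.Helper21.BrCPerSq
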