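import Mathlib
import Cfsg.Prelude.Def_Local
import Cfsg.Agent.Lib.Helper48.CharPGfs
import Cfsg.Agent.Lib.Helper30.NoComp
import Cfsg.Agent.Lib.Helper24.Coprime

set_option autoImplicit false

/-!
Centralizers of `p`-subgroups in groups of characteristic `p`: if `V ≤ U` are `p`-subgroups and
`C_G(V)` has characteristic `p` then so does `C_G(U)`.
-/

namespace Cfsg.Agent.Lib.Helper21.CentP

open Subgroup
open Cfsg.Agent.Lib.Helper48.CharP Cfsg.Agent.Lib.Helper48.CharPGfs

variable {G : Type*} [Group G] [Finite G]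

/-- In a finite `p`-subgroup `R`, a proper subgroup `B` is properly contained in its normalizer
in `R`. -/
theorem exists_mem_normalizer_notMem {p : ℕ} [Fact p.Prime] {R B : Subgroup G}
    (hR : IsPGroup p R) (hBR : B ≤ R) (hne : B ≠ R) :
    ∃ g ∈ R, g ∈ Subgroup.normalizer (B : Set G) ∧ g ∉ B := by
  have : Group.IsNilpotent ↥R := hR.isNilpotent
  have hnc : NormalizerCondition ↥R := Group.normalizerCondition_of_isNilpotent
  have hlt : B.subgroupOf R < ⊤ := by
    rw [lt_top_iff_ne_top]
    intro h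
    rw [Subgroup.subgroupOf_eq_top] at h
    exact hne (le_antisymm hBR h)
  have h2 := hnc _ hlt
  obtain ⟨g, hg1, hg2⟩ := SetLike.exists_of_lt h2
  refine ⟨g, g.2, ?_, ?_⟩
  · rw [← Subgroup.subgroupOf_normalizer_eq hBR] at hg1
    exact Subgroup.mem_subgroupOf.mp hg1
  · intro h
    exact hg2 (Subgroup.mem_subgroupOf.mpr h)

/-- If `V ⊴ U` are `p`-subgroups and `C_G(V)` has characteristic `p`, so does `C_G(U)`. -/
theorem chP_centralizer_of_normal (p : ℕ) [Fact p.Prime] (U V : Subgroup G) (hVU : V ≤ U)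
    (hU : IsPGroup p U) (hn : U ≤ normalizer (V : Set G))
    (hV : ChP p (centralizer (V : Set G))) : ChP p (centralizer (U : Set G)) := by
  have hYH : centralizer (U : Set G) ≤ centralizer (V : Set G) :=
    centralizer_le (by exact_mod_cast hVU)
  have hUQ : U ≤ normalizer (O p (centralizer (V : Set G)) : Set G) := fun u hu =>
    normalizer_le_normalizer_O p _ (mem_normalizer_centralizer (hn hu))
  have hQY : O p (centralizer (V : Set G)) ⊓ centralizer (U : Set G) ≤
      O p (centralizer (U : Set G)) := by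
    apply le_O inf_le_right ((O_isPGroup p _).to_le inf_le_left)
    intro y hy
    exact mem_normalizer_inf (O_normalizer p _ (hYH hy)) (le_normalizer hy)
  apply charP_of_coprime
  intro a ha hcop
  obtain ⟨haY, haC⟩ := mem_inf.mp ha
  have haH : a ∈ centralizer (V : Set G) := hYH haY
  refine eq_one_of_mem_O_of_coprime (X := centralizer (V : Set G))
    (hV (mem_inf.mpr ⟨haH, ?_⟩)) hcop
  rw [mem_centralizer_iff]
  intro x hx
  have hpg : IsPGroup p (O p (centralizer (V : Set G)) ⊔ U : Subgroup G) :=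
    IsPGroup.to_sup_of_normal_left' (O_isPGroup p _) hU hUQ
  refine Cfsg.Agent.Lib.Helper24.Coprime.thompson_AxB p _ hpg U le_sup_right a hcop
    (fun b hb => (mem_centralizer_iff.1 haY b hb)) (O p (centralizer (V : Set G))) le_sup_left
    (O_normalizer p _ haH) hUQ ?_ x hx
  intro y hy hyU
  have hyY : y ∈ centralizer (U : Set G) := by
    rw [mem_centralizer_iff]
    intro b hb
    exact hyU b hb
  exact mem_centralizer_iff.mp haC y (hQY ⟨hy, hyY⟩)

/-- If `V ≤ U` are `p`-subgroups and `C_G(V)` has characteristic `p`, so does `C_G(U)`. -/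
theorem chP_centralizer_of_le_aux (p : ℕ) [Fact p.Prime] (U : Subgroup G) (hU : IsPGroup p U) :
    ∀ (n : ℕ) (V : Subgroup G), V ≤ U → Nat.card U - Nat.card V ≤ n →
      ChP p (centralizer (V : Set G)) → ChP p (centralizer (U : Set G)) := by
  intro n
  induction n with
  | zero =>
    intro V hVU hcard hV
    have : V = U := eq_of_le_of_card_ge hVU (by omega)
    rwa [← this]
  | succ n ih =>
    intro V hVU hcard hV
    by_cases hne : V = U
    · rwa [← hne]
    · obtain ⟨x, hxU, hxN, hxV⟩ := exists_mem_normalizer_notMem hU hVU hne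
      have hVV₁ : V ≤ U ⊓ normalizer (V : Set G) := le_inf hVU le_normalizer
      have hcardlt : Nat.card V < Nat.card (U ⊓ normalizer (V : Set G) : Subgroup G) := by
        by_contra hcon
        push Not at hcon
        have := eq_of_le_of_card_ge hVV₁ hcon
        exact hxV (this ▸ ⟨hxU, hxN⟩)
      have hcardle : Nat.card (U ⊓ normalizer (V : Set G) : Subgroup G) ≤ Nat.card U :=
        card_le_of_le inf_le_left
      apply ih (U ⊓ normalizer (V : Set G)) inf_le_left (by omega)
      exact chP_centralizer_of_normal p _ V hVV₁ (hU.to_le inf_le_left) inf_le_right hV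

theorem chP_centralizer_of_le (p : ℕ) [Fact p.Prime] (U V : Subgroup G) (hVU : V ≤ U)
    (hU : IsPGroup p U) (hV : ChP p (centralizer (V : Set G))) :
    ChP p (centralizer (U : Set G)) :=
  chP_centralizer_of_le_aux p U hU _ V hVU le_rfl hV

/-- If `V ≤ U` are `p`-subgroups and `F*(C_G(V))` is a `p`-group, so is `F*(C_G(U))`. -/
theorem gfs_centralizer_isPGroup (p : ℕ) [Fact p.Prime] (U V : Subgroup G) (hVU : V ≤ U)
    (hU : IsPGroup p U)
    (hV : IsPGroup p ↥(Cfsg.generalizedFittingSubgroup ↥(Subgroup.centralizer (V : Set G)))) :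
    IsPGroup p ↥(Cfsg.generalizedFittingSubgroup ↥(Subgroup.centralizer (U : Set G))) := by
  have h1 := Cfsg.Agent.Lib.Helper30.NoComp.gfs_eq_pCore_of_isPGroup p hV
  rw [gfs_iff_chP] at h1
  have h2 := chP_centralizer_of_le p U V hVU hU h1
  rw [← gfs_iff_chP] at h2
  rw [h2]
  exact Cfsg.Agent.Lib.Helper78.Fitting.pCore_isPGroup p

end Cfsg.Agent.Lib.Helper21.CentP
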