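import Cfsg.Agent.Lib.Helper21.Balance
import Cfsg.Agent.Lib.Helper21.PComp

set_option autoImplicit false

/-!
Basics for a Glauberman-type theorem: a perfect group generated by `2`-elements which centralizes a
Sylow `2`-subgroup of a normal subgroup `G` centralizes `G` modulo `O(G)`.
-/

namespace Cfsg.Agent.Lib.Helper21.GB1

open Subgroup
open Cfsg.Agent.Lib.Helper33.Conj
open Cfsg.Agent.Lib.Helper21.PComp

universe u

section general

variable {X : Type*} [Group X]

/-- the odd core of a subgroup, as a subgroup of the ambient group. -/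
def Oc (G : Subgroup X) : Subgroup X := (Cfsg.pPrimeCore 2 ↥G).map G.subtype

theorem Oc_le (G : Subgroup X) : Oc G ≤ G := map_subtype_le _

theorem le_Oc {G R : Subgroup X} (hRG : R ≤ G) (hR : Odd (Nat.card R))
    (hn : G ≤ normalizer (R : Set X)) : R ≤ Oc G :=
  Balance.le_pPrimeCoreOf hRG (Nat.coprime_two_right.mpr hR) hn

theorem le_normalizer_of_conj {G Y : Subgroup X} (h : ∀ g ∈ G, ∀ y ∈ Y, g * y * g⁻¹ ∈ Y) :
    G ≤ normalizer (Y : Set X) := by
  intro g hg
  rw [mem_normalizer_iff]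
  intro y
  constructor
  · intro hy; exact h g hg y hy
  · intro hy
    have := h g⁻¹ (G.inv_mem hg) _ hy
    have e : g⁻¹ * (g * y * g⁻¹) * g⁻¹⁻¹ = y := by group
    rwa [e] at this

/-- an element of a `2`-group lying in a subgroup of odd order is trivial. -/
theorem eq_one_of_two_odd {U N : Subgroup X} (hU : IsPGroup 2 U) (hN : Odd (Nat.card N)) {x : X}
    (hxU : x ∈ U) (hxN : x ∈ N) : x = 1 := by
  obtain ⟨k, hk⟩ := hU ⟨x, hxU⟩
  have h1 : x ^ (2 ^ k) = 1 := congrArg Subtype.val hk
  have h2 : x ^ Nat.card N = 1 := by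
    have := pow_card_eq_one' (G := N) (x := ⟨x, hxN⟩)
    exact congrArg Subtype.val this
  have hcop : Nat.Coprime (2 ^ k) (Nat.card N) :=
    Nat.Coprime.pow_left _ (Nat.coprime_two_left.mpr hN)
  exact eq_one_of_pow_eq_one_of_coprime x _ _ h1 h2 hcop

theorem odd_card_of_not_dvd {n : ℕ} (h : ¬ 2 ∣ n) : Odd n := by
  rw [← Nat.not_even_iff_odd, even_iff_two_dvd]; exact h

/-- a maximal `2`-subgroup is a Sylow `2`-subgroup. -/
theorem isSylIn_of_maximal [Finite X] {Q M : Subgroup X} (hQM : Q ≤ M) (hQ : IsPGroup 2 Q)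
    (hmax : ∀ R : Subgroup X, Q ≤ R → R ≤ M → IsPGroup 2 R → R ≤ Q) : IsSylIn 2 Q M := by
  obtain ⟨R, hQR, hR⟩ := exists_isSylIn (p := 2) hQM hQ
  have : R = Q := le_antisymm (hmax R hQR hR.1 hR.2.1) hQR
  rw [← this]; exact hR

/-- every `2`-subgroup containing a Sylow `2`-subgroup equals it. -/
theorem IsSylIn_le [Finite X] {S G R : Subgroup X} (hS : IsSylIn 2 S G) (hSR : S ≤ R)
    (hRG : R ≤ G) (hR : IsPGroup 2 R) : R ≤ S :=
  (hS.eq_of_le hSR hRG hR).le

/-- a `2`-element normalizing (in the sense of generating a `2`-group with) a Sylow `2`-subgroup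
lies in it. -/
theorem mem_of_isSylIn_of_commute [Finite X] {S G : Subgroup X} (hS : IsSylIn 2 S G) {c : X}
    (hcG : c ∈ G) (hc : ∃ k : ℕ, c ^ 2 ^ k = 1) (hcS : ∀ s ∈ S, c * s = s * c) : c ∈ S := by
  have hn : zpowers c ≤ normalizer (S : Set X) := by
    rw [zpowers_le]
    rw [mem_normalizer_iff]
    intro s
    constructor
    · intro hs
      have : c * s * c⁻¹ = s := by rw [hcS s hs]; group
      rw [this]; exact hs
    · intro hs
      have h1 := hcS _ hs
      have h2 : c * s * c⁻¹ = s := by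
        have : c * (c * s * c⁻¹) = c * s := by rw [h1]; group
        exact mul_left_cancel this
      rw [← h2]; exact hs
  have hz : IsPGroup 2 (zpowers c) := by
    obtain ⟨k, hk⟩ := hc
    apply IsPGroup.of_card (n := (orderOf c).factorization 2)
    rw [Nat.card_zpowers]
    have hd : orderOf c ∣ 2 ^ k := orderOf_dvd_of_pow_eq_one hk
    obtain ⟨j, -, hj⟩ := (Nat.dvd_prime_pow Nat.prime_two).mp hd
    rw [hj, Nat.Prime.factorization_pow Nat.prime_two]
    simp
  have hsup : IsPGroup 2 (S ⊔ zpowers c : Subgroup X) :=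
    IsPGroup.to_sup_of_normal_left' hS.2.1 hz hn
  have := IsSylIn_le hS le_sup_left (sup_le hS.1 (by rw [zpowers_le]; exact hcG)) hsup
  exact this (le_sup_right (a := S) (mem_zpowers c))

end general

end Cfsg.Agent.Lib.Helper21.GB1
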