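import Cfsg.Agent.Lib.Helper21.GB1

set_option autoImplicit false

/-!
Further basics for the Glauberman-type theorem: the odd core `Oc`, a transfer lemma (a subgroup with
a central Sylow `2`-subgroup inside a group with trivial odd core is a `2`-group), the class `IsTwoPerf`
of perfect groups generated by `2`-elements, and transport lemmas for relative Sylow subgroups.
-/

namespace Cfsg.Agent.Lib.Helper21.GB1b

open Subgroup
open scoped commutatorElement
open Cfsg.Agent.Lib.Helper33.Conj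
open Cfsg.Agent.Lib.Helper21.PComp
open Cfsg.Agent.Lib.Helper21.GB1

section general

variable {X : Type*} [Group X]

theorem Oc_odd [Finite X] (G : Subgroup X) : Odd (Nat.card (Oc G)) := by
  unfold Oc
  rw [Subgroup.card_map_of_injective G.subtype_injective]
  exact Nat.coprime_two_right.mp (Cfsg.Agent.Lib.Helper76.PSolv.pPrimeCore_coprime 2)

theorem Oc_normalizer [Finite X] (G : Subgroup X) :
    normalizer (G : Set X) ≤ normalizer ((Oc G : Subgroup X) : Set X) :=
  Balance.normalizer_le_normalizer_pPrimeCoreOf 2 G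

theorem conj_mem_closure {S : Set X} {g : X} (h : ∀ x ∈ S, g * x * g⁻¹ ∈ closure S) {y : X}
    (hy : y ∈ closure S) : g * y * g⁻¹ ∈ closure S := by
  have : closure S ≤ (closure S).comap (MulAut.conj g).toMonoidHom := by
    rw [closure_le]
    intro x hx
    have := h x hx
    simpa [MulAut.conj_apply] using this
  have h2 := this hy
  simpa [MulAut.conj_apply] using h2

theorem conj_mem_of_mem_normalizer {K : Subgroup X} {g x : X} (hg : g ∈ normalizer (K : Set X))
    (hx : x ∈ K) : g * x * g⁻¹ ∈ K :=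
  (mem_normalizer_iff.1 hg x).1 hx

theorem conj_inv_mem_of_mem_normalizer {K : Subgroup X} {g x : X}
    (hg : g ∈ normalizer (K : Set X)) (hx : x ∈ K) : g⁻¹ * x * g ∈ K := by
  have := conj_mem_of_mem_normalizer (inv_mem hg) hx
  simpa using this

/-- A subgroup `C` of `G` normalized by `G` with a central Sylow `2`-subgroup is a `2`-group, when
`O(G) = 1`. -/
theorem isPGroup_of_central_sylow [Finite X] {G C Z : Subgroup X} (hO : Oc G = ⊥) (hCG : C ≤ G)
    (hn : G ≤ normalizer (C : Set X)) (hZ : IsSylIn 2 Z C)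
    (hc : ∀ z ∈ Z, ∀ c ∈ C, z * c = c * z) : IsPGroup 2 C := by
  have : Fact (Nat.Prime 2) := ⟨Nat.prime_two⟩
  have hZ' : IsPGroup 2 (Z.subgroupOf C) := hZ.2.1.comap_subtype
  have hidx : ¬ 2 ∣ (Z.subgroupOf C).index := hZ.2.2
  obtain ⟨P, hPdef⟩ : ∃ P : Sylow 2 ↥C, P = hZ'.toSylow hidx := ⟨_, rfl⟩
  have hPmem : ∀ x : ↥C, x ∈ P ↔ (x : X) ∈ Z := by
    intro x
    rw [hPdef, IsPGroup.mem_toSylow, mem_subgroupOf]
  have hP : normalizer ((P : Subgroup ↥C) : Set ↥C) ≤ centralizer ((P : Subgroup ↥C) : Set ↥C) := by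
    intro x _
    rw [mem_centralizer_iff]
    intro z hz
    have := hc z.1 ((hPmem z).1 hz) x.1 x.2
    exact Subtype.ext this
  obtain ⟨K, hK⟩ : ∃ K : Subgroup ↥C, K = (MonoidHom.transferSylow P hP).ker := ⟨_, rfl⟩
  have hcompl : K.IsComplement' (P : Subgroup ↥C) := by
    rw [hK]; exact MonoidHom.ker_transferSylow_isComplement' P hP
  have hodd : ¬ 2 ∣ Nat.card K := by
    rw [hK]; exact MonoidHom.not_dvd_card_ker_transferSylow P hP
  have hmem : ∀ x : ↥C, Odd (orderOf x) → x ∈ K := by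
    intro x hx
    rw [hK, MonoidHom.mem_ker]
    obtain ⟨k, hk⟩ := P.2 (MonoidHom.transferSylow P hP x)
    have h2 : (MonoidHom.transferSylow P hP x) ^ orderOf x = 1 := by
      rw [← map_pow, pow_orderOf_eq_one, map_one]
    exact eq_one_of_pow_eq_one_of_coprime _ _ _ hk h2
      (Nat.Coprime.pow_left _ (Nat.coprime_two_left.mpr hx))
  have hKbot : K.map C.subtype ≤ Oc G := by
    apply le_Oc ((map_subtype_le _).trans hCG)
    · rw [Subgroup.card_map_of_injective C.subtype_injective]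
      exact odd_card_of_not_dvd hodd
    · apply le_normalizer_of_conj
      rintro g hg _ ⟨y, hy, rfl⟩
      have hgy : g * (y : X) * g⁻¹ ∈ C := conj_mem_of_mem_normalizer (hn hg) y.2
      refine ⟨⟨_, hgy⟩, ?_, rfl⟩
      apply hmem
      have h1 : orderOf (⟨g * (y : X) * g⁻¹, hgy⟩ : ↥C) = orderOf y := by
        rw [Subgroup.orderOf_mk, ← Subgroup.orderOf_coe y]
        exact orderOf_conj_eq g y
      rw [h1]
      have h2 : orderOf y ∣ Nat.card K := by
        have := orderOf_dvd_natCard (⟨y, hy⟩ : K)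
        rwa [Subgroup.orderOf_mk] at this
      exact Odd.of_dvd_nat (odd_card_of_not_dvd hodd) h2
  rw [hO] at hKbot
  have hK1 : K = ⊥ := by
    rw [eq_bot_iff]
    intro y hy
    have : (y : X) ∈ (⊥ : Subgroup X) := hKbot ⟨y, hy, rfl⟩
    rw [mem_bot] at this ⊢
    exact Subtype.ext this
  have hcard := hcompl.card_mul_card
  rw [hK1, card_bot, one_mul] at hcard
  have hPtop : (P : Subgroup ↥C) = ⊤ := Subgroup.eq_top_of_card_eq _ hcard
  intro x
  obtain ⟨k, hk⟩ := P.2 ⟨x, by rw [hPtop]; exact mem_top x⟩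
  exact ⟨k, by simpa using congrArg Subtype.val hk⟩

/-- the class of perfect groups generated by `2`-elements. -/
def IsTwoPerf (B : Subgroup X) : Prop := ⁅B, B⁆ = B ∧ OpP 2 B = B

theorem IsTwoPerf.map {Y : Type*} [Group Y] {B : Subgroup X} (hB : IsTwoPerf B) (f : X →* Y) :
    IsTwoPerf (B.map f) := by
  constructor
  · rw [← Subgroup.map_commutator, hB.1]
  · apply le_antisymm (OpP_le 2 _)
    have h1 : B.map f ≤ (OpP 2 B).map f := by rw [hB.2]
    refine h1.trans ?_
    unfold OpP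
    rw [MonoidHom.map_closure, closure_le]
    rintro _ ⟨x, ⟨hx, j, hj⟩, rfl⟩
    rw [SetLike.mem_coe]
    apply Subgroup.subset_closure
    refine ⟨⟨x, hx, rfl⟩, ?_⟩
    · have : orderOf (f x) ∣ 2 ^ j := hj ▸ orderOf_map_dvd f x
      obtain ⟨i, -, hi⟩ := (Nat.dvd_prime_pow Nat.prime_two).mp this
      exact ⟨i, hi⟩

theorem IsTwoPerf.subgroupOf {B H : Subgroup X} (hB : IsTwoPerf B) (hBH : B ≤ H) : IsTwoPerf (B.subgroupOf H) := by
  have hinj : Function.Injective (Subgroup.map H.subtype) :=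
    Subgroup.map_injective H.subtype_injective
  have hm : (B.subgroupOf H).map H.subtype = B := Subgroup.map_subgroupOf_eq_of_le hBH
  constructor
  · apply hinj
    rw [Subgroup.map_commutator, hm, hB.1]
  · apply hinj
    rw [hm]
    apply le_antisymm
    · exact (Subgroup.map_mono (OpP_le 2 _)).trans hm.le
    · have h1 : B ≤ OpP 2 B := hB.2.ge
      refine h1.trans ?_
      unfold OpP
      rw [MonoidHom.map_closure, closure_le]
      rintro x ⟨hx, j, hj⟩
      rw [SetLike.mem_coe]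
      refine Subgroup.subset_closure ⟨⟨x, hBH hx⟩, ⟨mem_subgroupOf.2 hx, j, ?_⟩, rfl⟩
      rw [← hj]
      exact Subgroup.orderOf_mk _ _

theorem IsTwoPerf.exists_involution {B : Subgroup X} (hB : IsTwoPerf B) (hne : B ≠ ⊥) :
    ∃ u ∈ B, orderOf u = 2 := by
  have : Fact (Nat.Prime 2) := ⟨Nat.prime_two⟩
  by_contra hcon
  push Not at hcon
  apply hne
  rw [← hB.2, eq_bot_iff]
  unfold OpP
  rw [closure_le]
  rintro x ⟨hx, j, hj⟩
  cases j with
  | zero =>
    rw [pow_zero, orderOf_eq_one_iff] at hj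
    rw [hj]; exact one_mem _
  | succ j =>
    exfalso
    apply hcon (x ^ 2 ^ j) (B.pow_mem hx _)
    apply orderOf_eq_prime
    · rw [← pow_mul, ← pow_succ, ← hj, pow_orderOf_eq_one]
    · intro h1
      have := orderOf_dvd_of_pow_eq_one h1
      rw [hj] at this
      have h3 := Nat.le_of_dvd (by positivity) this
      have h4 : 2 ^ j < 2 ^ (j + 1) := Nat.pow_lt_pow_right (by norm_num) (Nat.lt_succ_self j)
      omega

/-- A perfect group has no nontrivial solvable quotient. -/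
theorem eq_top_of_perfect_of_solvable_quotient {B : Type*} [Group B] (hB : commutator B = ⊤)
    (K : Subgroup B) [K.Normal] (hQ : Group.IsSolvable (B ⧸ K)) : K = ⊤ := by
  by_contra hne
  have : Nontrivial (B ⧸ K) := QuotientGroup.nontrivial_iff.2 hne
  have h1 := Group.IsSolvable.commutator_lt_top_of_nontrivial (B ⧸ K)
  have h2 : commutator (B ⧸ K) = ⊤ := by
    rw [_root_.commutator_def, ← Subgroup.map_top_of_surjective (QuotientGroup.mk' K)
      (QuotientGroup.mk'_surjective K), ← Subgroup.map_commutator, ← _root_.commutator_def, hB]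
  rw [h2] at h1
  exact lt_irrefl _ h1

theorem perfect_le_of_pow_mem [Finite X] {B K : Subgroup X} (hB : ⁅B, B⁆ = B)
    (hn : B ≤ normalizer (K : Set X)) (h : ∀ b ∈ B, ∃ n : ℕ, b ^ 2 ^ n ∈ K) : B ≤ K := by
  have : Fact (Nat.Prime 2) := ⟨Nat.prime_two⟩
  have hBc : commutator ↥B = ⊤ := by
    apply Subgroup.map_injective B.subtype_injective
    rw [Subgroup.map_subtype_commutator, hB, ← MonoidHom.range_eq_map, Subgroup.range_subtype]
  have : (K.subgroupOf B).Normal := normal_subgroupOf_of_le_normalizer hn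
  have hQ : IsPGroup 2 (↥B ⧸ K.subgroupOf B) := by
    intro q
    obtain ⟨b, rfl⟩ := QuotientGroup.mk_surjective q
    obtain ⟨n, hn'⟩ := h b.1 b.2
    refine ⟨n, ?_⟩
    rw [← QuotientGroup.mk_pow, QuotientGroup.eq_one_iff, mem_subgroupOf]
    simpa using hn'
  have hnil : Group.IsNilpotent (↥B ⧸ K.subgroupOf B) := hQ.isNilpotent
  have hsolv : Group.IsSolvable (↥B ⧸ K.subgroupOf B) := inferInstance
  have := eq_top_of_perfect_of_solvable_quotient hBc (K.subgroupOf B) hsolv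
  exact subgroupOf_eq_top.1 this

theorem perfect_le_closure_odd [Finite X] {B : Subgroup X} (hB : ⁅B, B⁆ = B) :
    B ≤ closure {x | x ∈ B ∧ Odd (orderOf x)} := by
  apply perfect_le_of_pow_mem hB
  · apply le_normalizer_of_conj
    intro g hg y hy
    apply conj_mem_closure _ hy
    rintro x ⟨hx, hxo⟩
    apply Subgroup.subset_closure
    refine ⟨B.mul_mem (B.mul_mem hg hx) (B.inv_mem hg), ?_⟩
    rw [orderOf_conj_eq]; exact hxo
  · intro b hb
    obtain ⟨e, m, hm, hem⟩ := Nat.exists_eq_pow_mul_and_not_dvd (orderOf_pos b).ne' 2 (by norm_num)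
    refine ⟨e, Subgroup.subset_closure ⟨B.pow_mem hb _, ?_⟩⟩
    have h1 : (b ^ 2 ^ e) ^ m = 1 := by rw [← pow_mul, ← hem, pow_orderOf_eq_one]
    exact Odd.of_dvd_nat (odd_card_of_not_dvd hm) (orderOf_dvd_of_pow_eq_one h1)

theorem pow_mem_of_mem_sup {K T : Subgroup X} [hK : K.Normal] (hT : IsPGroup 2 T) {b : X}
    (hb : b ∈ K ⊔ T) : ∃ n : ℕ, b ^ 2 ^ n ∈ K := by
  obtain ⟨k, hk, t, ht, rfl⟩ := Balance.mem_sup_of_le_normalizer (A := K) (T := T)
    (by rw [normalizer_eq_top_iff.2 hK]; exact le_top) hb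
  obtain ⟨n, hn⟩ := hT ⟨t, ht⟩
  have hn' : t ^ 2 ^ n = 1 := congrArg Subtype.val hn
  refine ⟨n, ?_⟩
  rw [← QuotientGroup.eq_one_iff (N := K), QuotientGroup.mk_pow, QuotientGroup.mk_mul,
    (QuotientGroup.eq_one_iff k).2 hk, one_mul, ← QuotientGroup.mk_pow, hn']
  rfl

theorem perfect_le_of_le_sup_pgroup [Finite X] {B K T : Subgroup X} (hB : ⁅B, B⁆ = B)
    [hK : K.Normal] (hT : IsPGroup 2 T) (h : B ≤ K ⊔ T) : B ≤ K := by
  apply perfect_le_of_pow_mem hB (by rw [normalizer_eq_top_iff.2 hK]; exact le_top)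
  intro b hb
  exact pow_mem_of_mem_sup hT (h hb)

theorem perfect_le_of_le_sup_abelian {B K A : Subgroup X} (hB : ⁅B, B⁆ = B) [hK : K.Normal]
    (hA : ∀ a ∈ A, ∀ b ∈ A, a * b = b * a) (h : B ≤ K ⊔ A) : B ≤ K := by
  rw [← hB, Subgroup.commutator_le]
  intro x hx y hy
  obtain ⟨k, hk, a, ha, rfl⟩ := Balance.mem_sup_of_le_normalizer (A := K) (T := A)
    (by rw [normalizer_eq_top_iff.2 hK]; exact le_top) (h hx)
  obtain ⟨k', hk', a', ha', rfl⟩ := Balance.mem_sup_of_le_normalizer (A := K) (T := A)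
    (by rw [normalizer_eq_top_iff.2 hK]; exact le_top) (h hy)
  rw [← QuotientGroup.eq_one_iff (N := K)]
  have e1 : ((k * a : X) : X ⧸ K) = (a : X ⧸ K) := by
    rw [QuotientGroup.mk_mul, (QuotientGroup.eq_one_iff k).2 hk, one_mul]
  have e2 : ((k' * a' : X) : X ⧸ K) = (a' : X ⧸ K) := by
    rw [QuotientGroup.mk_mul, (QuotientGroup.eq_one_iff k').2 hk', one_mul]
  have e3 : ((⁅k * a, k' * a'⁆ : X) : X ⧸ K) = ((⁅a, a'⁆ : X) : X ⧸ K) := by
    have h1 := map_commutatorElement (QuotientGroup.mk' K) (k * a) (k' * a')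
    have h2 := map_commutatorElement (QuotientGroup.mk' K) a a'
    simp only [QuotientGroup.mk'_apply] at h1 h2
    rw [h1, h2, e1, e2]
  rw [e3, (commutatorElement_eq_one_iff_commute.2 (hA a ha a' ha'))]
  rfl

/-- three subgroups lemma for a perfect group acting. -/
theorem perfect_centralizes {B M C' : Subgroup X} (hB : ⁅B, B⁆ = B)
    (h1 : ∀ m ∈ M, ∀ b ∈ B, m * b * m⁻¹ * b⁻¹ ∈ C') (h2 : ∀ c ∈ C', ∀ b ∈ B, c * b = b * c) :
    ∀ m ∈ M, ∀ b ∈ B, m * b = b * m := by
  have hMB : ⁅M, B⁆ ≤ C' := Subgroup.commutator_le.2 (fun m hm b hb => by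
    rw [commutatorElement_def]; exact h1 m hm b hb)
  have hCB : ⁅C', B⁆ = ⊥ := Subgroup.commutator_eq_bot_iff_le_centralizer.2 (fun c hc =>
    mem_centralizer_iff.2 (fun b hb => (h2 c hc b hb).symm))
  have h3 : ⁅⁅M, B⁆, B⁆ = ⊥ := eq_bot_iff.2 ((Subgroup.commutator_mono hMB le_rfl).trans hCB.le)
  have h4 : ⁅⁅B, M⁆, B⁆ = ⊥ := by rw [Subgroup.commutator_comm B M]; exact h3
  have h5 : ⁅⁅B, B⁆, M⁆ = ⊥ := Subgroup.commutator_commutator_eq_bot_of_rotate h4 h3
  rw [hB, Subgroup.commutator_eq_bot_iff_le_centralizer] at h5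
  intro m hm b hb
  exact mem_centralizer_iff.1 (h5 hb) m hm

theorem IsSylIn_subgroupOf {S G H : Subgroup X} (h : IsSylIn 2 S G) (hGH : G ≤ H) :
    IsSylIn 2 (S.subgroupOf H) (G.subgroupOf H) := by
  refine ⟨?_, h.2.1.comap_subtype, ?_⟩
  · intro x hx
    rw [mem_subgroupOf] at hx ⊢
    exact h.1 hx
  · rw [relIndex_subgroupOf hGH]; exact h.2.2

theorem isSylIn_map_subtype {H : Subgroup X} {S G : Subgroup H} (h : IsSylIn 2 S G) :
    IsSylIn 2 (S.map H.subtype) (G.map H.subtype) := by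
  refine ⟨Subgroup.map_mono h.1, h.2.1.map _, ?_⟩
  rw [relIndex_map_map_of_injective _ _ H.subtype_injective]; exact h.2.2

theorem isSylIn_map {Y : Type*} [Group Y] (f : X →* Y) {S G : Subgroup X} (h : IsSylIn 2 S G) :
    IsSylIn 2 (S.map f) (G.map f) := by
  refine ⟨Subgroup.map_mono h.1, h.2.1.map _, ?_⟩
  have h1 : (S.subgroupOf G).map (f.subgroupMap G) = (S.map f).subgroupOf (G.map f) := by
    ext ⟨y, hy⟩
    rw [mem_subgroupOf]
    constructor
    · rintro ⟨⟨g, hg⟩, hgS, hgy⟩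
      rw [SetLike.mem_coe, mem_subgroupOf] at hgS
      have : f g = y := congrArg Subtype.val hgy
      exact ⟨g, hgS, this⟩
    · rintro ⟨s, hs, hsy⟩
      exact ⟨⟨s, h.1 hs⟩, mem_subgroupOf.2 hs, Subtype.ext hsy⟩
  have h2 : ((S.subgroupOf G).map (f.subgroupMap G)).index ∣ (S.subgroupOf G).index :=
    Subgroup.index_map_dvd _ (MonoidHom.subgroupMap_surjective f G)
  rw [h1] at h2
  intro hd
  exact h.2.2 (dvd_trans hd h2)

theorem Oc_subgroupOf_le [Finite X] {G M : Subgroup X} (hGM : G ≤ M) :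
    (Oc (G.subgroupOf M)).map M.subtype ≤ Oc G := by
  apply le_Oc
  · refine (Subgroup.map_mono (Oc_le _)).trans ?_
    rw [Subgroup.map_subgroupOf_eq_of_le hGM]
  · rw [Subgroup.card_map_of_injective M.subtype_injective]
    exact Oc_odd _
  · apply le_normalizer_of_conj
    rintro g hg _ ⟨r, hr, rfl⟩
    have hg' : (⟨g, hGM hg⟩ : ↥M) ∈ G.subgroupOf M := mem_subgroupOf.2 hg
    have := conj_mem_of_mem_normalizer (Oc_normalizer _ (le_normalizer hg')) hr
    exact ⟨_, this, rfl⟩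

theorem card_quotient_lt [Finite X] {N : Subgroup X} [N.Normal] (h : N ≠ ⊥) :
    Nat.card (X ⧸ N) < Nat.card X := by
  have h1 := Subgroup.card_eq_card_quotient_mul_card_subgroup N
  have h2 : 1 < Nat.card N := (Subgroup.one_lt_card_iff_ne_bot N).2 h
  have h3 : 0 < Nat.card (X ⧸ N) := Nat.card_pos
  rw [h1]
  nlinarith

theorem exists_crt (a r : ℕ) (ha : 0 < a) (h : Nat.Coprime a r) :
    ∃ n j : ℕ, n = 1 + r * j ∧ a ∣ n := by
  obtain ⟨k, hk0, hk1⟩ := Nat.chineseRemainder h 0 1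
  have hdvd : a ∣ k := (Nat.modEq_zero_iff_dvd).1 hk0
  have hn1 : 1 ≤ k + a * r := by
    rcases Nat.eq_zero_or_pos r with hr | hr
    · subst hr
      have : k = 1 := by
        have := hk1
        rw [Nat.ModEq, Nat.mod_zero, Nat.mod_zero] at this
        exact this
      omega
    · have : 0 < a * r := Nat.mul_pos ha hr
      omega
  have hmod : 1 ≡ k + a * r [MOD r] := by
    have h1 : k + a * r ≡ k + 0 [MOD r] :=
      Nat.ModEq.add_left k ((Nat.modEq_zero_iff_dvd).2 (Dvd.intro_left a rfl))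
    rw [add_zero] at h1
    exact (h1.trans hk1).symm
  obtain ⟨j, hj⟩ := (Nat.modEq_iff_dvd' hn1).1 hmod
  refine ⟨k + a * r, j, by omega, ?_⟩
  exact dvd_add hdvd (Dvd.intro _ rfl)

/-- the odd part of an element which has odd order modulo a subgroup. -/
theorem exists_odd_pow [Finite X] (g : X) {r : ℕ} (hr : Odd r) :
    ∃ n j : ℕ, n = 1 + r * j ∧ Odd (orderOf (g ^ n)) := by
  obtain ⟨e, m, hm, hem⟩ := Nat.exists_eq_pow_mul_and_not_dvd (orderOf_pos g).ne' 2 (by norm_num)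
  obtain ⟨n, j, hnj, hdvd⟩ := exists_crt (2 ^ e) r (by positivity)
    (Nat.Coprime.pow_left e (Nat.coprime_two_left.2 hr))
  refine ⟨n, j, hnj, ?_⟩
  have h1 : (g ^ n) ^ m = 1 := by
    rw [← pow_mul]
    apply orderOf_dvd_iff_pow_eq_one.1
    rw [hem]
    exact Nat.mul_dvd_mul_right hdvd m
  exact Odd.of_dvd_nat (odd_card_of_not_dvd hm) (orderOf_dvd_of_pow_eq_one h1)

/-- the `2`-part of an element which has `2`-power order modulo a subgroup. -/
theorem exists_two_pow [Finite X] (g : X) (i : ℕ) :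
    ∃ n j e : ℕ, n = 1 + 2 ^ i * j ∧ (g ^ n) ^ 2 ^ e = 1 := by
  obtain ⟨e, m, hm, hem⟩ := Nat.exists_eq_pow_mul_and_not_dvd (orderOf_pos g).ne' 2 (by norm_num)
  have hm0 : 0 < m := by
    rcases Nat.eq_zero_or_pos m with h | h
    · exfalso; apply hm; rw [h]; exact dvd_zero 2
    · exact h
  obtain ⟨n, j, hnj, hdvd⟩ := exists_crt m (2 ^ i) hm0
    (Nat.Coprime.pow_right i (Nat.coprime_two_right.2 (odd_card_of_not_dvd hm)))
  refine ⟨n, j, e, hnj, ?_⟩
  rw [← pow_mul]
  apply orderOf_dvd_iff_pow_eq_one.1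
  rw [hem, mul_comm]
  exact Nat.mul_dvd_mul_right hdvd _

theorem exists_fully_normalized_rel [Finite X] {S G V : Subgroup X} (hS : IsSylIn 2 S G)
    (hV : V ≤ S) :
    ∃ k ∈ G, V.map (MulAut.conj k).toMonoidHom ≤ S ∧
      IsSylIn 2 (S ⊓ normalizer ((V.map (MulAut.conj k).toMonoidHom : Subgroup X) : Set X))
        (G ⊓ normalizer ((V.map (MulAut.conj k).toMonoidHom : Subgroup X) : Set X)) := by
  have : Fact (Nat.Prime 2) := ⟨Nat.prime_two⟩
  obtain ⟨R, hNR, hR⟩ := exists_isSylIn (p := 2) (H := G ⊓ normalizer (V : Set X))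
    (Q := S ⊓ normalizer (V : Set X)) (inf_le_inf_right _ hS.1) (hS.2.1.to_inf_left)
  obtain ⟨k, hkG, hk⟩ := hS.exists_cj_le (hR.1.trans inf_le_left) hR.2.1
  have hVR : V ≤ R := le_trans (le_inf hV Subgroup.le_normalizer) hNR
  have hsyl' := hR.cj k
  have e : (G ⊓ normalizer (V : Set X)).map (MulAut.conj k).toMonoidHom =
      G ⊓ normalizer ((V.map (MulAut.conj k).toMonoidHom : Subgroup X) : Set X) := by
    rw [cj_inf, cj_eq_self_of_mem hkG, normalizer_cj]
  rw [e] at hsyl'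
  have heq : S ⊓ normalizer ((V.map (MulAut.conj k).toMonoidHom : Subgroup X) : Set X) =
      R.map (MulAut.conj k).toMonoidHom :=
    hsyl'.eq_of_le (le_inf hk (hsyl'.1.trans inf_le_right)) (inf_le_inf_right _ hS.1)
      hS.2.1.to_inf_left
  refine ⟨k, hkG, (cj_mono hVR).trans hk, ?_⟩
  rw [heq]; exact hsyl'

end general

end Cfsg.Agent.Lib.Helper21.GB1b
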