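import Cfsg.Agent.Lib.Helper21.GB1b
import Cfsg.Agent.Lib.Helper33.Alperin
import Cfsg.Agent.S0215

set_option autoImplicit false

/-!
An involution `u` centralizing a Sylow `2`-subgroup `S` of a normal subgroup `G` of index at most
`2` in `H = G⟨u⟩`, such that `u` is "locally" not fused (in normalizers of subgroups of `S`), is
isolated in a Sylow `2`-subgroup of `H`; by Glauberman's `Z*`-theorem it is central modulo a normal
subgroup of odd order.
-/

namespace Cfsg.Agent.Lib.Helper21.GB2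

open Subgroup
open Cfsg.Agent.Lib.Helper33.Conj
open Cfsg.Agent.Lib.Helper33.Alperin
open Cfsg.Agent.Lib.Helper21.GB1
open Cfsg.Agent.Lib.Helper21.GB1b

variable {H : Type*} [Group H] [Finite H]

theorem isolated_of_local (G S : Subgroup H) [hGn : G.Normal] (u : H) (hu : orderOf u = 2)
    (hHG : ∀ h : H, h ∈ G ∨ h * u ∈ G) (hS : IsSylIn 2 S G) (huS : ∀ s ∈ S, u * s = s * u)
    (hloc : ∀ U : Subgroup H, U ≤ S → U ≠ ⊥ →
      IsSylIn 2 (S ⊓ normalizer (U : Set H)) (G ⊓ normalizer (U : Set H)) →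
      ∀ g ∈ G, g ∈ normalizer (U : Set H) → g * u * g⁻¹ * u⁻¹ ∈ U → g * u * g⁻¹ * u⁻¹ = 1) :
    ∃ N : Subgroup H, N.Normal ∧ Odd (Nat.card N) ∧ ∀ g : H, u * g * u⁻¹ * g⁻¹ ∈ N := by
  have : Fact (Nat.Prime 2) := ⟨Nat.prime_two⟩
  have hu2 : u * u = 1 := by rw [← pow_two, ← hu, pow_orderOf_eq_one]
  have huinv : u⁻¹ = u := inv_eq_of_mul_eq_one_left hu2
  have hGtop : ∀ x : H, x ∈ normalizer (G : Set H) := by
    intro x; rw [normalizer_eq_top_iff.2 hGn]; trivial
  have hzS : zpowers u ≤ normalizer (S : Set H) := by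
    rw [zpowers_le]
    exact Cfsg.Agent.Lib.Helper24.Coprime.mem_normalizer_of_commute (fun b hb => (huS b hb).symm)
  have hz2 : IsPGroup 2 (zpowers u) := by
    apply IsPGroup.of_card (n := 1)
    rw [Nat.card_zpowers, hu]; rfl
  have hP₀ : IsPGroup 2 (S ⊔ zpowers u : Subgroup H) :=
    IsPGroup.to_sup_of_normal_left' hS.2.1 hz2 hzS
  obtain ⟨P, hP⟩ := hP₀.exists_le_sylow
  have hSP : S ≤ P := le_sup_left.trans hP
  have huP : u ∈ P := hP (le_sup_right (a := S) (mem_zpowers u))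
  have hPG : (P : Subgroup H) ⊓ G ≤ S :=
    IsSylIn_le hS (le_inf hSP hS.1) inf_le_right (P.2.to_inf_left)
  obtain ⟨𝓕, h𝓕⟩ : ∃ 𝓕 : Set (Subgroup H), 𝓕 = {T | T ≤ (P : Subgroup H) ∧
      IsSylIn 2 (S ⊓ normalizer ((T ⊓ G : Subgroup H) : Set H))
        (G ⊓ normalizer ((T ⊓ G : Subgroup H) : Set H))} := ⟨_, rfl⟩
  have hlocal : ∀ T ∈ 𝓕, u ∈ T → ∀ y ∈ normalizer (T : Set H), y * u * y⁻¹ = u := by
    intro T hT𝓕 huT y hy
    rw [h𝓕] at hT𝓕
    obtain ⟨hTP, hTsyl⟩ := hT𝓕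
    obtain ⟨g, hgG, hgN, hgy⟩ : ∃ g ∈ G, g ∈ normalizer (T : Set H) ∧
        g * u * g⁻¹ = y * u * y⁻¹ := by
      rcases hHG y with h | h
      · exact ⟨y, h, hy, rfl⟩
      · refine ⟨y * u, h, (normalizer (T : Set H)).mul_mem hy (le_normalizer huT), ?_⟩
        rw [mul_inv_rev, huinv]
        calc y * u * u * (u * y⁻¹) = y * (u * u) * u * y⁻¹ := by group
          _ = y * u * y⁻¹ := by rw [hu2]; group
    rw [← hgy]
    have hc_T : g * u * g⁻¹ * u⁻¹ ∈ T :=
      T.mul_mem (GB1b.conj_mem_of_mem_normalizer hgN huT) (T.inv_mem huT)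
    have hc_G : g * u * g⁻¹ * u⁻¹ ∈ G := by
      have : g * u * g⁻¹ * u⁻¹ = g * (u * g⁻¹ * u⁻¹) := by group
      rw [this]; exact G.mul_mem hgG (hGn.conj_mem _ (G.inv_mem hgG) u)
    have hUS : T ⊓ G ≤ S := (inf_le_inf_right _ hTP).trans hPG
    have hgNU : g ∈ normalizer ((T ⊓ G : Subgroup H) : Set H) :=
      NormComp.mem_normalizer_inf hgN (hGtop g)
    have h1 : g * u * g⁻¹ * u⁻¹ = 1 := by
      by_cases hU : T ⊓ G = ⊥
      · have : g * u * g⁻¹ * u⁻¹ ∈ T ⊓ G := ⟨hc_T, hc_G⟩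
        rw [hU, mem_bot] at this; exact this
      · exact hloc (T ⊓ G) hUS hU hTsyl g hgG hgNU ⟨hc_T, hc_G⟩
    calc g * u * g⁻¹ = (g * u * g⁻¹ * u⁻¹) * u := by group
      _ = u := by rw [h1, one_mul]
  have hreach : ∀ (A : Set H) (h : H), Reach 𝓕 A h → u ∈ A → h * u * h⁻¹ = u := by
    intro A h hr
    induction hr with
    | nil A => intro _; simp
    | cons A T y h hT hy hAT _ ih =>
      intro huA
      have h1 := hlocal T hT (hAT huA) y hy
      have h2 := ih ⟨u, huA, h1⟩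
      calc h * y * u * (h * y)⁻¹ = h * (y * u * y⁻¹) * h⁻¹ := by group
        _ = u := by rw [h1, h2]
  have hfam : ∀ T : Subgroup H, T ≤ (P : Subgroup H) → ∃ U ∈ 𝓕,
      (∃ g : H, T.map (MulAut.conj g).toMonoidHom = U) ∧
      ¬ 2 ∣ ((P : Subgroup H) ⊓ normalizer (U : Set H)).relIndex (normalizer (U : Set H)) := by
    intro T hTP
    have hVS : T ⊓ G ≤ S := (inf_le_inf_right _ hTP).trans hPG
    obtain ⟨k, hkG, hkS, hksyl⟩ := exists_fully_normalized_rel hS hVS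
    obtain ⟨V₁, hV₁⟩ : ∃ V₁ : Subgroup H, V₁ = (T ⊓ G).map (MulAut.conj k).toMonoidHom :=
      ⟨_, rfl⟩
    obtain ⟨T', hT'⟩ : ∃ T' : Subgroup H, T' = T.map (MulAut.conj k).toMonoidHom := ⟨_, rfl⟩
    rw [← hV₁] at hkS hksyl
    have hT'G : T' ⊓ G = V₁ := by
      rw [hV₁, hT', cj_inf, cj_eq_self_of_mem hkG]
    have huN₁ : u ∈ normalizer (V₁ : Set H) :=
      Cfsg.Agent.Lib.Helper24.Coprime.mem_normalizer_of_commute
        (fun b hb => (huS b (hkS hb)).symm)
    have hPN₁ : IsSylIn 2 ((P : Subgroup H) ⊓ normalizer (V₁ : Set H))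
        (normalizer (V₁ : Set H)) := by
      obtain ⟨R₁, hR₁le, hR₁⟩ := exists_isSylIn (p := 2) (H := normalizer (V₁ : Set H))
        (Q := (P : Subgroup H) ⊓ normalizer (V₁ : Set H)) inf_le_right P.2.to_inf_left
      have huR₁ : u ∈ R₁ := hR₁le ⟨huP, huN₁⟩
      have hR₁G : R₁ ⊓ G ≤ S ⊓ normalizer (V₁ : Set H) := by
        apply IsSylIn_le hksyl
        · exact le_inf ((inf_le_inf_right _ hSP).trans hR₁le) (inf_le_left.trans hS.1)
        · exact le_inf inf_le_right (inf_le_left.trans hR₁.1)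
        · exact hR₁.2.1.to_inf_left
      have hle : R₁ ≤ (P : Subgroup H) ⊓ normalizer (V₁ : Set H) := by
        intro x hx
        rcases hHG x with h | h
        · have := hR₁G ⟨hx, h⟩
          exact ⟨hSP this.1, this.2⟩
        · have h2 := hR₁G ⟨R₁.mul_mem hx huR₁, h⟩
          have h3 : x * u ∈ (P : Subgroup H) ⊓ normalizer (V₁ : Set H) := ⟨hSP h2.1, h2.2⟩
          have h4 : u⁻¹ ∈ (P : Subgroup H) ⊓ normalizer (V₁ : Set H) := inv_mem ⟨huP, huN₁⟩
          have := mul_mem h3 h4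
          simpa using this
      have : R₁ = (P : Subgroup H) ⊓ normalizer (V₁ : Set H) := le_antisymm hle hR₁le
      rw [← this]; exact hR₁
    have hT'p : IsPGroup 2 T' := by
      rw [hT']; exact isPGroup_cj k (P.2.to_le hTP)
    have hNT' : normalizer (T' : Set H) ≤ normalizer (V₁ : Set H) := by
      intro x hx
      rw [← hT'G]
      exact NormComp.mem_normalizer_inf hx (hGtop x)
    obtain ⟨R₂, hT'R₂, hR₂⟩ := exists_isSylIn (p := 2) (H := normalizer (T' : Set H))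
      (Q := T') le_normalizer hT'p
    obtain ⟨m, hmN, hm⟩ := hPN₁.exists_cj_le (hR₂.1.trans hNT') hR₂.2.1
    have hUG : T'.map (MulAut.conj m).toMonoidHom ⊓ G = V₁ := by
      have hGm : G.map (MulAut.conj m).toMonoidHom = G := cj_eq_of_mem_normalizer (hGtop m)
      calc T'.map (MulAut.conj m).toMonoidHom ⊓ G
          = T'.map (MulAut.conj m).toMonoidHom ⊓ G.map (MulAut.conj m).toMonoidHom := by
            rw [hGm]
        _ = (T' ⊓ G).map (MulAut.conj m).toMonoidHom := (cj_inf m T' G).symm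
        _ = V₁.map (MulAut.conj m).toMonoidHom := by rw [hT'G]
        _ = V₁ := cj_eq_of_mem_normalizer hmN
    refine ⟨T'.map (MulAut.conj m).toMonoidHom, ?_, ⟨m * k, ?_⟩, ?_⟩
    · rw [h𝓕]
      refine ⟨(cj_mono hT'R₂).trans (hm.trans inf_le_left), ?_⟩
      rw [hUG]; exact hksyl
    · rw [hT', cj_cj]
    · have hsyl₂ := hR₂.cj m
      rw [← normalizer_cj] at hsyl₂
      have heq := hsyl₂.eq_of_le (R' := (P : Subgroup H) ⊓
        normalizer ((T'.map (MulAut.conj m).toMonoidHom : Subgroup H) : Set H))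
        (le_inf (hm.trans inf_le_left) hsyl₂.1) inf_le_right P.2.to_inf_left
      rw [heq]; exact hsyl₂.2.2
  have hiso : ∀ g : H, g * u * g⁻¹ ∈ P → g * u * g⁻¹ = u := by
    intro g hg
    have hr := alperin_set P 𝓕 (fun U hU => by rw [h𝓕] at hU; exact hU.1) hfam {u}
      (by simpa using huP) g (by simpa using hg)
    exact hreach {u} g hr rfl
  exact Cfsg.Agent.S0215.result P u hu huP hiso

end Cfsg.Agent.Lib.Helper21.GB2
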