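import Cfsg.Agent.Lib.Helper21.GB2

set_option autoImplicit false

/-!
A Glauberman-type theorem: if `G` is a normal subgroup of the finite group `X`, `S` a Sylow
`2`-subgroup of `G`, and `B` a perfect subgroup of `X` generated by `2`-elements with `[S, B] = 1`,
then `[G, B] ≤ O(G)`.
-/

namespace Cfsg.Agent.Lib.Helper21.GB3

open Subgroup
open scoped commutatorElement
open Cfsg.Agent.Lib.Helper33.Conj
open Cfsg.Agent.Lib.Helper21.GB1
open Cfsg.Agent.Lib.Helper21.GB1b

universe u

/-- the statement, for groups of order at most `n`. -/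
def GHyp (n : ℕ) : Prop := ∀ (X : Type u) [Group X] [Finite X], Nat.card X ≤ n →
    ∀ G S B : Subgroup X, G.Normal → IsSylIn 2 S G → (∀ b ∈ B, ∀ s ∈ S, b * s = s * b) → IsTwoPerf B →
    ∀ g ∈ G, ∀ b ∈ B, g * b * g⁻¹ * b⁻¹ ∈ Oc G

theorem map_inf_normalizer {X : Type*} [Group X] {Hs : Subgroup X} (A : Subgroup X) (hA : A ≤ Hs)
    (U' : Subgroup ↥Hs) :
    (A.subgroupOf Hs ⊓ normalizer (U' : Set ↥Hs)).map Hs.subtype =
      A ⊓ normalizer ((U'.map Hs.subtype : Subgroup X) : Set X) := by
  have h2 : (normalizer ((U'.map Hs.subtype : Subgroup X) : Set X)).subgroupOf Hs =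
      normalizer (U' : Set ↥Hs) := by
    rw [subgroupOf_normalizer_eq (map_subtype_le U')]
    have : (U'.map Hs.subtype).subgroupOf Hs = U' :=
      comap_map_eq_self_of_injective Hs.subtype_injective U'
    rw [this]
  ext x
  constructor
  · rintro ⟨y, ⟨hyA, hyN⟩, rfl⟩
    rw [← h2] at hyN
    exact ⟨mem_subgroupOf.1 hyA, mem_subgroupOf.1 hyN⟩
  · rintro ⟨hxA, hxN⟩
    refine ⟨⟨x, hA hxA⟩, ⟨mem_subgroupOf.2 hxA, ?_⟩, rfl⟩
    rw [SetLike.mem_coe, ← h2]
    exact mem_subgroupOf.2 hxN

theorem lemmaQ {n : ℕ} (ih : GHyp.{u} n) {X : Type u} [Group X] [Finite X]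
    (hX : Nat.card X ≤ n + 1) (G S B : Subgroup X) [hGn : G.Normal] (hS : IsSylIn 2 S G)
    (hBS : ∀ b ∈ B, ∀ s ∈ S, b * s = s * b) (hB : IsTwoPerf B) (hO : Oc G = ⊥) (N : Subgroup X)
    [hNn : N.Normal] (hN : N ≠ ⊥) (hNG : IsPGroup 2 (N ⊓ G : Subgroup X)) :
    ∀ g ∈ G, ∀ b ∈ B, g * b = b * g := by
  have : Fact (Nat.Prime 2) := ⟨Nat.prime_two⟩
  have hcard : Nat.card (X ⧸ N) ≤ n := by
    have := card_quotient_lt hN; omega
  obtain ⟨π, hπ⟩ : ∃ π : X →* X ⧸ N, π = QuotientGroup.mk' N := ⟨_, rfl⟩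
  have hπs : Function.Surjective π := by rw [hπ]; exact QuotientGroup.mk'_surjective N
  have hker : π.ker = N := by rw [hπ]; exact QuotientGroup.ker_mk' N
  have hGbar : (G.map π).Normal := Subgroup.Normal.map hGn π hπs
  have hih := ih (X ⧸ N) hcard (G.map π) (S.map π) (B.map π) hGbar (isSylIn_map π hS)
    (by
      rintro _ ⟨b, hb, rfl⟩ _ ⟨s, hs, rfl⟩
      rw [← map_mul, ← map_mul, hBS b hb s hs]) (hB.map π)
  have hOcN : ∀ y : X ⧸ N, y ∈ normalizer ((Oc (G.map π) : Subgroup (X ⧸ N)) : Set (X ⧸ N)) := by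
    intro y
    apply Oc_normalizer
    rw [normalizer_eq_top_iff.2 hGbar]; trivial
  obtain ⟨W, hW⟩ : ∃ W : Subgroup X, W = G ⊓ (Oc (G.map π)).comap π := ⟨_, rfl⟩
  have hWG : W ≤ G := by rw [hW]; exact inf_le_left
  have hWconj : ∀ x : X, ∀ w ∈ W, x * w * x⁻¹ ∈ W := by
    intro x w hw
    rw [hW] at hw ⊢
    obtain ⟨hw1, h2⟩ := mem_inf.1 hw
    refine mem_inf.2 ⟨hGn.conj_mem w hw1 x, ?_⟩
    rw [mem_comap] at h2 ⊢
    rw [map_mul, map_mul, map_inv]
    exact conj_mem_of_mem_normalizer (hOcN (π x)) h2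
  have hNW : N ⊓ G ≤ W := by
    rw [hW]
    refine le_inf inf_le_right ?_
    intro x hx
    rw [mem_comap]
    have : π x = 1 := by
      rw [← MonoidHom.mem_ker, hker]; exact (mem_inf.1 hx).1
    rw [this]; exact one_mem _
  -- odd index
  have hodd : ∀ K : Subgroup X, K ≤ W → ¬ 2 ∣ (N ⊓ K).relIndex K := by
    intro K hK
    rw [inf_relIndex_right, ← hker, Subgroup.relIndex_ker]
    have h1 : K.map π ≤ Oc (G.map π) := by
      rintro _ ⟨x, hx, rfl⟩
      have := hK hx
      rw [hW] at this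
      exact mem_comap.1 (mem_inf.1 this).2
    have h2 : Odd (Nat.card (K.map π)) :=
      Odd.of_dvd_nat (Oc_odd (G.map π)) (Subgroup.card_dvd_of_le h1)
    intro hd
    rw [← even_iff_two_dvd] at hd
    exact (Nat.not_even_iff_odd.2 h2) hd
  have hZ₀n : ∀ x : X, x ∈ normalizer ((N ⊓ G : Subgroup X) : Set X) := by
    intro x
    have : (N ⊓ G).Normal := inferInstance
    rw [normalizer_eq_top_iff.2 this]; trivial
  obtain ⟨C, hC⟩ : ∃ C : Subgroup X, C = W ⊓ centralizer ((N ⊓ G : Subgroup X) : Set X) :=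
    ⟨_, rfl⟩
  have hCW : C ≤ W := by rw [hC]; exact inf_le_left
  have hCconj : ∀ x : X, x ∈ normalizer (C : Set X) := by
    intro x
    rw [hC]
    apply NormComp.mem_normalizer_inf
    · rw [mem_normalizer_iff]
      intro w
      constructor
      · exact hWconj x w
      · intro hw
        have := hWconj x⁻¹ _ hw
        have e : x⁻¹ * (x * w * x⁻¹) * x⁻¹⁻¹ = w := by group
        rwa [e] at this
    · exact Balance.normalizer_le_normalizer_centralizer _ (hZ₀n x)
  have hZ₁ : IsSylIn 2 ((N ⊓ G) ⊓ C) C := by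
    refine ⟨inf_le_right, hNG.to_inf_left, ?_⟩
    have e : (N ⊓ G) ⊓ C = N ⊓ C := by
      apply le_antisymm
      · exact le_inf (inf_le_left.trans inf_le_left) inf_le_right
      · exact le_inf (le_inf inf_le_left (inf_le_right.trans (hCW.trans hWG))) inf_le_right
    rw [e]
    exact hodd C hCW
  have hCp : IsPGroup 2 C := by
    apply isPGroup_of_central_sylow hO (hCW.trans hWG) (fun g _ => hCconj g) hZ₁
    intro z hz c hc
    rw [hC] at hc
    exact (mem_centralizer_iff.1 (mem_inf.1 hc).2 z (mem_inf.1 hz).1)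
  have hCS : C ≤ S := by
    have h1 : IsPGroup 2 (S ⊔ C : Subgroup X) :=
      IsPGroup.to_sup_of_normal_right' hS.2.1 hCp (fun s _ => hCconj s)
    exact le_sup_right.trans (IsSylIn_le hS le_sup_left (sup_le hS.1 (hCW.trans hWG)) h1)
  have hZ₀S : N ⊓ G ≤ S := by
    have h1 : IsPGroup 2 (S ⊔ (N ⊓ G) : Subgroup X) :=
      IsPGroup.to_sup_of_normal_right' hS.2.1 hNG (fun s _ => hZ₀n s)
    exact le_sup_right.trans (IsSylIn_le hS le_sup_left (sup_le hS.1 inf_le_right) h1)
  have hBW : ∀ w ∈ W, ∀ b ∈ B, w * b = b * w := by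
    apply perfect_centralizes hB.1 (C' := C)
    · intro w hw b hb
      rw [hC]
      refine mem_inf.2 ⟨?_, ?_⟩
      · have e : w * b * w⁻¹ * b⁻¹ = w * (b * w⁻¹ * b⁻¹) := by group
        rw [e]; exact W.mul_mem hw (hWconj b _ (W.inv_mem hw))
      · have hbc : b ∈ centralizer ((N ⊓ G : Subgroup X) : Set X) := by
          rw [mem_centralizer_iff]
          intro z hz
          exact (hBS b hb z (hZ₀S hz)).symm
        have hcn : w ∈ normalizer ((centralizer ((N ⊓ G : Subgroup X) : Set X) : Subgroup X) :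
            Set X) := Balance.normalizer_le_normalizer_centralizer _ (hZ₀n w)
        exact mul_mem (conj_mem_of_mem_normalizer hcn hbc) (inv_mem hbc)
    · intro c hc b hb
      exact (hBS b hb c (hCS hc)).symm
  apply perfect_centralizes hB.1 (C' := W)
  · intro g hg b hb
    rw [hW]
    refine mem_inf.2 ⟨?_, ?_⟩
    · have e : g * b * g⁻¹ * b⁻¹ = g * (b * g⁻¹ * b⁻¹) := by group
      rw [e]; exact G.mul_mem hg (hGn.conj_mem _ (G.inv_mem hg) b)
    · rw [mem_comap]
      have := hih (π g) ⟨g, hg, rfl⟩ (π b) ⟨b, hb, rfl⟩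
      simpa using this
  · exact hBW

theorem glauberman_aux (n : ℕ) : GHyp.{u} n := by
  induction n with
  | zero =>
    intro X _ _ hX
    exact absurd hX (by have := Nat.card_pos (α := X); omega)
  | succ n ih =>
    intro X _ _ hX G S B hGn hS hBS hB
    have : Fact (Nat.Prime 2) := ⟨Nat.prime_two⟩
    have hGtop : ∀ x : X, x ∈ normalizer (G : Set X) := by
      intro x; rw [normalizer_eq_top_iff.2 hGn]; trivial
    by_cases hO : Oc G = ⊥
    swap
    · -- pass to the quotient by `O(G)`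
      have hNn : (Oc G).Normal := by
        rw [← normalizer_eq_top_iff, eq_top_iff]
        intro x _
        exact Oc_normalizer G (hGtop x)
      have hcard : Nat.card (X ⧸ Oc G) ≤ n := by
        have := card_quotient_lt hO; omega
      obtain ⟨π, hπ⟩ : ∃ π : X →* X ⧸ Oc G, π = QuotientGroup.mk' (Oc G) := ⟨_, rfl⟩
      have hπs : Function.Surjective π := by rw [hπ]; exact QuotientGroup.mk'_surjective _
      have hker : π.ker = Oc G := by rw [hπ]; exact QuotientGroup.ker_mk' _
      have hGbar : (G.map π).Normal := Subgroup.Normal.map hGn π hπs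
      have hih := ih (X ⧸ Oc G) hcard (G.map π) (S.map π) (B.map π) hGbar (isSylIn_map π hS)
        (by
          rintro _ ⟨b, hb, rfl⟩ _ ⟨s, hs, rfl⟩
          rw [← map_mul, ← map_mul, hBS b hb s hs]) (hB.map π)
      have hD : G ⊓ (Oc (G.map π)).comap π ≤ Oc G := by
        have hle : Oc G ≤ G ⊓ (Oc (G.map π)).comap π := by
          refine le_inf (Oc_le G) ?_
          intro x hx
          rw [mem_comap]
          have : π x = 1 := by rw [← MonoidHom.mem_ker, hker]; exact hx
          rw [this]; exact one_mem _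
        apply le_Oc inf_le_left
        · rw [Cfsg.Agent.Lib.Helper76.PSolv.card_eq_card_mul_relIndex hle]
          apply Odd.mul (Oc_odd G)
          have hri := Subgroup.relIndex_ker (G ⊓ (Oc (G.map π)).comap π) π
          rw [hker] at hri
          rw [hri]
          apply Odd.of_dvd_nat (Oc_odd (G.map π)) (Subgroup.card_dvd_of_le _)
          rintro _ ⟨x, hx, rfl⟩
          exact mem_comap.1 (mem_inf.1 hx).2
        · apply le_normalizer_of_conj
          intro g hg y hy
          obtain ⟨hyG, hy2⟩ := mem_inf.1 hy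
          refine mem_inf.2 ⟨hGn.conj_mem y hyG g, ?_⟩
          rw [mem_comap] at hy2 ⊢
          rw [map_mul, map_mul, map_inv]
          refine conj_mem_of_mem_normalizer (Oc_normalizer _ ?_) hy2
          rw [normalizer_eq_top_iff.2 hGbar]; trivial
      intro g hg b hb
      apply hD
      refine mem_inf.2 ⟨?_, ?_⟩
      · have e : g * b * g⁻¹ * b⁻¹ = g * (b * g⁻¹ * b⁻¹) := by group
        rw [e]; exact G.mul_mem hg (hGn.conj_mem _ (G.inv_mem hg) b)
      · rw [mem_comap]
        have := hih (π g) ⟨g, hg, rfl⟩ (π b) ⟨b, hb, rfl⟩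
        simpa using this
    · rw [hO]
      suffices hcomm : ∀ g ∈ G, ∀ b ∈ B, g * b = b * g by
        intro g hg b hb
        rw [mem_bot, hcomm g hg b hb]; group
      -- we may assume `C_X(G) = 1`
      by_cases hCG : centralizer (G : Set X) = ⊥
      swap
      · have hCn : (centralizer (G : Set X)).Normal := inferInstance
        apply lemmaQ ih hX G S B hS hBS hB hO (centralizer (G : Set X)) hCG
        obtain ⟨Z, -, hZ⟩ := exists_isSylIn (p := 2) (H := centralizer (G : Set X) ⊓ G)
          (Q := ⊥) bot_le IsPGroup.of_bot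
        refine isPGroup_of_central_sylow hO inf_le_right ?_ hZ ?_
        · intro g _
          have : (centralizer (G : Set X) ⊓ G).Normal := inferInstance
          rw [normalizer_eq_top_iff.2 this]; trivial
        · intro z hz c hc
          exact (mem_centralizer_iff.1 (mem_inf.1 hc).1 z (mem_inf.1 (hZ.1 hz)).2)
      -- we may assume no nontrivial subgroup of `S` is normal in `X`
      by_cases hU : ∃ U : Subgroup X, U ≤ S ∧ U ≠ ⊥ ∧ U.Normal
      · obtain ⟨U, hUS, hUne, hUn⟩ := hU
        exact lemmaQ ih hX G S B hS hBS hB hO U hUne (hS.2.1.to_le (inf_le_left.trans hUS))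
      push Not at hU
      by_cases hBbot : B = ⊥
      · intro g hg b hb
        rw [hBbot, mem_bot] at hb
        rw [hb]; simp
      obtain ⟨u, huB, hu⟩ := hB.exists_involution hBbot
      exfalso
      have hu2 : u * u = 1 := by rw [← pow_two, ← hu, pow_orderOf_eq_one]
      obtain ⟨Hs, hHs⟩ : ∃ Hs : Subgroup X, Hs = G ⊔ zpowers u := ⟨_, rfl⟩
      have hGH : G ≤ Hs := by rw [hHs]; exact le_sup_left
      have huH : u ∈ Hs := by rw [hHs]; exact le_sup_right (a := G) (mem_zpowers u)
      have hGHn : (G.subgroupOf Hs).Normal := hGn.subgroupOf Hs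
      have hu' : orderOf (⟨u, huH⟩ : ↥Hs) = 2 := by rw [Subgroup.orderOf_mk]; exact hu
      have hHG : ∀ h : ↥Hs, h ∈ G.subgroupOf Hs ∨ h * ⟨u, huH⟩ ∈ G.subgroupOf Hs := by
        rintro ⟨h, hh⟩
        have hh' : h ∈ G ⊔ zpowers u := hHs ▸ hh
        obtain ⟨g, hg, z, hz, rfl⟩ := Balance.mem_sup_of_le_normalizer (A := G) (T := zpowers u)
          (fun x _ => hGtop x) hh'
        obtain ⟨k, rfl⟩ := mem_zpowers_iff.1 hz
        have hk := zpow_mod_orderOf u k
        rw [hu] at hk
        rcases Int.emod_two_eq_zero_or_one k with h0 | h1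
        · left
          rw [mem_subgroupOf]
          show g * u ^ k ∈ G
          rw [← hk]
          have : ((2 : ℕ) : ℤ) = 2 := rfl
          rw [this, h0, zpow_zero, mul_one]; exact hg
        · right
          rw [mem_subgroupOf]
          show g * u ^ k * u ∈ G
          rw [← hk]
          have : ((2 : ℕ) : ℤ) = 2 := rfl
          rw [this, h1, zpow_one, mul_assoc, hu2, mul_one]; exact hg
      have hS' := IsSylIn_subgroupOf hS hGH
      have huS' : ∀ s ∈ S.subgroupOf Hs, (⟨u, huH⟩ : ↥Hs) * s = s * ⟨u, huH⟩ := by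
        intro s hs
        exact Subtype.ext (hBS u huB s.1 (mem_subgroupOf.1 hs))
      have hloc : ∀ U' : Subgroup ↥Hs, U' ≤ S.subgroupOf Hs → U' ≠ ⊥ →
          IsSylIn 2 (S.subgroupOf Hs ⊓ normalizer (U' : Set ↥Hs))
            (G.subgroupOf Hs ⊓ normalizer (U' : Set ↥Hs)) →
          ∀ g' ∈ G.subgroupOf Hs, g' ∈ normalizer (U' : Set ↥Hs) →
            g' * ⟨u, huH⟩ * g'⁻¹ * (⟨u, huH⟩ : ↥Hs)⁻¹ ∈ U' →
            g' * ⟨u, huH⟩ * g'⁻¹ * (⟨u, huH⟩ : ↥Hs)⁻¹ = 1 := by
        intro U' hU'S hU'ne hsyl g' hg'G hg'N hc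
        obtain ⟨U, hUdef⟩ : ∃ U : Subgroup X, U = U'.map Hs.subtype := ⟨_, rfl⟩
        have hUS : U ≤ S := by
          rw [hUdef]
          rintro _ ⟨y, hy, rfl⟩
          exact mem_subgroupOf.1 (hU'S hy)
        have hUne : U ≠ ⊥ := by
          rw [hUdef]
          intro h
          exact hU'ne ((Subgroup.map_eq_bot_iff_of_injective U' Hs.subtype_injective).1 h)
        have hUnn : ¬ U.Normal := hU U hUS hUne
        have hMlt : normalizer (U : Set X) < ⊤ := by
          rw [lt_top_iff_ne_top]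
          intro h
          exact hUnn (normalizer_eq_top_iff.1 h)
        have hMcard : Nat.card ↥(normalizer (U : Set X)) ≤ n := by
          have := Comp.card_lt_of_lt_top hMlt; omega
        have hsylX : IsSylIn 2 (S ⊓ normalizer (U : Set X)) (G ⊓ normalizer (U : Set X)) := by
          have h1 := isSylIn_map_subtype hsyl
          rw [map_inf_normalizer S (hS.1.trans hGH), map_inf_normalizer G hGH, ← hUdef] at h1
          exact h1
        have hBM : B ≤ normalizer (U : Set X) := by
          intro b hb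
          exact Cfsg.Agent.Lib.Helper24.Coprime.mem_normalizer_of_commute
            (fun x hx => (hBS b hb x (hUS hx)).symm)
        have hsylM := IsSylIn_subgroupOf hsylX (inf_le_right)
        have hGMn : ((G ⊓ normalizer (U : Set X)).subgroupOf (normalizer (U : Set X))).Normal := by
          rw [inf_subgroupOf_right]; exact hGn.subgroupOf _
        have hihM := ih ↥(normalizer (U : Set X)) hMcard _ _ (B.subgroupOf (normalizer (U : Set X)))
          hGMn hsylM (by
            intro b hb s hs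
            exact Subtype.ext (hBS b.1 (mem_subgroupOf.1 hb) s.1 (mem_inf.1 (mem_subgroupOf.1 hs)).1))
          (hB.subgroupOf hBM)
        have hgM : (g' : X) ∈ normalizer (U : Set X) := by
          have h2 : (g' : X) ∈ G ⊓ normalizer ((U'.map Hs.subtype : Subgroup X) : Set X) := by
            rw [← map_inf_normalizer G hGH]
            exact ⟨g', ⟨hg'G, hg'N⟩, rfl⟩
          rw [hUdef]; exact (mem_inf.1 h2).2
        have huM : u ∈ normalizer (U : Set X) := hBM huB
        have h3 := hihM ⟨(g' : X), hgM⟩ (mem_subgroupOf.2 (mem_inf.2 ⟨mem_subgroupOf.1 hg'G, hgM⟩))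
          ⟨u, huM⟩ (mem_subgroupOf.2 huB)
        have hcU : (g' : X) * u * (g' : X)⁻¹ * u⁻¹ ∈ U := by
          rw [hUdef]
          exact ⟨_, hc, rfl⟩
        have hcN : (g' : X) * u * (g' : X)⁻¹ * u⁻¹ ∈
            (Oc ((G ⊓ normalizer (U : Set X)).subgroupOf (normalizer (U : Set X)))).map
              (normalizer (U : Set X)).subtype := ⟨_, h3, rfl⟩
        have hodd : Odd (Nat.card ((Oc ((G ⊓ normalizer (U : Set X)).subgroupOf
            (normalizer (U : Set X)))).map (normalizer (U : Set X)).subtype)) := by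
          rw [Subgroup.card_map_of_injective (normalizer (U : Set X)).subtype_injective]
          exact Oc_odd _
        have h4 := eq_one_of_two_odd (hS.2.1.to_le hUS) hodd hcU hcN
        exact Subtype.ext h4
      obtain ⟨N', hN'n, hN'odd, hN'⟩ := GB2.isolated_of_local (G.subgroupOf Hs) (S.subgroupOf Hs)
        ⟨u, huH⟩ hu' hHG hS' huS' hloc
      have hD : N'.map Hs.subtype ⊓ G ≤ Oc G := by
        apply le_Oc inf_le_right
        · apply Odd.of_dvd_nat _ (Subgroup.card_dvd_of_le (inf_le_left (b := G)))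
          rw [Subgroup.card_map_of_injective Hs.subtype_injective]
          exact hN'odd
        · apply le_normalizer_of_conj
          intro g hg y hy
          obtain ⟨⟨y', hy', rfl⟩, hyG⟩ := mem_inf.1 hy
          refine mem_inf.2 ⟨⟨⟨g, hGH hg⟩ * y' * ⟨g, hGH hg⟩⁻¹, hN'n.conj_mem y' hy' _, rfl⟩, ?_⟩
          exact hGn.conj_mem _ hyG g
      have huG : u ∈ centralizer (G : Set X) := by
        rw [mem_centralizer_iff]
        intro g hg
        have h1 : u * g * u⁻¹ * g⁻¹ ∈ N'.map Hs.subtype ⊓ G := by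
          refine mem_inf.2 ⟨⟨_, hN' ⟨g, hGH hg⟩, rfl⟩, ?_⟩
          exact G.mul_mem (hGn.conj_mem g hg u) (G.inv_mem hg)
        have h2 := hD h1
        rw [hO, mem_bot] at h2
        have h3 : u * g = (u * g * u⁻¹ * g⁻¹) * (g * u) := by group
        rw [h3, h2, one_mul]
      rw [hCG, mem_bot] at huG
      rw [huG, orderOf_one] at hu
      exact absurd hu (by norm_num)

/-- A perfect subgroup `B` generated by `2`-elements which centralizes a Sylow `2`-subgroup of the
normal subgroup `G` centralizes `G` modulo `O(G)`. -/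
theorem glauberman {X : Type u} [Group X] [Finite X] (G S B : Subgroup X) (hGn : G.Normal)
    (hS : IsSylIn 2 S G) (hBS : ∀ b ∈ B, ∀ s ∈ S, b * s = s * b) (hB : IsTwoPerf B) :
    ∀ g ∈ G, ∀ b ∈ B, g * b * g⁻¹ * b⁻¹ ∈ Oc G :=
  glauberman_aux (Nat.card X) X le_rfl G S B hGn hS hBS hB

end Cfsg.Agent.Lib.Helper21.GB3
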