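import Mathlib
import Cfsg.Agent.Lib.Helper96.HallAltStmt

set_option autoImplicit false

namespace Cfsg.Agent.Lib.Helper21.HAFIN1

open Equiv Cfsg.Agent.Lib.Helper96.HallSymStmt Cfsg.Agent.Lib.Helper96.HallAltStmt

theorem main : Cfsg.Agent.Lib.Helper96.HallAltStmt.FIN1 := by
  intro G _ _ B π M hM hB
  obtain ⟨hMB, hpi, hidx⟩ := hM
  refine ⟨hpi, ?_⟩
  intro p hp hpπ hdvd
  rw [← Subgroup.relIndex_mul_index hMB] at hdvd
  rcases (Nat.Prime.dvd_mul hp).1 hdvd with h | h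
  · exact hidx p hp hpπ h
  · exact hB p hp hpπ h

end Cfsg.Agent.Lib.Helper21.HAFIN1
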