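import Mathlib
import Cfsg.Agent.Lib.Helper96.HallAltStmt

set_option autoImplicit false

namespace Cfsg.Agent.Lib.Helper21.HAFIN2

open Equiv Cfsg.Agent.Lib.Helper96.HallSymStmt Cfsg.Agent.Lib.Helper96.HallAltStmt

theorem main : Cfsg.Agent.Lib.Helper96.HallAltStmt.FIN2' := by
  intro hHMAX G _ _ B hB2 π M M' hM hMM' hM' hnot
  have hMB : M ≤ B := hM.1
  have hinf : M' ⊓ B = M := by
    apply hHMAX G π M B (M' ⊓ B) hM (le_inf hMM' hMB) inf_le_right
    intro p hp hdvd
    exact hM' p hp (hdvd.trans (Subgroup.card_dvd_of_le inf_le_left))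
  refine ⟨⟨hM', ?_⟩, hinf⟩
  have : B.Normal := Subgroup.normal_of_index_eq_two hB2
  have h1 : B.relIndex M' = 2 := by
    have hd : B.relIndex M' ∣ 2 := by
      rw [← hB2]; exact Subgroup.relIndex_dvd_index_of_normal B M'
    have hne : B.relIndex M' ≠ 1 := by
      rw [Ne, Subgroup.relIndex_eq_one]; exact hnot
    rcases (Nat.dvd_prime Nat.prime_two).1 hd with h | h
    · exact absurd h hne
    · exact h
  have h2 : M.relIndex M' = 2 := by
    rw [← hinf, Subgroup.inf_relIndex_left]; exact h1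
  have h3 : 2 * M'.index = M.relIndex B * 2 := by
    have e1 := Subgroup.relIndex_mul_index hMM'
    have e2 := Subgroup.relIndex_mul_index hMB
    rw [h2] at e1
    rw [hB2] at e2
    rw [e1, e2]
  have h4 : M'.index = M.relIndex B := by omega
  intro p hp hpπ hdvd
  rw [h4] at hdvd
  exact hM.2.2 p hp hpπ hdvd

end Cfsg.Agent.Lib.Helper21.HAFIN2
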