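import Mathlib
import Cfsg.Agent.Lib.Helper96.HallAltStmt

set_option autoImplicit false

namespace Cfsg.Agent.Lib.Helper21.HAHMAX

open Equiv Cfsg.Agent.Lib.Helper96.HallSymStmt Cfsg.Agent.Lib.Helper96.HallAltStmt

theorem main : Cfsg.Agent.Lib.Helper96.HallAltStmt.HMAX := by
  intro G _ _ π M B K hM hMK hKB hK
  obtain ⟨hMB, hpi, hidx⟩ := hM
  apply le_antisymm _ hMK
  rw [← Subgroup.relIndex_eq_one]
  by_contra hne
  obtain ⟨p, hp, hpdvd⟩ := Nat.exists_prime_and_dvd hne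
  have h1 : p ∣ Nat.card K := hpdvd.trans (Subgroup.relIndex_dvd_card M K)
  have h2 : p ∣ M.relIndex B := by
    rw [← Subgroup.relIndex_mul_relIndex M K B hMK hKB]
    exact Dvd.dvd.mul_right hpdvd _
  exact hidx p hp (hK p hp h1) h2

end Cfsg.Agent.Lib.Helper21.HAHMAX
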