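import Mathlib
import Cfsg.Agent.Lib.Helper96.HallAltStmt

set_option autoImplicit false

namespace Cfsg.Agent.Lib.Helper21.HASUBH

open Equiv Cfsg.Agent.Lib.Helper96.HallSymStmt Cfsg.Agent.Lib.Helper96.HallAltStmt

theorem main : Cfsg.Agent.Lib.Helper96.HallAltStmt.SUBH := by
  intro G _ _ π M B C hM hMC hCB
  obtain ⟨hMB, hpi, hidx⟩ := hM
  refine ⟨hMC, hpi, ?_⟩
  intro p hp hpπ hdvd
  apply hidx p hp hpπ
  rw [← Subgroup.relIndex_mul_relIndex M C B hMC hCB]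
  exact Dvd.dvd.mul_right hdvd _

end Cfsg.Agent.Lib.Helper21.HASUBH
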