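import Mathlib
import Cfsg.Prelude.Def_Local
import Cfsg.Prelude.Def_Balance
import Cfsg.Agent.Lib.Helper21.KBal
import Cfsg.Agent.Lib.Helper21.AutEmb
import Cfsg.Agent.S3800

set_option autoImplicit false

/-!
Local `k`-balance implies `k`-balance: reduction of `Δ_G(A) ∩ C_G(b) ≤ O_{p'}(C_G(b))` to
`Δ = 1` in `C_G(b) / O_{p'}(C_G(b))`, and the resulting theorems.
-/

namespace Cfsg.Agent.Lib.Helper21.KBal2

open Subgroup
open scoped commutatorElement
open Cfsg.Agent.Lib.Helper21
open Cfsg.Agent.Lib.Helper76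

universe u

variable {G : Type u} [Group G] [Finite G]

/-- If `Δ` vanishes on the elementary abelian subgroups of order `p ^ k` of
`C_G(b) / O_{p'}(C_G(b))`, then `Δ_G(A) ∩ C_G(b) ≤ O_{p'}(C_G(b))` for every elementary abelian
`A ≤ C_G(b)` of order `p ^ k`. -/
theorem delta_inf_centralizer_le (p k : ℕ) [hp : Fact p.Prime]
    (A : Subgroup G) (hA : Cfsg.IsElementaryAbelian p A) (hAk : Nat.card A = p ^ k)
    (b : G) (hAb : ∀ a ∈ A, a * b = b * a)
    (hΔ : ∀ A' : Subgroup (↥(centralizer ({b} : Set G)) ⧸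
        Cfsg.pPrimeCore p ↥(centralizer ({b} : Set G))),
      Cfsg.IsElementaryAbelian p A' → Nat.card A' = p ^ k → Cfsg.signalizerDelta p A' = ⊥) :
    Cfsg.signalizerDelta p A ⊓ centralizer ({b} : Set G) ≤ Cfsg.centralizerPPrimeCore p b := by
  obtain ⟨C, hCdef⟩ : ∃ C, C = centralizer ({b} : Set G) := ⟨_, rfl⟩
  have hOcop : (Nat.card (Cfsg.pPrimeCore p ↥(centralizer ({b} : Set G)))).Coprime p :=
    PSolv.pPrimeCore_coprime p
  have hAC : A ≤ centralizer ({b} : Set G) := by
    intro a ha
    rw [mem_centralizer_singleton_iff]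
    exact hAb a ha
  have hAcomm : ∀ a ∈ A, ∀ c ∈ A, a * c = c * a := by
    intro a ha c hc
    exact congrArg Subtype.val ((isMulCommutative_iff.1 hA.1) ⟨a, ha⟩ ⟨c, hc⟩)
  -- the image of `A`
  obtain ⟨B, hBdef⟩ : ∃ B, B = (A.subgroupOf (centralizer ({b} : Set G))).map
      (QuotientGroup.mk' (Cfsg.pPrimeCore p ↥(centralizer ({b} : Set G)))) := ⟨_, rfl⟩
  have hBel : Cfsg.IsElementaryAbelian p B := by
    rw [hBdef]
    refine ⟨isMulCommutative_iff.2 ?_, ?_⟩
    · rintro ⟨_, a, ha, rfl⟩ ⟨_, c, hc, rfl⟩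
      apply Subtype.ext
      show (QuotientGroup.mk' (Cfsg.pPrimeCore p ↥(centralizer ({b} : Set G)))) a *
        (QuotientGroup.mk' (Cfsg.pPrimeCore p ↥(centralizer ({b} : Set G)))) c =
        (QuotientGroup.mk' (Cfsg.pPrimeCore p ↥(centralizer ({b} : Set G)))) c *
        (QuotientGroup.mk' (Cfsg.pPrimeCore p ↥(centralizer ({b} : Set G)))) a
      rw [← map_mul, ← map_mul]
      congr 1
      apply Subtype.ext
      exact hAcomm _ (mem_subgroupOf.1 (SetLike.mem_coe.1 ha)) _
        (mem_subgroupOf.1 (SetLike.mem_coe.1 hc))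
    · rintro _ ⟨a, ha, rfl⟩
      rw [← map_pow]
      have : a ^ p = 1 := by
        apply Subtype.ext
        simp only [SubmonoidClass.coe_pow, OneMemClass.coe_one]
        exact hA.2 _ (mem_subgroupOf.1 (SetLike.mem_coe.1 ha))
      rw [this, map_one]
  have hAinj : ∀ a : ↥(centralizer ({b} : Set G)), (a : G) ∈ A →
      a ∈ Cfsg.pPrimeCore p ↥(centralizer ({b} : Set G)) → a = 1 := by
    intro a haA haO
    have h1 : orderOf a ∣ p := by
      apply orderOf_dvd_of_pow_eq_one
      apply Subtype.ext
      simp only [SubmonoidClass.coe_pow, OneMemClass.coe_one]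
      exact hA.2 _ haA
    have h2 : orderOf a ∣ Nat.card (Cfsg.pPrimeCore p ↥(centralizer ({b} : Set G))) := by
      have := orderOf_dvd_natCard (⟨a, haO⟩ : Cfsg.pPrimeCore p ↥(centralizer ({b} : Set G)))
      rwa [Subgroup.orderOf_mk] at this
    have h3 : orderOf a = 1 := Nat.eq_one_of_dvd_coprimes hOcop h2 h1
    exact orderOf_eq_one_iff.1 h3
  have hBk : Nat.card B = p ^ k := by
    rw [← hAk, hBdef]
    have hg : Function.Injective
        ((QuotientGroup.mk' (Cfsg.pPrimeCore p ↥(centralizer ({b} : Set G)))).comp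
          (A.subgroupOf (centralizer ({b} : Set G))).subtype) := by
      rw [injective_iff_map_eq_one]
      intro a ha
      simp only [MonoidHom.coe_comp, Function.comp_apply, Subgroup.coe_subtype] at ha
      rw [QuotientGroup.mk'_apply, QuotientGroup.eq_one_iff] at ha
      apply Subtype.ext
      exact hAinj _ (mem_subgroupOf.1 a.2) ha
    have hrange : ((QuotientGroup.mk' (Cfsg.pPrimeCore p ↥(centralizer ({b} : Set G)))).comp
        (A.subgroupOf (centralizer ({b} : Set G))).subtype).range =
          (A.subgroupOf (centralizer ({b} : Set G))).map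
            (QuotientGroup.mk' (Cfsg.pPrimeCore p ↥(centralizer ({b} : Set G)))) := by
      rw [MonoidHom.range_comp, Subgroup.range_subtype]
    rw [← hrange, ← Nat.card_congr (MonoidHom.ofInjective hg).toEquiv,
      Nat.card_congr (subgroupOfEquivOfLe hAC).toEquiv]
  have hΔB := hΔ B hBel hBk
  -- the image of `W = Δ_G(A) ∩ C_G(b)` lies in `Δ(B)`
  have hWb : ((Cfsg.signalizerDelta p A ⊓ centralizer ({b} : Set G)).subgroupOf
      (centralizer ({b} : Set G))).map
        (QuotientGroup.mk' (Cfsg.pPrimeCore p ↥(centralizer ({b} : Set G)))) ≤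
      Cfsg.signalizerDelta p B := by
    unfold Cfsg.signalizerDelta
    apply le_iInf
    rintro ⟨b', hbB, hb1⟩
    rw [hBdef] at hbB
    obtain ⟨⟨a, haC⟩, haA0, rfl⟩ := hbB
    have haA : a ∈ A := mem_subgroupOf.1 (SetLike.mem_coe.1 haA0)
    have ha1 : a ≠ 1 := by
      rintro rfl
      apply hb1
      have : (⟨1, haC⟩ : ↥(centralizer ({b} : Set G))) = 1 := rfl
      rw [this, map_one]
    have hcpc_le : Cfsg.centralizerPPrimeCore p a ≤ centralizer ({a} : Set G) :=
      map_subtype_le _
    have hcpc_cop : (Nat.card (Cfsg.centralizerPPrimeCore p a)).Coprime p := by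
      unfold Cfsg.centralizerPPrimeCore
      rw [card_map_of_injective (subtype_injective _)]
      exact PSolv.pPrimeCore_coprime p
    have hcpc_norm : centralizer ({a} : Set G) ≤
        normalizer ((Cfsg.centralizerPPrimeCore p a : Subgroup G) : Set G) :=
      LBal.le_normalizer_map_subtype _ _
    have hR : ((Cfsg.centralizerPPrimeCore p a ⊓ centralizer ({b} : Set G)).subgroupOf
        (centralizer ({b} : Set G))).map
          (QuotientGroup.mk' (Cfsg.pPrimeCore p ↥(centralizer ({b} : Set G)))) ≤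
        Cfsg.centralizerPPrimeCore p
          ((QuotientGroup.mk' (Cfsg.pPrimeCore p ↥(centralizer ({b} : Set G)))) ⟨a, haC⟩) := by
      unfold Cfsg.centralizerPPrimeCore
      apply Balance.le_pPrimeCoreOf
      · rintro _ ⟨d, hd, rfl⟩
        rw [mem_centralizer_iff]
        intro y hy
        rw [Set.mem_singleton_iff] at hy
        subst hy
        rw [← map_mul, ← map_mul]
        congr 1
        apply Subtype.ext
        have hd' := (mem_inf.1 (mem_subgroupOf.1 (SetLike.mem_coe.1 hd))).1
        exact (mem_centralizer_iff.1 (hcpc_le hd')) a rfl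
      · have h1 := card_map_dvd
          (H := (Cfsg.centralizerPPrimeCore p a ⊓ centralizer ({b} : Set G)).subgroupOf
            (centralizer ({b} : Set G)))
          (QuotientGroup.mk' (Cfsg.pPrimeCore p ↥(centralizer ({b} : Set G))))
        rw [Nat.card_congr (subgroupOfEquivOfLe (inf_le_right :
          Cfsg.centralizerPPrimeCore p a ⊓ centralizer ({b} : Set G) ≤ _)).toEquiv] at h1
        have h2 : Nat.card (Cfsg.centralizerPPrimeCore p a ⊓ centralizer ({b} : Set G) :
            Subgroup G) ∣ Nat.card (Cfsg.centralizerPPrimeCore p a) :=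
          Subgroup.card_dvd_of_le inf_le_left
        exact Nat.Coprime.coprime_dvd_left (h1.trans h2) hcpc_cop
      · intro q hq
        -- lift `q` to an element centralizing `a`
        have hPp : IsPGroup p (zpowers (⟨a, haC⟩ : ↥(centralizer ({b} : Set G)))) := by
          apply IsPGroup.of_card (n := 1)
          rw [Nat.card_zpowers, pow_one]
          apply orderOf_eq_prime
          · apply Subtype.ext
            simp only [SubmonoidClass.coe_pow, OneMemClass.coe_one]
            exact hA.2 _ haA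
          · intro h1
            exact ha1 (congrArg Subtype.val h1)
        have hS := (Cfsg.Agent.S3800.result
          (Cfsg.pPrimeCore p ↥(centralizer ({b} : Set G))) hOcop _ hPp).2
        have hq2 : q ∈ centralizer (((zpowers (⟨a, haC⟩ : ↥(centralizer ({b} : Set G)))).map
            (QuotientGroup.mk' (Cfsg.pPrimeCore p ↥(centralizer ({b} : Set G)))) :
              Subgroup _) : Set _) := by
          rw [mem_centralizer_iff]
          rintro _ ⟨y, hy, rfl⟩
          obtain ⟨j, rfl⟩ := mem_zpowers_iff.1 (SetLike.mem_coe.1 hy)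
          rw [map_zpow]
          have h1 : Commute ((QuotientGroup.mk' (Cfsg.pPrimeCore p ↥(centralizer ({b} : Set G))))
              ⟨a, haC⟩) q := (mem_centralizer_iff.1 hq) _ rfl
          exact (h1.zpow_left j).eq
        rw [hS] at hq2
        obtain ⟨c, hc, rfl⟩ := hq2
        have hc' := SetLike.mem_coe.1 hc
        have hca : (c : G) ∈ centralizer ({a} : Set G) := by
          rw [mem_centralizer_singleton_iff]
          have h1 := (mem_centralizer_iff.1 hc') ⟨a, haC⟩ (mem_zpowers _)
          have h2 := congrArg Subtype.val h1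
          simp only [Subgroup.coe_mul] at h2
          exact h2.symm
        have hcN : (c : G) ∈ normalizer ((Cfsg.centralizerPPrimeCore p a ⊓
            centralizer ({b} : Set G) : Subgroup G) : Set G) :=
          NormComp.mem_normalizer_inf (hcpc_norm hca) (le_normalizer c.2)
        have h4 : c ∈ normalizer (((Cfsg.centralizerPPrimeCore p a ⊓
            centralizer ({b} : Set G)).subgroupOf (centralizer ({b} : Set G)) :
              Subgroup ↥(centralizer ({b} : Set G))) : Set ↥(centralizer ({b} : Set G))) := by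
          rw [← subgroupOf_normalizer_eq (inf_le_right :
            Cfsg.centralizerPPrimeCore p a ⊓ centralizer ({b} : Set G) ≤ _), mem_subgroupOf]
          exact hcN
        exact le_normalizer_map _ (mem_map_of_mem _ h4)
    refine le_trans ?_ hR
    apply Subgroup.map_mono
    intro w hw
    rw [mem_subgroupOf] at hw ⊢
    have hw' := mem_inf.1 hw
    refine mem_inf.2 ⟨?_, hw'.2⟩
    exact (iInf_le (fun a : {a : G // a ∈ A ∧ a ≠ 1} => Cfsg.centralizerPPrimeCore p (a : G))
      ⟨a, haA, ha1⟩) hw'.1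
  have hWbot : ((Cfsg.signalizerDelta p A ⊓ centralizer ({b} : Set G)).subgroupOf
      (centralizer ({b} : Set G))).map
        (QuotientGroup.mk' (Cfsg.pPrimeCore p ↥(centralizer ({b} : Set G)))) = ⊥ := by
    rw [eq_bot_iff, ← hΔB]; exact hWb
  intro w hw
  have hwC : w ∈ centralizer ({b} : Set G) := (mem_inf.1 hw).2
  have h1 : (QuotientGroup.mk' (Cfsg.pPrimeCore p ↥(centralizer ({b} : Set G)))) ⟨w, hwC⟩ ∈
      ((Cfsg.signalizerDelta p A ⊓ centralizer ({b} : Set G)).subgroupOf
        (centralizer ({b} : Set G))).map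
          (QuotientGroup.mk' (Cfsg.pPrimeCore p ↥(centralizer ({b} : Set G)))) :=
    mem_map_of_mem _ (by rw [mem_subgroupOf]; exact hw)
  rw [hWbot, mem_bot, QuotientGroup.mk'_apply, QuotientGroup.eq_one_iff] at h1
  exact ⟨⟨w, hwC⟩, h1, rfl⟩

/-- Local `k`-balance of the central quotients of the components of `C_G(x) / O_{p'}(C_G(x))`
implies `k`-balance. -/
theorem isKBalanced_of_locallyKBalanced (p k : ℕ) [hp : Fact p.Prime] (hk : 1 ≤ k)
    (h : ∀ x : G, orderOf x = p → ∀ K : Subgroup (↥(centralizer ({x} : Set G)) ⧸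
        Cfsg.pPrimeCore p ↥(centralizer ({x} : Set G))),
      Cfsg.IsComponent K → Cfsg.IsLocallyKBalanced p k (↥K ⧸ center ↥K)) :
    Cfsg.IsKBalanced p k G := by
  intro A hA hAk b hb hAb
  apply delta_inf_centralizer_le p k A hA hAk b hAb
  intro A' hA' hA'k
  apply KBal.delta_eq_bot p (PSolv.pPrimeCore_quotient p) k hk A' hA' hA'k
  intro L hL H hLH hLn _ B hB hBk
  exact AutEmb.delta_eq_bot_of_locallyKBalanced_quot p k hL.2 (h b hb L hL) H hLH hLn B hB hBk

omit [Finite G] in
/-- Local balance (for involutions) is local `1`-balance for the prime `2`. -/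
theorem locallyKBalanced_of_locallyBalanced {K : Type*} [Group K] (h : Cfsg.IsLocallyBalanced K) :
    Cfsg.IsLocallyKBalanced 2 1 K := by
  intro H hH A hA hAk
  obtain ⟨x, hxA, hx1⟩ : ∃ x ∈ A, x ≠ 1 := by
    by_contra hcon
    push Not at hcon
    have : A = ⊥ := (eq_bot_iff_forall A).2 hcon
    rw [this] at hAk; simp at hAk
  have hx2 : orderOf x = 2 := orderOf_eq_prime (hA.2 x hxA) hx1
  have h1 := h H hH x hx2
  rw [eq_bot_iff, ← h1]
  exact iInf_le (fun a : {a : ↥H // a ∈ A ∧ a ≠ 1} => Cfsg.centralizerPPrimeCore 2 (a : ↥H))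
    ⟨x, hxA, hx1⟩

omit [Finite G] in
/-- For an involution `x`, `Δ(⟨x⟩) = O(C(x))`. -/
theorem cpc_le_delta_zpowers (x : G) (hx : orderOf x = 2) :
    Cfsg.centralizerPPrimeCore 2 x ≤ Cfsg.signalizerDelta 2 (zpowers x) := by
  unfold Cfsg.signalizerDelta
  apply le_iInf
  rintro ⟨a, ha, ha1⟩
  obtain ⟨j, rfl⟩ := mem_zpowers_iff.1 ha
  have h1 : x ^ j = x ^ (j % 2) := by
    have := zpow_mod_orderOf x j
    rw [hx] at this
    exact this.symm
  rcases Int.emod_two_eq_zero_or_one j with h2 | h2
  · exfalso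
    apply ha1
    rw [h1, h2, zpow_zero]
  · have h3 : x ^ j = x := by rw [h1, h2, zpow_one]
    show Cfsg.centralizerPPrimeCore 2 x ≤ Cfsg.centralizerPPrimeCore 2 (x ^ j)
    rw [h3]

/-- Local balance of the central quotients of the components of `C_G(x) / O(C_G(x))`, `x` an
involution, implies balance. -/
theorem isBalanced_of_locallyBalanced
    (h : ∀ x : G, orderOf x = 2 → ∀ K : Subgroup (↥(centralizer ({x} : Set G)) ⧸
        Cfsg.pPrimeCore 2 ↥(centralizer ({x} : Set G))),
      Cfsg.IsComponent K → Cfsg.IsLocallyBalanced (↥K ⧸ center ↥K)) :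
    Cfsg.IsBalanced G := by
  have : Fact (Nat.Prime 2) := ⟨Nat.prime_two⟩
  have hkb : Cfsg.IsKBalanced 2 1 G :=
    isKBalanced_of_locallyKBalanced 2 1 le_rfl
      (fun x hx K hK => locallyKBalanced_of_locallyBalanced (h x hx K hK))
  have key : ∀ x y : G, orderOf x = 2 → orderOf y = 2 → x * y = y * x →
      Cfsg.centralizerPPrimeCore 2 x ⊓ centralizer ({y} : Set G) ≤
        Cfsg.centralizerPPrimeCore 2 y ⊓ centralizer ({x} : Set G) := by
    intro x y hx hy hxy
    apply le_inf
    · have hel : Cfsg.IsElementaryAbelian 2 (zpowers x) := by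
        refine ⟨isMulCommutative_iff.2 ?_, ?_⟩
        · rintro ⟨a, ha⟩ ⟨c, hc⟩
          apply Subtype.ext
          obtain ⟨i, rfl⟩ := mem_zpowers_iff.1 ha
          obtain ⟨j, rfl⟩ := mem_zpowers_iff.1 hc
          show x ^ i * x ^ j = x ^ j * x ^ i
          rw [← zpow_add, ← zpow_add, add_comm]
        · intro a ha
          obtain ⟨i, rfl⟩ := mem_zpowers_iff.1 ha
          rw [← zpow_natCast, ← zpow_mul, mul_comm, zpow_mul, zpow_natCast, ← hx,
            pow_orderOf_eq_one, one_zpow]
      have hcard : Nat.card (zpowers x) = 2 ^ 1 := by rw [Nat.card_zpowers, hx, pow_one]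
      have hcomm : ∀ a ∈ zpowers x, a * y = y * a := by
        intro a ha
        obtain ⟨i, rfl⟩ := mem_zpowers_iff.1 ha
        have : Commute x y := hxy
        exact (this.zpow_left i).eq
      refine le_trans ?_ (hkb (zpowers x) hel hcard y hy hcomm)
      exact inf_le_inf_right _ (cpc_le_delta_zpowers x hx)
    · exact inf_le_left.trans (map_subtype_le _)
  intro x y hx hy hxy
  exact le_antisymm (key x y hx hy hxy) (key y x hy hx hxy.symm)

end Cfsg.Agent.Lib.Helper21.KBal2
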