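import Cfsg.Agent.Lib.Helper21.GB3
import Cfsg.Agent.Lib.Helper21.CentP
import Cfsg.Agent.Lib.Helper21.FStar

set_option autoImplicit false

/-!
Towards `L`-balance: elements of odd order of a perfect `2`-generated group `J` centralizing a
`2`-subgroup `T` of a normal subgroup `G` (with `O(G) = 1`), and acting trivially on `C_G(T)` modulo
a subgroup of odd order, induce inner automorphisms on `G`.
-/

namespace Cfsg.Agent.Lib.Helper21.LB1

open Subgroup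
open scoped commutatorElement
open Cfsg.Agent.Lib.Helper33.Conj
open Cfsg.Agent.Lib.Helper21.PComp
open Cfsg.Agent.Lib.Helper21.GB1
open Cfsg.Agent.Lib.Helper21.GB1b

universe u

variable {M : Type u} [Group M] [Finite M]

omit [Finite M] in
/-- the key commutator computation: if `y` centralizes `Q` and `q` normalizes `Q` then `[y, q]`
centralizes `Q`. -/
theorem commutator_mem_centralizer {Q : Subgroup M} {y q : M} (hy : ∀ z ∈ Q, y * z = z * y)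
    (hq : q ∈ normalizer (Q : Set M)) : y * q * y⁻¹ * q⁻¹ ∈ centralizer (Q : Set M) := by
  rw [mem_centralizer_iff]
  intro z hz
  have hz' : q⁻¹ * z * q ∈ Q := conj_inv_mem_of_mem_normalizer hq hz
  have h1 := hy _ hz'
  have h2' := hy z hz
  have hw : y⁻¹ * (q⁻¹ * z * q) = (q⁻¹ * z * q) * y⁻¹ := by
    calc y⁻¹ * (q⁻¹ * z * q) = y⁻¹ * ((q⁻¹ * z * q) * y) * y⁻¹ := by group
      _ = y⁻¹ * (y * (q⁻¹ * z * q)) * y⁻¹ := by rw [h1]
      _ = (q⁻¹ * z * q) * y⁻¹ := by group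
  calc z * (y * q * y⁻¹ * q⁻¹) = (z * y) * q * y⁻¹ * q⁻¹ := by group
    _ = (y * z) * q * y⁻¹ * q⁻¹ := by rw [h2']
    _ = y * q * ((q⁻¹ * z * q) * y⁻¹) * q⁻¹ := by group
    _ = y * q * (y⁻¹ * (q⁻¹ * z * q)) * q⁻¹ := by rw [hw]
    _ = (y * q * y⁻¹ * q⁻¹) * z := by group

omit [Finite M] in
theorem inv_commute {a b : M} (h : a * b = b * a) : a⁻¹ * b = b * a⁻¹ := by
  calc a⁻¹ * b = a⁻¹ * (b * a) * a⁻¹ := by group
    _ = a⁻¹ * (a * b) * a⁻¹ := by rw [h]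
    _ = b * a⁻¹ := by group

theorem climb_step (G : Subgroup M) [hGn : G.Normal] (Q Q₁ : Subgroup M) (hQ₁G : Q₁ ≤ G)
    (hQ₁ : IsPGroup 2 Q₁) (hQQ₁ : Q ≤ Q₁) (hQ₁N : Q₁ ≤ normalizer (Q : Set M))
    (h2 : ∀ x ∈ G, (∀ q ∈ Q, x * q = q * x) → (∃ i : ℕ, x ^ 2 ^ i = 1) → x ∈ Q)
    (k : M) (hk : Odd (orderOf k)) (hkQ : ∀ q ∈ Q, k * q = q * k) :
    ∃ k₁ : M, Odd (orderOf k₁) ∧ (k₁ : M ⧸ G) = (k : M ⧸ G) ∧ ∀ q ∈ Q₁, k₁ * q = q * k₁ := by
  have : Fact (Nat.Prime 2) := ⟨Nat.prime_two⟩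
  obtain ⟨D, hD⟩ : ∃ D : Subgroup M, D = G ⊓ centralizer (Q : Set M) := ⟨_, rfl⟩
  have hkey : ∀ y : M, (∀ z ∈ Q, y * z = z * y) → ∀ q ∈ Q₁, y * q * y⁻¹ * q⁻¹ ∈ D := by
    intro y hy q hq
    rw [hD]
    refine mem_inf.2 ⟨?_, commutator_mem_centralizer hy (hQ₁N hq)⟩
    exact G.mul_mem (hGn.conj_mem q (hQ₁G hq) y) (G.inv_mem (hQ₁G hq))
  have hD2 : ∀ d ∈ D, (∃ i : ℕ, d ^ 2 ^ i = 1) → d ∈ Q := by
    intro d hd hi
    rw [hD] at hd
    exact h2 d (mem_inf.1 hd).1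
      (fun q hq => (mem_centralizer_iff.1 (mem_inf.1 hd).2 q hq).symm) hi
  have hQ₁D : Q₁ ≤ normalizer (D : Set M) := by
    intro q hq
    rw [hD]
    exact NormComp.mem_normalizer_inf (by rw [normalizer_eq_top_iff.2 hGn]; trivial)
      (Balance.normalizer_le_normalizer_centralizer _ (hQ₁N hq))
  have hsyl : IsSylIn 2 Q₁ (D ⊔ Q₁) := by
    obtain ⟨R, hQ₁R, hR⟩ := exists_isSylIn (p := 2) (H := D ⊔ Q₁) (Q := Q₁) le_sup_right hQ₁
    have hle : R ≤ Q₁ := by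
      intro x hx
      obtain ⟨d, hd, q, hq, rfl⟩ := Balance.mem_sup_of_le_normalizer (A := D) (T := Q₁) hQ₁D
        (hR.1 hx)
      have hdR : d ∈ R := by
        have := R.mul_mem hx (R.inv_mem (hQ₁R hq))
        simpa using this
      have hd2 : ∃ i : ℕ, d ^ 2 ^ i = 1 := by
        obtain ⟨i, hi⟩ := hR.2.1 ⟨d, hdR⟩
        exact ⟨i, congrArg Subtype.val hi⟩
      exact Q₁.mul_mem (hQQ₁ (hD2 d hd hd2)) hq
    have : R = Q₁ := le_antisymm hle hQ₁R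
    rw [this] at hR; exact hR
  have hconj : Q₁.map (MulAut.conj k).toMonoidHom ≤ D ⊔ Q₁ := by
    intro x hx
    rw [mem_cj] at hx
    have h1 := hkey k hkQ _ hx
    have e : x = (k * (k⁻¹ * x * k) * k⁻¹ * (k⁻¹ * x * k)⁻¹) * (k⁻¹ * x * k) := by group
    rw [e]
    exact (D ⊔ Q₁).mul_mem (le_sup_left (b := Q₁) h1) (le_sup_right (a := D) hx)
  obtain ⟨x, hxL, hx⟩ := hsyl.exists_cj_le hconj (isPGroup_cj k hQ₁)
  have hxeq : (Q₁.map (MulAut.conj k).toMonoidHom).map (MulAut.conj x).toMonoidHom = Q₁ :=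
    Subgroup.eq_of_le_of_card_ge hx (by rw [card_cj, card_cj])
  obtain ⟨d₁, hd₁, q₁, hq₁, hxd⟩ := Balance.mem_sup_of_le_normalizer (A := D) (T := Q₁) hQ₁D
    ((D ⊔ Q₁).inv_mem hxL)
  have hxd' : x = q₁⁻¹ * d₁⁻¹ := by rw [← inv_inv x, hxd]; group
  obtain ⟨k', hk'def⟩ : ∃ k' : M, k' = d₁⁻¹ * k := ⟨_, rfl⟩
  have hdk : Q₁.map (MulAut.conj k').toMonoidHom = Q₁ := by
    have h1 : Q₁.map (MulAut.conj (x * k)).toMonoidHom = Q₁ := by rw [← cj_cj]; exact hxeq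
    have h2 : k' = q₁ * (x * k) := by rw [hk'def, hxd']; group
    rw [h2, ← cj_cj, h1]
    exact cj_eq_self_of_mem hq₁
  have hk'N : k' ∈ normalizer (Q₁ : Set M) := mem_normalizer_iff_cj_eq.2 hdk
  have hd₁G : d₁ ∈ G := by rw [hD] at hd₁; exact (mem_inf.1 hd₁).1
  have hd₁Q : ∀ z ∈ Q, d₁ * z = z * d₁ := by
    rw [hD] at hd₁
    intro z hz
    exact (mem_centralizer_iff.1 (mem_inf.1 hd₁).2 z hz).symm
  have hk'Q : ∀ z ∈ Q, k' * z = z * k' := by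
    intro z hz
    rw [hk'def]
    have h1 := hkQ z hz
    have h3 := inv_commute (hd₁Q z hz)
    calc d₁⁻¹ * k * z = d₁⁻¹ * (k * z) := by group
      _ = d₁⁻¹ * (z * k) := by rw [h1]
      _ = (d₁⁻¹ * z) * k := by group
      _ = z * d₁⁻¹ * k := by rw [h3]
      _ = z * (d₁⁻¹ * k) := by group
  have hk'mod : (k' : M ⧸ G) = (k : M ⧸ G) := by
    rw [hk'def, QuotientGroup.mk_mul, (QuotientGroup.eq_one_iff d₁⁻¹).2 (G.inv_mem hd₁G),
      one_mul]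
  obtain ⟨n, j, hnj, hodd⟩ := exists_odd_pow k' hk
  refine ⟨k' ^ n, hodd, ?_, ?_⟩
  · rw [QuotientGroup.mk_pow, hk'mod, ← QuotientGroup.mk_pow, hnj, pow_add, pow_one, pow_mul,
      pow_orderOf_eq_one, one_pow, mul_one]
  · intro q hq
    have hk₁N : k' ^ n ∈ normalizer (Q₁ : Set M) := pow_mem hk'N n
    have hk₁Q : ∀ z ∈ Q, k' ^ n * z = z * k' ^ n := by
      intro z hz
      exact (Commute.pow_left (hk'Q z hz) n).eq
    have hc1 : k' ^ n * q * (k' ^ n)⁻¹ * q⁻¹ ∈ D := hkey _ hk₁Q q hq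
    have hc2 : k' ^ n * q * (k' ^ n)⁻¹ * q⁻¹ ∈ Q₁ :=
      Q₁.mul_mem (GB1b.conj_mem_of_mem_normalizer hk₁N hq) (Q₁.inv_mem hq)
    have hc3 : k' ^ n * q * (k' ^ n)⁻¹ * q⁻¹ ∈ Q := by
      apply hD2 _ hc1
      obtain ⟨i, hi⟩ := hQ₁ ⟨_, hc2⟩
      exact ⟨i, congrArg Subtype.val hi⟩
    have hz'Q : q * k' ^ n * q⁻¹ * (k' ^ n)⁻¹ ∈ Q := by
      have := Q.inv_mem hc3
      have e : (k' ^ n * q * (k' ^ n)⁻¹ * q⁻¹)⁻¹ = q * k' ^ n * q⁻¹ * (k' ^ n)⁻¹ := by group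
      rwa [e] at this
    obtain ⟨i, hi⟩ := (hQ₁.to_le hQQ₁) ⟨_, hz'Q⟩
    have hi' : (q * k' ^ n * q⁻¹ * (k' ^ n)⁻¹) ^ 2 ^ i = 1 := congrArg Subtype.val hi
    have hz1 := Cfsg.Agent.Lib.Helper24.Coprime.eq_one_of_conj_eq_mul (k' ^ n) q
      (q * k' ^ n * q⁻¹ * (k' ^ n)⁻¹) (2 ^ i) hi'
      (Nat.Coprime.pow_right i (Nat.coprime_two_right.2 hodd)) ((hk₁Q _ hz'Q).symm) (by group)
    calc k' ^ n * q = (q * k' ^ n * q⁻¹ * (k' ^ n)⁻¹)⁻¹ * (q * k' ^ n) := by group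
      _ = q * k' ^ n := by rw [hz1, inv_one, one_mul]

theorem climb (G : Subgroup M) [hGn : G.Normal] (P : Subgroup M) (hP : IsPGroup 2 P)
    (hPG : P ≤ G) :
    ∀ (n : ℕ) (Q : Subgroup M), Q ≤ P → Nat.card P - Nat.card Q ≤ n →
      (∀ x ∈ G, (∀ q ∈ Q, x * q = q * x) → (∃ i : ℕ, x ^ 2 ^ i = 1) → x ∈ Q) →
      ∀ k : M, Odd (orderOf k) → (∀ q ∈ Q, k * q = q * k) →
      ∃ k₁ : M, Odd (orderOf k₁) ∧ (k₁ : M ⧸ G) = (k : M ⧸ G) ∧ ∀ q ∈ P, k₁ * q = q * k₁ := by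
  have : Fact (Nat.Prime 2) := ⟨Nat.prime_two⟩
  intro n
  induction n with
  | zero =>
    intro Q hQP hcard h2 k hk hkQ
    have hle := Subgroup.card_le_of_le hQP
    have : Q = P := Subgroup.eq_of_le_of_card_ge hQP (by omega)
    rw [this] at hkQ
    exact ⟨k, hk, rfl, hkQ⟩
  | succ n ih =>
    intro Q hQP hcard h2 k hk hkQ
    by_cases hQeq : Q = P
    · rw [hQeq] at hkQ
      exact ⟨k, hk, rfl, hkQ⟩
    · obtain ⟨g, hgP, hgN, hgQ⟩ := CentP.exists_mem_normalizer_notMem hP hQP hQeq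
      obtain ⟨Q₁, hQ₁⟩ : ∃ Q₁ : Subgroup M, Q₁ = P ⊓ normalizer (Q : Set M) := ⟨_, rfl⟩
      have hQQ₁ : Q ≤ Q₁ := by rw [hQ₁]; exact le_inf hQP le_normalizer
      have hQ₁P : Q₁ ≤ P := by rw [hQ₁]; exact inf_le_left
      have hlt : Nat.card Q < Nat.card Q₁ := by
        apply FStar.card_lt_of_le_of_ne hQQ₁
        intro h
        apply hgQ
        rw [h, hQ₁]
        exact mem_inf.2 ⟨hgP, hgN⟩
      obtain ⟨k₁, hk₁, hk₁mod, hk₁Q⟩ := climb_step G Q Q₁ (hQ₁P.trans hPG) (hP.to_le hQ₁P) hQQ₁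
        (by rw [hQ₁]; exact inf_le_right) h2 k hk hkQ
      have hcard' : Nat.card P - Nat.card Q₁ ≤ n := by
        have := Subgroup.card_le_of_le hQ₁P; omega
      obtain ⟨k₂, hk₂, hk₂mod, hk₂P⟩ := ih Q₁ hQ₁P hcard'
        (fun x hx hxc hi => hQQ₁ (h2 x hx (fun q hq => hxc q (hQQ₁ hq)) hi)) k₁ hk₁ hk₁Q
      exact ⟨k₂, hk₂, hk₂mod.trans hk₁mod, hk₂P⟩

/-- lifting: a subgroup `B₁` covering the perfect `2`-generated group `J` modulo the normal subgroup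
`G` contains a perfect `2`-generated subgroup covering `J` modulo `G`. -/
theorem exists_isTwoPerf_le (G J : Subgroup M) [hGn : G.Normal] (hJ : IsTwoPerf J) :
    ∀ (n : ℕ) (B₁ : Subgroup M), Nat.card B₁ ≤ n → J ≤ B₁ ⊔ G →
      ∃ B : Subgroup M, B ≤ B₁ ∧ IsTwoPerf B ∧ J ≤ B ⊔ G := by
  have hGtop : ∀ x : M, x ∈ normalizer (G : Set M) := by
    intro x; rw [normalizer_eq_top_iff.2 hGn]; trivial
  intro n
  induction n with
  | zero =>
    intro B₁ hcard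
    exact absurd hcard (by have := Nat.card_pos (α := B₁); omega)
  | succ n ih =>
    intro B₁ hcard hJB
    have hdec : ∀ x ∈ J, ∃ g ∈ G, ∃ b ∈ B₁, x = g * b := by
      intro x hx
      have h1 := hJB hx
      rw [sup_comm] at h1
      exact Balance.mem_sup_of_le_normalizer (A := G) (T := B₁) (fun y _ => hGtop y) h1
    by_cases h1 : ⁅B₁, B₁⁆ = B₁
    · by_cases h2 : OpP 2 B₁ = B₁
      · exact ⟨B₁, le_rfl, ⟨h1, h2⟩, hJB⟩
      · have hlt : Nat.card (OpP 2 B₁) < Nat.card B₁ :=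
          FStar.card_lt_of_le_of_ne (OpP_le 2 B₁) h2
        have hJ' : J ≤ OpP 2 B₁ ⊔ G := by
          refine hJ.2.ge.trans ?_
          unfold OpP
          rw [closure_le]
          rintro x ⟨hxJ, i, hi⟩
          obtain ⟨g, hg, b, hb, rfl⟩ := hdec x hxJ
          have hmk : ((g * b : M) : M ⧸ G) = (b : M ⧸ G) := by
            rw [QuotientGroup.mk_mul, (QuotientGroup.eq_one_iff g).2 hg, one_mul]
          have hbpow : ((b : M ⧸ G)) ^ 2 ^ i = 1 := by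
            rw [← hmk, ← QuotientGroup.mk_pow, ← hi, pow_orderOf_eq_one]
            rfl
          obtain ⟨m, j', e, hm, hme⟩ := exists_two_pow b i
          have hb2 : b ^ m ∈ closure {x | x ∈ B₁ ∧ ∃ j : ℕ, orderOf x = 2 ^ j} := by
            apply Subgroup.subset_closure
            refine ⟨B₁.pow_mem hb m, ?_⟩
            have hd : orderOf (b ^ m) ∣ 2 ^ e := orderOf_dvd_of_pow_eq_one hme
            obtain ⟨i', -, hi'⟩ := (Nat.dvd_prime_pow Nat.prime_two).mp hd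
            exact ⟨i', hi'⟩
          have hmk2 : ((b ^ m : M) : M ⧸ G) = ((g * b : M) : M ⧸ G) := by
            rw [hmk, QuotientGroup.mk_pow, hm, pow_add, pow_one, pow_mul, hbpow, one_pow, mul_one]
          have hmem : (b ^ m)⁻¹ * (g * b) ∈ G := QuotientGroup.eq.1 hmk2
          have e2 : g * b = b ^ m * ((b ^ m)⁻¹ * (g * b)) := by group
          rw [SetLike.mem_coe, e2]
          exact mul_mem (le_sup_left (b := G) hb2) (le_sup_right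
            (a := closure {x | x ∈ B₁ ∧ ∃ j : ℕ, orderOf x = 2 ^ j}) hmem)
        obtain ⟨B, hB1, hB2, hB3⟩ := ih (OpP 2 B₁) (by omega) hJ'
        exact ⟨B, hB1.trans (OpP_le 2 B₁), hB2, hB3⟩
    · have hle : ⁅B₁, B₁⁆ ≤ B₁ := Subgroup.commutator_le.2 (fun a ha b hb => by
        rw [commutatorElement_def]
        exact B₁.mul_mem (B₁.mul_mem (B₁.mul_mem ha hb) (B₁.inv_mem ha)) (B₁.inv_mem hb))
      have hlt : Nat.card (⁅B₁, B₁⁆ : Subgroup M) < Nat.card B₁ :=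
        FStar.card_lt_of_le_of_ne hle h1
      have hJ' : J ≤ ⁅B₁, B₁⁆ ⊔ G := by
        refine hJ.1.ge.trans ?_
        rw [Subgroup.commutator_le]
        intro x hx y hy
        obtain ⟨g, hg, b, hb, rfl⟩ := hdec x hx
        obtain ⟨g', hg', b', hb', rfl⟩ := hdec y hy
        have e1 : ((g * b : M) : M ⧸ G) = (b : M ⧸ G) := by
          rw [QuotientGroup.mk_mul, (QuotientGroup.eq_one_iff g).2 hg, one_mul]
        have e2 : ((g' * b' : M) : M ⧸ G) = (b' : M ⧸ G) := by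
          rw [QuotientGroup.mk_mul, (QuotientGroup.eq_one_iff g').2 hg', one_mul]
        have e3 : ((⁅b, b'⁆ : M) : M ⧸ G) = ((⁅g * b, g' * b'⁆ : M) : M ⧸ G) := by
          have h1 := map_commutatorElement (QuotientGroup.mk' G) (g * b) (g' * b')
          have h2 := map_commutatorElement (QuotientGroup.mk' G) b b'
          simp only [QuotientGroup.mk'_apply] at h1 h2
          rw [h1, h2, e1, e2]
        have hmem : ⁅b, b'⁆⁻¹ * ⁅g * b, g' * b'⁆ ∈ G := QuotientGroup.eq.1 e3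
        have e4 : ⁅g * b, g' * b'⁆ = ⁅b, b'⁆ * (⁅b, b'⁆⁻¹ * ⁅g * b, g' * b'⁆) := by group
        rw [e4]
        exact mul_mem (le_sup_left (b := G) (Subgroup.commutator_mem_commutator hb hb'))
          (le_sup_right (a := ⁅B₁, B₁⁆) hmem)
      obtain ⟨B, hB1, hB2, hB3⟩ := ih ⁅B₁, B₁⁆ (by omega) hJ'
      exact ⟨B, hB1.trans hle, hB2, hB3⟩

/-- the main step: `J` induces inner automorphisms on `G`. -/
theorem caseB (G T J O₁ : Subgroup M) [hGn : G.Normal] (hTG : T ≤ G) (hT : IsPGroup 2 T)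
    (hJ : IsTwoPerf J) (hJT : ∀ j ∈ J, ∀ t ∈ T, j * t = t * j) (hO : Oc G = ⊥)
    (hO₁odd : Odd (Nat.card O₁)) (hO₁le : O₁ ≤ G ⊓ centralizer (T : Set M))
    (hO₁n : G ⊓ centralizer (T : Set M) ≤ normalizer (O₁ : Set M))
    (hcomm : ∀ j ∈ J, ∀ x ∈ G ⊓ centralizer (T : Set M), j * x * j⁻¹ * x⁻¹ ∈ O₁) :
    ∀ j ∈ J, ∃ g ∈ G, ∀ x ∈ G, (j * g) * x = x * (j * g) := by
  have : Fact (Nat.Prime 2) := ⟨Nat.prime_two⟩
  obtain ⟨N₁, hN₁⟩ : ∃ N₁ : Subgroup M, N₁ = G ⊓ centralizer (T : Set M) := ⟨_, rfl⟩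
  rw [← hN₁] at hO₁le hO₁n hcomm
  obtain ⟨S₁, -, hS₁⟩ := exists_isSylIn (p := 2) (H := N₁) (Q := ⊥) bot_le IsPGroup.of_bot
  have hN₁T : ∀ x ∈ N₁, ∀ t ∈ T, x * t = t * x := by
    intro x hx t ht
    rw [hN₁] at hx
    exact (mem_centralizer_iff.1 (mem_inf.1 hx).2 t ht).symm
  have hN₁G : N₁ ≤ G := by rw [hN₁]; exact inf_le_left
  have hS₁T : ∀ s ∈ S₁, ∀ t ∈ T, s * t = t * s := fun s hs => hN₁T s (hS₁.1 hs)
  obtain ⟨Q0, hQ0⟩ : ∃ Q0 : Subgroup M, Q0 = T ⊔ S₁ := ⟨_, rfl⟩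
  have hTQ0 : T ≤ Q0 := by rw [hQ0]; exact le_sup_left
  have hS₁Q0 : S₁ ≤ Q0 := by rw [hQ0]; exact le_sup_right
  have hQ0p : IsPGroup 2 Q0 := by
    rw [hQ0]
    apply IsPGroup.to_sup_of_normal_left' hT hS₁.2.1
    intro s hs
    exact Cfsg.Agent.Lib.Helper24.Coprime.mem_normalizer_of_commute
      (fun t ht => (hS₁T s hs t ht).symm)
  have hQ0G : Q0 ≤ G := by
    rw [hQ0]; exact sup_le hTG (hS₁.1.trans hN₁G)
  have h2 : ∀ x ∈ G, (∀ q ∈ Q0, x * q = q * x) → (∃ i : ℕ, x ^ 2 ^ i = 1) → x ∈ Q0 := by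
    intro x hxG hxQ hi
    apply hS₁Q0
    apply mem_of_isSylIn_of_commute hS₁ _ hi (fun s hs => hxQ s (hS₁Q0 hs))
    rw [hN₁]
    refine mem_inf.2 ⟨hxG, ?_⟩
    rw [mem_centralizer_iff]
    intro t ht
    exact (hxQ t (hTQ0 ht)).symm
  obtain ⟨P, hQ0P, hP⟩ := exists_isSylIn (p := 2) (H := G) (Q := Q0) hQ0G hQ0p
  have step0 : ∀ k ∈ J, Odd (orderOf k) → ∃ k₀ : M, Odd (orderOf k₀) ∧
      (k₀ : M ⧸ G) = (k : M ⧸ G) ∧ ∀ q ∈ Q0, k₀ * q = q * k₀ := by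
    intro k hkJ hk
    have hS₁O : S₁ ≤ normalizer (O₁ : Set M) := hS₁.1.trans hO₁n
    have hLle : O₁ ⊔ S₁ ≤ N₁ := sup_le hO₁le hS₁.1
    have hsylL : IsSylIn 2 S₁ (O₁ ⊔ S₁) := by
      refine ⟨le_sup_right, hS₁.2.1, ?_⟩
      intro hd
      apply hS₁.2.2
      rw [← Subgroup.relIndex_mul_relIndex S₁ (O₁ ⊔ S₁) N₁ le_sup_right hLle]
      exact Dvd.dvd.mul_right hd _
    have hconj : S₁.map (MulAut.conj k).toMonoidHom ≤ O₁ ⊔ S₁ := by
      intro x hx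
      rw [mem_cj] at hx
      have h1 := hcomm k hkJ _ (hS₁.1 hx)
      have e : x = (k * (k⁻¹ * x * k) * k⁻¹ * (k⁻¹ * x * k)⁻¹) * (k⁻¹ * x * k) := by group
      rw [e]
      exact (O₁ ⊔ S₁).mul_mem (le_sup_left (b := S₁) h1) (le_sup_right (a := O₁) hx)
    obtain ⟨x, hxL, hx⟩ := hsylL.exists_cj_le hconj (isPGroup_cj k hS₁.2.1)
    have hxeq : (S₁.map (MulAut.conj k).toMonoidHom).map (MulAut.conj x).toMonoidHom = S₁ :=
      Subgroup.eq_of_le_of_card_ge hx (by rw [card_cj, card_cj])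
    obtain ⟨o₁, ho₁, s₁, hs₁, hxd⟩ := Balance.mem_sup_of_le_normalizer (A := O₁) (T := S₁) hS₁O
      ((O₁ ⊔ S₁).inv_mem hxL)
    have hxd' : x = s₁⁻¹ * o₁⁻¹ := by rw [← inv_inv x, hxd]; group
    obtain ⟨k', hk'def⟩ : ∃ k' : M, k' = o₁⁻¹ * k := ⟨_, rfl⟩
    have hdk : S₁.map (MulAut.conj k').toMonoidHom = S₁ := by
      have h1 : S₁.map (MulAut.conj (x * k)).toMonoidHom = S₁ := by rw [← cj_cj]; exact hxeq
      have h2 : k' = s₁ * (x * k) := by rw [hk'def, hxd']; group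
      rw [h2, ← cj_cj, h1]
      exact cj_eq_self_of_mem hs₁
    have hk'N : k' ∈ normalizer (S₁ : Set M) := mem_normalizer_iff_cj_eq.2 hdk
    have hk'S : ∀ s ∈ S₁, k' * s = s * k' := by
      intro s hs
      have hc1 : k' * s * k'⁻¹ * s⁻¹ ∈ S₁ :=
        S₁.mul_mem (GB1b.conj_mem_of_mem_normalizer hk'N hs) (S₁.inv_mem hs)
      have hc2 : k' * s * k'⁻¹ * s⁻¹ ∈ O₁ := by
        have h1 := hcomm k hkJ s (hS₁.1 hs)
        have h2 : s * o₁ * s⁻¹ ∈ O₁ := GB1b.conj_mem_of_mem_normalizer (hS₁O hs) ho₁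
        have e : k' * s * k'⁻¹ * s⁻¹ = o₁⁻¹ * (k * s * k⁻¹ * s⁻¹) * (s * o₁ * s⁻¹) := by
          rw [hk'def]; group
        rw [e]
        exact O₁.mul_mem (O₁.mul_mem (O₁.inv_mem ho₁) h1) h2
      have h1 := eq_one_of_two_odd hS₁.2.1 hO₁odd hc1 hc2
      calc k' * s = (k' * s * k'⁻¹ * s⁻¹) * (s * k') := by group
        _ = s * k' := by rw [h1, one_mul]
    have hk'T : ∀ t ∈ T, k' * t = t * k' := by
      intro t ht
      rw [hk'def]
      have h1 := hJT k hkJ t ht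
      have h3 := inv_commute (hN₁T o₁ (hO₁le ho₁) t ht)
      calc o₁⁻¹ * k * t = o₁⁻¹ * (k * t) := by group
        _ = o₁⁻¹ * (t * k) := by rw [h1]
        _ = (o₁⁻¹ * t) * k := by group
        _ = t * o₁⁻¹ * k := by rw [h3]
        _ = t * (o₁⁻¹ * k) := by group
    have hk'Q : ∀ q ∈ Q0, k' * q = q * k' := by
      have hle : Q0 ≤ centralizer ({k'} : Set M) := by
        rw [hQ0]
        apply sup_le
        · intro t ht
          rw [mem_centralizer_iff]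
          intro y hy
          rw [Set.mem_singleton_iff] at hy
          rw [hy]; exact hk'T t ht
        · intro s hs
          rw [mem_centralizer_iff]
          intro y hy
          rw [Set.mem_singleton_iff] at hy
          rw [hy]; exact hk'S s hs
      intro q hq
      exact mem_centralizer_iff.1 (hle hq) k' rfl
    have ho₁G : o₁ ∈ G := hN₁G (hO₁le ho₁)
    have hk'mod : (k' : M ⧸ G) = (k : M ⧸ G) := by
      rw [hk'def, QuotientGroup.mk_mul, (QuotientGroup.eq_one_iff o₁⁻¹).2 (G.inv_mem ho₁G),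
        one_mul]
    obtain ⟨n, j, hnj, hodd⟩ := exists_odd_pow k' hk
    refine ⟨k' ^ n, hodd, ?_, ?_⟩
    · rw [QuotientGroup.mk_pow, hk'mod, ← QuotientGroup.mk_pow, hnj, pow_add, pow_one, pow_mul,
        pow_orderOf_eq_one, one_pow, mul_one]
    · intro q hq
      exact (Commute.pow_left (hk'Q q hq) n).eq
  obtain ⟨B₁, hB₁⟩ : ∃ B₁ : Subgroup M, B₁ = centralizer (P : Set M) ⊓ (J ⊔ G) := ⟨_, rfl⟩
  have hJB₁ : J ≤ B₁ ⊔ G := by
    refine (perfect_le_closure_odd hJ.1).trans ?_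
    rw [closure_le]
    rintro k ⟨hkJ, hk⟩
    obtain ⟨k₀, hk₀, hk₀mod, hk₀Q⟩ := step0 k hkJ hk
    obtain ⟨k₁, hk₁, hk₁mod, hk₁P⟩ := climb G P hP.2.1 hP.1 _ Q0 hQ0P le_rfl h2 k₀ hk₀ hk₀Q
    have hmod : k₁⁻¹ * k ∈ G := QuotientGroup.eq.1 (hk₁mod.trans hk₀mod)
    have hk₁B : k₁ ∈ B₁ := by
      rw [hB₁]
      refine mem_inf.2 ⟨?_, ?_⟩
      · rw [mem_centralizer_iff]
        intro q hq
        exact (hk₁P q hq).symm
      · have e : k₁ = k * (k₁⁻¹ * k)⁻¹ := by group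
        rw [e]
        exact (J ⊔ G).mul_mem (le_sup_left (b := G) hkJ) (le_sup_right (a := J) (G.inv_mem hmod))
    have e : k = k₁ * (k₁⁻¹ * k) := by group
    rw [SetLike.mem_coe, e]
    exact (B₁ ⊔ G).mul_mem (le_sup_left (b := G) hk₁B) (le_sup_right (a := B₁) hmod)
  obtain ⟨B, hBB₁, hB, hJB⟩ := exists_isTwoPerf_le G J hJ _ B₁ le_rfl hJB₁
  have hBP : ∀ b ∈ B, ∀ s ∈ P, b * s = s * b := by
    intro b hb s hs
    have := hBB₁ hb
    rw [hB₁] at this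
    exact (mem_centralizer_iff.1 (mem_inf.1 this).1 s hs).symm
  have hgl := GB3.glauberman G P B hGn hP hBP hB
  rw [hO] at hgl
  intro j hj
  have hj' : j ∈ G ⊔ B := by rw [sup_comm]; exact hJB hj
  obtain ⟨g, hg, b, hb, hjgb⟩ := Balance.mem_sup_of_le_normalizer (A := G) (T := B)
    (fun x _ => by rw [normalizer_eq_top_iff.2 hGn]; trivial) hj'
  have hg' : b⁻¹ * g * b ∈ G := by
    have := hGn.conj_mem g hg b⁻¹
    simpa using this
  refine ⟨(b⁻¹ * g * b)⁻¹, G.inv_mem hg', ?_⟩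
  have e : j * (b⁻¹ * g * b)⁻¹ = b := by rw [hjgb]; group
  intro x hx
  rw [e]
  have h1 := hgl x hx b hb
  rw [mem_bot] at h1
  calc b * x = (x * b * x⁻¹ * b⁻¹)⁻¹ * (x * b) := by group
    _ = x * b := by rw [h1, inv_one, one_mul]

end Cfsg.Agent.Lib.Helper21.LB1
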