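import Cfsg.Agent.Lib.Helper21.LB1
import Cfsg.Agent.Lib.Helper21.Layer
import Cfsg.Agent.Lib.Helper21.NormComp
import Cfsg.Agent.Lib.Helper21.LBal
import Cfsg.Agent.Lib.Helper23.PLayer
import Cfsg.Agent.Lib.Helper48.CoprimeQ

set_option autoImplicit false

/-!
`L_{2'}`-balance: for a `2`-subgroup `T` of a finite group `X`, `L_{2'}(C_X(T)) ≤ L_{2'}(X)`.
-/

namespace Cfsg.Agent.Lib.Helper21.LB2

open Subgroup
open scoped commutatorElement
open Cfsg.Agent.Lib.Helper33.Conj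
open Cfsg.Agent.Lib.Helper76
open Cfsg.Agent.Lib.Helper78
open Cfsg.Agent.Lib.Helper21.PComp
open Cfsg.Agent.Lib.Helper21.GB1
open Cfsg.Agent.Lib.Helper21.GB1b

universe u

section comp

variable {Cg : Type u} [Group Cg] [Finite Cg]

/-- a `2`-component is perfect and generated by `2`-elements. -/
theorem pComp_isTwoPerf (I : Subgroup Cg) (hI : Cfsg.IsPComponent 2 I) : IsTwoPerf I := by
  have : Fact (Nat.Prime 2) := ⟨Nat.prime_two⟩
  have hOn : (Cfsg.pPrimeCore 2 Cg).Normal := (PSolv.pPrimeCore_mem 2).1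
  constructor
  · have hle : ⁅I, I⁆ ≤ I := Subgroup.commutator_le.2 (fun a ha b hb => by
      rw [commutatorElement_def]
      exact I.mul_mem (I.mul_mem (I.mul_mem ha hb) (I.inv_mem ha)) (I.inv_mem hb))
    have hsub : (⁅I, I⁆ : Subgroup Cg).IsSubnormal :=
      IsSubnormal.step _ I hle hI.1 ((normal_subgroupOf_iff_le_normalizer hle).2
        (le_normalizer.trans (FStar.normalizer_le_normalizer_commutator I)))
    apply hI.2.2 _ hsub hle
    rw [Subgroup.map_commutator]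
    exact Comp.commutator_self hI.2.1.2
  · apply le_antisymm (OpP_le 2 I)
    have h1 := pComp_eq_OpP 2 I hI
    have h2 : OpP 2 (I ⊔ Cfsg.pPrimeCore 2 Cg) ≤ OpP 2 I := by
      unfold OpP
      apply Subgroup.closure_mono
      rintro x ⟨hx, hj⟩
      exact ⟨pElement_mem_of_subnormal 2 _ (PSolv.pPrimeCore_coprime 2) I hI.1 x hx hj, hj⟩
    exact h1.le.trans h2

/-- a `2`-component lies in a normal subgroup or centralizes it modulo the odd core. -/
theorem pComp_normal_cases (I N : Subgroup Cg) (hI : Cfsg.IsPComponent 2 I) [hN : N.Normal] :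
    I ≤ N ∨ ∀ i ∈ I, ∀ x ∈ N, i * x * i⁻¹ * x⁻¹ ∈ Cfsg.pPrimeCore 2 Cg := by
  have : Fact (Nat.Prime 2) := ⟨Nat.prime_two⟩
  have hOn : (Cfsg.pPrimeCore 2 Cg).Normal := (PSolv.pPrimeCore_mem 2).1
  have hHn : (N.map (QuotientGroup.mk' (Cfsg.pPrimeCore 2 Cg))).Normal :=
    hN.map _ (QuotientGroup.mk'_surjective _)
  rcases Comp.component_normal_cases _ _ hI.2.1 hHn with h | h
  · left
    have h1 : I ≤ N ⊔ Cfsg.pPrimeCore 2 Cg := by
      rw [← comap_map_mk 2 N]
      intro x hx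
      rw [mem_comap]
      exact h ⟨x, hx, rfl⟩
    have h2 := pComp_eq_OpP 2 I hI
    rw [h2]
    unfold OpP
    rw [closure_le]
    rintro x ⟨hx, hj⟩
    have hx' : x ∈ N ⊔ Cfsg.pPrimeCore 2 Cg := (sup_le h1 le_sup_right) hx
    exact pElement_mem_of_subnormal 2 _ (PSolv.pPrimeCore_coprime 2) N hN.isSubnormal x hx' hj
  · right
    intro i hi x hx
    have h1 : ⁅(QuotientGroup.mk' (Cfsg.pPrimeCore 2 Cg)) i,
        (QuotientGroup.mk' (Cfsg.pPrimeCore 2 Cg)) x⁆ ∈
        ⁅I.map (QuotientGroup.mk' (Cfsg.pPrimeCore 2 Cg)),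
          N.map (QuotientGroup.mk' (Cfsg.pPrimeCore 2 Cg))⁆ :=
      Subgroup.commutator_mem_commutator ⟨i, hi, rfl⟩ ⟨x, hx, rfl⟩
    rw [h, mem_bot, ← map_commutatorElement] at h1
    have h2 : ⁅i, x⁆ ∈ Cfsg.pPrimeCore 2 Cg := by
      rw [← QuotientGroup.ker_mk' (Cfsg.pPrimeCore 2 Cg), MonoidHom.mem_ker]
      exact h1
    rw [commutatorElement_def] at h2
    exact h2

end comp

section ylemmas

variable {Y : Type u} [Group Y] [Finite Y]

omit [Finite Y] in
theorem mem_normalizer_sup {A B : Subgroup Y} {y : Y} (hA : y ∈ normalizer (A : Set Y))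
    (hB : y ∈ normalizer (B : Set Y)) : y ∈ normalizer ((A ⊔ B : Subgroup Y) : Set Y) := by
  rw [mem_normalizer_iff_cj_eq] at hA hB ⊢
  rw [Subgroup.map_sup, hA, hB]

omit [Finite Y] in
theorem mem_centralizer_sup {A B : Subgroup Y} {c : Y} (hA : ∀ a ∈ A, a * c = c * a)
    (hB : ∀ b ∈ B, b * c = c * b) : c ∈ centralizer ((A ⊔ B : Subgroup Y) : Set Y) := by
  have hle : A ⊔ B ≤ centralizer ({c} : Set Y) := by
    apply sup_le
    · intro a ha
      rw [mem_centralizer_iff]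
      intro y hy
      rw [Set.mem_singleton_iff] at hy
      rw [hy]; exact (hA a ha).symm
    · intro b hb
      rw [mem_centralizer_iff]
      intro y hy
      rw [Set.mem_singleton_iff] at hy
      rw [hy]; exact (hB b hb).symm
  rw [mem_centralizer_iff]
  intro h hh
  exact (mem_centralizer_iff.1 (hle hh) c rfl).symm

omit [Finite Y] in
theorem odd_card_map {Z : Type*} [Group Z] (f : Y →* Z) {K : Subgroup Y} (hK : Odd (Nat.card K)) :
    Odd (Nat.card (K.map f)) :=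
  Odd.of_dvd_nat hK (Subgroup.card_dvd_of_surjective (f.subgroupMap K)
    (MonoidHom.subgroupMap_surjective f K))

/-- a perfect subgroup centralizing `O_2(Y)` and inducing inner automorphisms on `E(Y)` lies in
`E(Y)`, when `O(Y) = 1`. -/
theorem le_layer_of_le_sup_centralizer (hO : Cfsg.pPrimeCore 2 Y = ⊥) (J : Subgroup Y)
    (hJ : ⁅J, J⁆ = J) (hJQ : J ≤ centralizer (Cfsg.pCore 2 Y : Set Y))
    (hJE : J ≤ Cfsg.layer Y ⊔ centralizer (Cfsg.layer Y : Set Y)) : J ≤ Cfsg.layer Y := by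
  have : Fact (Nat.Prime 2) := ⟨Nat.prime_two⟩
  have hEn : (Cfsg.layer Y).Normal := Layer.layer_normal Y
  have hEF : Cfsg.layer Y ≤ centralizer (Cfsg.fittingSubgroup Y : Set Y) :=
    Subgroup.commutator_eq_bot_iff_le_centralizer.1 Layer.layer_commutator_fitting
  have hFQ := NormComp.fitting_le_pCore 2 hO
  have hZab : ∀ a ∈ centralizer (Cfsg.generalizedFittingSubgroup Y : Set Y),
      ∀ b ∈ centralizer (Cfsg.generalizedFittingSubgroup Y : Set Y), a * b = b * a := by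
    intro a ha b hb
    exact (mem_centralizer_iff.1 hb a (FStar.centralizer_gfs_le ha))
  apply perfect_le_of_le_sup_abelian hJ hZab
  intro j hj
  obtain ⟨e, he, c, hc, rfl⟩ := Balance.mem_sup_of_le_normalizer (A := Cfsg.layer Y)
    (T := centralizer (Cfsg.layer Y : Set Y))
    (fun x _ => by rw [normalizer_eq_top_iff.2 hEn]; trivial) (hJE hj)
  refine mul_mem (le_sup_left (b := centralizer (Cfsg.generalizedFittingSubgroup Y : Set Y)) he)
    (le_sup_right (a := Cfsg.layer Y) ?_)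
  unfold Cfsg.generalizedFittingSubgroup
  apply mem_centralizer_sup
  · intro a ha
    exact mem_centralizer_iff.1 hc a ha
  · intro f hf
    have h1 : f * (e * c) = (e * c) * f := mem_centralizer_iff.1 (hJQ hj) f (hFQ hf)
    have h2 : f * e = e * f := mem_centralizer_iff.1 (hEF he) f hf
    calc f * c = e⁻¹ * ((e * f) * c) := by group
      _ = e⁻¹ * ((f * e) * c) := by rw [h2]
      _ = e⁻¹ * (f * (e * c)) := by group
      _ = e⁻¹ * ((e * c) * f) := by rw [h1]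
      _ = c * f := by group

/-- Thompson `A × B`: a perfect subgroup centralizing the `2`-group `T` and `C_{O_2(Y)}(T)`
centralizes `O_2(Y)`. -/
theorem centralizes_pCore (T : Subgroup Y) (hT : IsPGroup 2 T) (J : Subgroup Y) (hJ : ⁅J, J⁆ = J)
    (hJT : ∀ j ∈ J, ∀ t ∈ T, j * t = t * j)
    (h : ∀ j ∈ J, ∀ r ∈ Cfsg.pCore 2 Y ⊓ centralizer (T : Set Y), j * r = r * j) :
    J ≤ centralizer (Cfsg.pCore 2 Y : Set Y) := by
  have : Fact (Nat.Prime 2) := ⟨Nat.prime_two⟩
  have hQn : (Cfsg.pCore 2 Y).Normal := Fitting.pCore_normal 2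
  have hQp : IsPGroup 2 (Cfsg.pCore 2 Y) := Fitting.pCore_isPGroup 2
  have hH : IsPGroup 2 (Cfsg.pCore 2 Y ⊔ T : Subgroup Y) := IsPGroup.to_sup_of_normal_left hQp hT
  refine (perfect_le_closure_odd hJ).trans ?_
  rw [closure_le]
  rintro a ⟨haJ, ha⟩
  rw [SetLike.mem_coe, mem_centralizer_iff]
  refine Cfsg.Agent.Lib.Helper24.Coprime.thompson_AxB 2 _ hH T le_sup_right a
    (Nat.coprime_two_right.2 ha) (fun b hb => (hJT a haJ b hb).symm) (Cfsg.pCore 2 Y)
    le_sup_left ?_ ?_ ?_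
  · rw [normalizer_eq_top_iff.2 hQn]; trivial
  · rw [normalizer_eq_top_iff.2 hQn]; exact le_top
  · intro x hx hxT
    have hxc : x ∈ centralizer (T : Set Y) := by
      rw [mem_centralizer_iff]; exact hxT
    exact (h a haJ x (mem_inf.2 ⟨hx, hxc⟩)).symm

/-- `O(E(Y) T) = 1` when `O(Y) = 1` and `T` is a `2`-group. -/
theorem Oc_layer_sup_eq_bot (hO : Cfsg.pPrimeCore 2 Y = ⊥) (T : Subgroup Y) (hT : IsPGroup 2 T) :
    Oc (Cfsg.layer Y ⊔ T) = ⊥ := by
  have : Fact (Nat.Prime 2) := ⟨Nat.prime_two⟩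
  have hEn : (Cfsg.layer Y).Normal := Layer.layer_normal Y
  have hDodd := Oc_odd (Cfsg.layer Y ⊔ T)
  have hDn : Cfsg.layer Y ⊔ T ≤ normalizer ((Oc (Cfsg.layer Y ⊔ T) : Subgroup Y) : Set Y) :=
    le_normalizer.trans (Oc_normalizer _)
  have hsub : (Oc (Cfsg.layer Y ⊔ T) ⊓ Cfsg.layer Y).IsSubnormal := by
    refine IsSubnormal.step _ (Cfsg.layer Y) inf_le_right hEn.isSubnormal
      ((normal_subgroupOf_iff_le_normalizer inf_le_right).2 ?_)
    intro e he
    exact NormComp.mem_normalizer_inf (hDn (le_sup_left (b := T) he)) (le_normalizer he)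
  have hcop : (Nat.card (Oc (Cfsg.layer Y ⊔ T) ⊓ Cfsg.layer Y : Subgroup Y)).Coprime 2 :=
    Nat.coprime_two_right.2 (Odd.of_dvd_nat hDodd (Subgroup.card_dvd_of_le inf_le_left))
  have hbot := subnormal_coprime_le_pPrimeCore 2 _ hsub hcop
  rw [hO] at hbot
  rw [eq_bot_iff]
  intro d hd
  obtain ⟨n, hn⟩ := pow_mem_of_mem_sup hT (Oc_le _ hd)
  have h1 : d ^ 2 ^ n = 1 := by
    have := hbot (mem_inf.2 ⟨pow_mem hd _, hn⟩)
    rwa [mem_bot] at this
  have h2 : d ^ Nat.card (Oc (Cfsg.layer Y ⊔ T)) = 1 := by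
    have := pow_card_eq_one' (G := Oc (Cfsg.layer Y ⊔ T)) (x := ⟨d, hd⟩)
    exact congrArg Subtype.val this
  rw [mem_bot]
  exact eq_one_of_pow_eq_one_of_coprime d _ _ h1 h2
    (Nat.Coprime.pow_left _ (Nat.coprime_two_left.2 hDodd))

/-- the main step `caseB` for a subgroup `G` which is only normalized by `J`. -/
theorem caseB' (G T J O₁ : Subgroup Y)
    (hJN : J ≤ normalizer (G : Set Y)) (hTG : T ≤ G) (hT : IsPGroup 2 T) (hJ : IsTwoPerf J)
    (hJT : ∀ j ∈ J, ∀ t ∈ T, j * t = t * j) (hO : Oc G = ⊥) (hO₁odd : Odd (Nat.card O₁))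
    (hO₁le : O₁ ≤ G ⊓ centralizer (T : Set Y))
    (hO₁n : G ⊓ centralizer (T : Set Y) ≤ normalizer (O₁ : Set Y))
    (hcomm : ∀ j ∈ J, ∀ x ∈ G ⊓ centralizer (T : Set Y), j * x * j⁻¹ * x⁻¹ ∈ O₁) :
    ∀ j ∈ J, ∃ g ∈ G, ∀ x ∈ G, (j * g) * x = x * (j * g) := by
  obtain ⟨M, hM⟩ : ∃ M : Subgroup Y, M = normalizer (G : Set Y) := ⟨_, rfl⟩
  have hGM : G ≤ M := by rw [hM]; exact le_normalizer
  have hGn : (G.subgroupOf M).Normal := by rw [hM]; exact normal_in_normalizer
  have hTM : T ≤ M := hTG.trans hGM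
  have hJM : J ≤ M := by rw [hM]; exact hJN
  have hcent : ∀ x : ↥M, x ∈ centralizer ((T.subgroupOf M : Subgroup ↥M) : Set ↥M) ↔
      (x : Y) ∈ centralizer (T : Set Y) := by
    intro x
    rw [mem_centralizer_iff, mem_centralizer_iff]
    constructor
    · intro h t ht
      exact congrArg Subtype.val (h ⟨t, hTM ht⟩ (mem_subgroupOf.2 ht))
    · intro h t ht
      exact Subtype.ext (h t.1 (mem_subgroupOf.1 ht))
  have hinf : ∀ x : ↥M, x ∈ G.subgroupOf M ⊓
      centralizer ((T.subgroupOf M : Subgroup ↥M) : Set ↥M) ↔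
      (x : Y) ∈ G ⊓ centralizer (T : Set Y) := by
    intro x
    rw [mem_inf, mem_inf, hcent, mem_subgroupOf]
  have hOM : Oc (G.subgroupOf M) = ⊥ := by
    have h1 := Oc_subgroupOf_le hGM
    rw [hO, le_bot_iff] at h1
    exact (Subgroup.map_eq_bot_iff_of_injective _ M.subtype_injective).1 h1
  have hO₁M : O₁ ≤ M := (hO₁le.trans inf_le_left).trans hGM
  have hres := LB1.caseB (G.subgroupOf M) (T.subgroupOf M) (J.subgroupOf M) (O₁.subgroupOf M)
    (fun x hx => by rw [mem_subgroupOf] at hx ⊢; exact hTG hx)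
    hT.comap_subtype (hJ.subgroupOf hJM)
    (fun j hj t ht => Subtype.ext (hJT j.1 (mem_subgroupOf.1 hj) t.1 (mem_subgroupOf.1 ht)))
    hOM
    (by rw [Nat.card_congr (Subgroup.subgroupOfEquivOfLe hO₁M).toEquiv]; exact hO₁odd)
    (fun x hx => (hinf x).2 (hO₁le (mem_subgroupOf.1 hx)))
    (fun x hx => by
      have h1 := hO₁n ((hinf x).1 hx)
      rw [mem_normalizer_iff] at h1 ⊢
      intro y
      rw [mem_subgroupOf, mem_subgroupOf]
      exact h1 y.1)
    (fun j hj x hx => by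
      rw [mem_subgroupOf]
      exact hcomm j.1 (mem_subgroupOf.1 hj) x.1 ((hinf x).1 hx))
  intro j hj
  obtain ⟨g, hg, hgx⟩ := hres ⟨j, hJM hj⟩ (mem_subgroupOf.2 hj)
  refine ⟨g.1, mem_subgroupOf.1 hg, ?_⟩
  intro x hx
  exact congrArg Subtype.val (hgx ⟨x, hGM hx⟩ (mem_subgroupOf.2 hx))

end ylemmas

section main

variable {X Y : Type u} [Group X] [Finite X] [Group Y] [Finite Y]

/-- the image of a `2`-component of `C_X(T)` in `Y = X / O(X)` lies in `E(Y)`. -/
theorem image_pComp_le_layer (π : X →* Y) (hπs : Function.Surjective π)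
    (hkerodd : Odd (Nat.card π.ker)) (hOY : Cfsg.pPrimeCore 2 Y = ⊥)
    (T : Subgroup X) (hT : IsPGroup 2 T) (C : Subgroup X) (hC : C = centralizer (T : Set X))
    (I : Subgroup ↥C) (hI : Cfsg.IsPComponent 2 I) :
    (I.map C.subtype).map π ≤ Cfsg.layer Y := by
  have : Fact (Nat.Prime 2) := ⟨Nat.prime_two⟩
  have hkerodd' : ¬ 2 ∣ Nat.card π.ker := by
    intro hd
    exact (Nat.not_even_iff_odd.2 hkerodd) (even_iff_two_dvd.2 hd)
  obtain ⟨Tb, hTb⟩ : ∃ Tb : Subgroup Y, Tb = T.map π := ⟨_, rfl⟩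
  obtain ⟨Cb, hCb⟩ : ∃ Cb : Subgroup Y, Cb = centralizer (Tb : Set Y) := ⟨_, rfl⟩
  obtain ⟨J, hJdef⟩ : ∃ J : Subgroup Y, J = (I.map C.subtype).map π := ⟨_, rfl⟩
  obtain ⟨Ob, hObdef⟩ : ∃ Ob : Subgroup Y,
      Ob = ((Cfsg.pPrimeCore 2 ↥C).map C.subtype).map π := ⟨_, rfl⟩
  rw [← hJdef]
  have hTbp : IsPGroup 2 Tb := by rw [hTb]; exact hT.map π
  have hkern : (π.ker).Normal := inferInstance
  have hY2 : ∀ y ∈ Cb, ∃ c ∈ C, π c = y := by
    intro y hy
    obtain ⟨x, rfl⟩ := hπs y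
    have hx : ∀ k ∈ T, x⁻¹ * k * x * k⁻¹ ∈ π.ker := by
      intro k hk
      rw [MonoidHom.mem_ker]
      rw [hCb, mem_centralizer_iff] at hy
      have h1 := hy (π k) (by rw [hTb]; exact ⟨k, hk, rfl⟩)
      have e : π (x⁻¹ * k * x * k⁻¹) = (π x)⁻¹ * (π k * π x) * (π k)⁻¹ := by
        simp only [map_mul, map_inv]; group
      rw [e, h1]; group
    obtain ⟨n, hn, hfix⟩ := Cfsg.Agent.Lib.Helper48.CoprimeQ.exists_fixed_in_coset T π.ker hT
      hkerodd' (fun t _ => by rw [normalizer_eq_top_iff.2 hkern]; trivial) x hx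
    refine ⟨x * n, ?_, ?_⟩
    · rw [hC, mem_centralizer_iff]
      intro k hk
      have := hfix k hk
      calc k * (x * n) = k * (x * n) * k⁻¹ * k := by group
        _ = x * n * k := by rw [this]
    · rw [map_mul, (MonoidHom.mem_ker).1 hn, mul_one]
  have hCmap : ∀ c ∈ C, π c ∈ Cb := by
    intro c hc
    rw [hCb, mem_centralizer_iff]
    intro t ht
    rw [hTb] at ht
    obtain ⟨t', ht', rfl⟩ := ht
    rw [hC] at hc
    have := mem_centralizer_iff.1 hc t' ht'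
    rw [← map_mul, ← map_mul, this]
  have hJ : IsTwoPerf J := by
    rw [hJdef]; exact ((pComp_isTwoPerf I hI).map C.subtype).map π
  have hJCb : J ≤ Cb := by
    rw [hJdef]
    rintro _ ⟨_, ⟨i, hi, rfl⟩, rfl⟩
    exact hCmap i.1 i.2
  have hCbT : ∀ y ∈ Cb, ∀ t ∈ Tb, y * t = t * y := by
    intro y hy t ht
    rw [hCb] at hy
    exact (mem_centralizer_iff.1 hy t ht).symm
  have hJT : ∀ j ∈ J, ∀ t ∈ Tb, j * t = t * j := fun j hj => hCbT j (hJCb hj)
  have hOCn : (Cfsg.pPrimeCore 2 ↥C).Normal := (PSolv.pPrimeCore_mem 2).1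
  have hObodd : Odd (Nat.card Ob) := by
    rw [hObdef]
    apply odd_card_map
    rw [Subgroup.card_map_of_injective C.subtype_injective]
    exact Nat.coprime_two_right.1 (PSolv.pPrimeCore_coprime 2)
  have hObn : ∀ y ∈ Cb, y ∈ normalizer (Ob : Set Y) := by
    intro y hy
    obtain ⟨c, hc, rfl⟩ := hY2 y hy
    rw [hObdef]
    exact Subgroup.le_normalizer_map π ⟨c, LBal.le_normalizer_map_subtype C _ hc, rfl⟩
  have hdich : ∀ A : Subgroup Y, Cb ≤ normalizer (A : Set Y) →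
      (J ≤ A ∨ ∀ j ∈ J, ∀ r ∈ A ⊓ Cb, j * r * j⁻¹ * r⁻¹ ∈ Ob) := by
    intro A hA
    have hN'n : (A.comap (π.comp C.subtype)).Normal := by
      constructor
      intro n hn g
      rw [mem_comap] at hn ⊢
      rw [map_mul, map_mul, map_inv]
      exact GB1b.conj_mem_of_mem_normalizer (hA (hCmap g.1 g.2)) hn
    rcases pComp_normal_cases I (A.comap (π.comp C.subtype)) hI with h | h
    · left
      rw [hJdef]
      rintro _ ⟨_, ⟨i, hi, rfl⟩, rfl⟩
      exact h hi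
    · right
      intro j hj r hr
      rw [hJdef] at hj
      obtain ⟨_, ⟨i, hi, rfl⟩, rfl⟩ := hj
      obtain ⟨hrA, hrC⟩ := mem_inf.1 hr
      obtain ⟨c, hc, rfl⟩ := hY2 r hrC
      have h1 := h i hi ⟨c, hc⟩ (by rw [mem_comap]; exact hrA)
      rw [hObdef]
      refine ⟨_, ⟨_, h1, rfl⟩, ?_⟩
      simp
  have hJQ : J ≤ centralizer (Cfsg.pCore 2 Y : Set Y) := by
    have hQn : (Cfsg.pCore 2 Y).Normal := Fitting.pCore_normal 2
    have hQp : IsPGroup 2 (Cfsg.pCore 2 Y) := Fitting.pCore_isPGroup 2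
    rcases hdich (Cfsg.pCore 2 Y)
      (fun y _ => by rw [normalizer_eq_top_iff.2 hQn]; trivial) with h | h
    · have hJbot : J ≤ ⊥ := by
        apply perfect_le_of_pow_mem hJ.1
        · intro x _
          have : (⊥ : Subgroup Y).Normal := inferInstance
          rw [normalizer_eq_top_iff.2 this]; trivial
        · intro b hb
          obtain ⟨n, hn⟩ := hQp ⟨b, h hb⟩
          exact ⟨n, by rw [mem_bot]; exact congrArg Subtype.val hn⟩
      exact hJbot.trans bot_le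
    · apply centralizes_pCore Tb hTbp J hJ.1 hJT
      intro j hj r hr
      have hr' : r ∈ Cfsg.pCore 2 Y ⊓ Cb := by rw [hCb]; exact hr
      have h1 := h j hj r hr'
      have h2 : j * r * j⁻¹ * r⁻¹ ∈ Cfsg.pCore 2 Y :=
        mul_mem (hQn.conj_mem r (mem_inf.1 hr).1 j) (inv_mem (mem_inf.1 hr).1)
      have h3 := eq_one_of_two_odd hQp hObodd h2 h1
      calc j * r = (j * r * j⁻¹ * r⁻¹) * (r * j) := by group
        _ = r * j := by rw [h3, one_mul]
  have hEn : (Cfsg.layer Y).Normal := Layer.layer_normal Y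
  have hJE : J ≤ Cfsg.layer Y ⊔ centralizer (Cfsg.layer Y : Set Y) := by
    obtain ⟨G₁, hG₁⟩ : ∃ G₁ : Subgroup Y, G₁ = Cfsg.layer Y ⊔ Tb := ⟨_, rfl⟩
    have hEG₁ : Cfsg.layer Y ≤ G₁ := by rw [hG₁]; exact le_sup_left
    have hTG₁ : Tb ≤ G₁ := by rw [hG₁]; exact le_sup_right
    have hCbG₁ : Cb ≤ normalizer (G₁ : Set Y) := by
      intro y hy
      rw [hG₁]
      apply mem_normalizer_sup
      · rw [normalizer_eq_top_iff.2 hEn]; trivial
      · exact Cfsg.Agent.Lib.Helper24.Coprime.mem_normalizer_of_commute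
          (fun t ht => (hCbT y hy t ht).symm)
    rcases hdich G₁ hCbG₁ with h | h
    · have : J ≤ Cfsg.layer Y :=
        perfect_le_of_le_sup_pgroup hJ.1 hTbp (by rw [← hG₁]; exact h)
      exact this.trans le_sup_left
    · have hOcG₁ : Oc G₁ = ⊥ := by rw [hG₁]; exact Oc_layer_sup_eq_bot hOY Tb hTbp
      have hN₁ : G₁ ⊓ centralizer (Tb : Set Y) = G₁ ⊓ Cb := by rw [hCb]
      have hcB := caseB' G₁ Tb J (Ob ⊓ (G₁ ⊓ Cb)) (hJCb.trans hCbG₁) hTG₁ hTbp hJ hJT hOcG₁
        (Odd.of_dvd_nat hObodd (Subgroup.card_dvd_of_le inf_le_left))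
        (by rw [hN₁]; exact inf_le_right)
        (by
          rw [hN₁]
          intro y hy
          exact NormComp.mem_normalizer_inf (hObn y (mem_inf.1 hy).2) (le_normalizer hy))
        (by
          rw [hN₁]
          intro j hj x hx
          refine mem_inf.2 ⟨h j hj x hx, ?_⟩
          have hjN : j ∈ normalizer ((G₁ ⊓ Cb : Subgroup Y) : Set Y) :=
            NormComp.mem_normalizer_inf (hCbG₁ (hJCb hj)) (le_normalizer (hJCb hj))
          exact mul_mem (GB1b.conj_mem_of_mem_normalizer hjN hx) (inv_mem hx))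
      have hKn : (Cfsg.layer Y ⊔ centralizer (Cfsg.layer Y : Set Y)).Normal := inferInstance
      apply perfect_le_of_le_sup_pgroup hJ.1 hTbp
      intro j hj
      obtain ⟨g, hg, hgc⟩ := hcB j hj
      have h1 : j * g ∈ centralizer (Cfsg.layer Y : Set Y) := by
        rw [mem_centralizer_iff]
        intro e he
        exact (hgc e (hEG₁ he)).symm
      have h2 : g⁻¹ ∈ Cfsg.layer Y ⊔ Tb := by rw [← hG₁]; exact inv_mem hg
      have e : j = (j * g) * g⁻¹ := by group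
      rw [e]
      exact mul_mem (le_sup_left (b := Tb) (le_sup_right (a := Cfsg.layer Y) h1))
        (sup_le_sup_right le_sup_left Tb h2)
  exact le_layer_of_le_sup_centralizer hOY J hJ.1 hJQ hJE

end main

section final

variable {X : Type u} [Group X] [Finite X]

theorem pComp_centralizer_le_pLayer (T : Subgroup X) (hT : IsPGroup 2 T) (C : Subgroup X)
    (hC : C = centralizer (T : Set X)) (I : Subgroup ↥C) (hI : Cfsg.IsPComponent 2 I) :
    I.map C.subtype ≤ Cfsg.pLayer 2 X := by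
  have : Fact (Nat.Prime 2) := ⟨Nat.prime_two⟩
  have hWn : (Cfsg.pPrimeCore 2 X).Normal := (PSolv.pPrimeCore_mem 2).1
  have hWcop : (Nat.card (Cfsg.pPrimeCore 2 X)).Coprime 2 := PSolv.pPrimeCore_coprime 2
  have hOY : Cfsg.pPrimeCore 2 (X ⧸ Cfsg.pPrimeCore 2 X) = ⊥ := PSolv.pPrimeCore_quotient 2
  have hJ := image_pComp_le_layer (QuotientGroup.mk' (Cfsg.pPrimeCore 2 X))
    (QuotientGroup.mk'_surjective _)
    (by rw [QuotientGroup.ker_mk']; exact Nat.coprime_two_right.1 hWcop) hOY T hT C hC I hI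
  have h1 : I.map C.subtype ≤ Cfsg.pLayer 2 X ⊔ Cfsg.pPrimeCore 2 X := by
    rw [← comap_map_mk 2 (Cfsg.pLayer 2 X), pLayer_map 2]
    intro x hx
    rw [mem_comap]
    exact hJ ⟨x, hx, rfl⟩
  have hIB := (pComp_isTwoPerf I hI).map C.subtype
  refine hIB.2.ge.trans ?_
  unfold OpP
  rw [closure_le]
  rintro x ⟨hx, hj⟩
  exact pElement_mem_of_subnormal 2 _ hWcop (Cfsg.pLayer 2 X)
    (Cfsg.Agent.Lib.Helper23.PLayer.pLayer_normal 2 X).isSubnormal x (h1 hx) hj

/-- `L_{2'}`-balance. -/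
theorem l_balance (T : Subgroup X) (hT : IsPGroup 2 T) :
    (Cfsg.pLayer 2 ↥(centralizer (T : Set X))).map (centralizer (T : Set X)).subtype ≤
      Cfsg.pLayer 2 X := by
  rw [Subgroup.map_le_iff_le_comap]
  have h : Cfsg.pLayer 2 ↥(centralizer (T : Set X)) = sSup {K | Cfsg.IsPComponent 2 K} := rfl
  rw [h]
  apply sSup_le
  intro I hI
  rw [← Subgroup.map_le_iff_le_comap]
  exact pComp_centralizer_le_pLayer T hT _ rfl I hI

end final

end Cfsg.Agent.Lib.Helper21.LB2
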