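import Mathlib
import Cfsg.Prelude.Def_Local
import Cfsg.Prelude.Def_LocalEven
import Cfsg.Agent.Lib.Helper21.MinNormal
import Cfsg.Agent.Lib.Helper22.CompInv
import Cfsg.Agent.Lib.Helper49.AxB

set_option autoImplicit false

/-!
Groups of local characteristic `p` (Kurzweil–Stellmacher 10.1): maximal `p`-locals are primitive,
and either some pair of maximal `p`-locals is a primitive pair of characteristic `p`, or every
maximal `p`-local is strongly `p`-embedded.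
-/

namespace Cfsg.Agent.Lib.Helper21.LocChar

open Subgroup
open Cfsg.Agent.Lib.Helper21
open Cfsg.Agent.Lib.Helper22
open Cfsg.Agent.Lib.Helper33.Conj
open Cfsg.Agent.Lib.Helper78

universe u

set_option linter.unusedSectionVars false

variable {G : Type u} [Group G] [Finite G] (p : ℕ) [hp : Fact p.Prime]

/-- the image in `G` of `O_p(M)`. -/
abbrev pc (M : Subgroup G) : Subgroup G := (Cfsg.pCore p ↥M).map M.subtype

theorem pc_le (M : Subgroup G) : pc p M ≤ M := map_subtype_le _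

theorem pc_norm (M : Subgroup G) : M ≤ normalizer (pc p M : Set G) := by
  have := Fitting.pCore_normal (G := ↥M) p
  exact LBal.le_normalizer_map_subtype M (Cfsg.pCore p ↥M)

theorem pc_pgroup (M : Subgroup G) : IsPGroup p ↥(pc p M) :=
  (Fitting.pCore_isPGroup p).map _

theorem le_pc (X Q : Subgroup G) (hQX : Q ≤ X) (hQ : IsPGroup p Q)
    (hn : X ≤ normalizer (Q : Set G)) : Q ≤ pc p X := by
  have hN : (Q.subgroupOf X).Normal := (normal_subgroupOf_iff_le_normalizer hQX).2 hn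
  have hpg : IsPGroup p (Q.subgroupOf X) := hQ.comap_subtype
  have h := Fitting.le_pCore hN hpg
  have h2 := map_mono (f := X.subtype) h
  rwa [map_subgroupOf_eq_of_le hQX] at h2

/-- `N_G(X)` normalizes `O_p(X)`. -/
theorem normalizer_le_normalizer_pc (X : Subgroup G) :
    normalizer (X : Set G) ≤ normalizer (pc p X : Set G) := by
  have key : ∀ g ∈ normalizer (X : Set G),
      (pc p X).map (MulAut.conj g).toMonoidHom ≤ pc p X := by
    intro g hg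
    apply le_pc
    · have := cj_mono (g := g) (pc_le p X)
      rwa [cj_eq_of_mem_normalizer hg] at this
    · exact isPGroup_cj g (pc_pgroup p X)
    · rw [normalizer_cj]
      have := cj_mono (g := g) (pc_norm p X)
      rwa [cj_eq_of_mem_normalizer hg] at this
  intro g hg
  rw [mem_normalizer_iff_cj_eq]
  apply le_antisymm (key g hg)
  have := cj_mono (g := g) (key g⁻¹ (inv_mem hg))
  rwa [cj_cj_inv] at this

/-- `M` is a `p`-local subgroup. -/
def IsLoc (M : Subgroup G) : Prop :=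
  ∃ T : Subgroup G, IsPGroup p T ∧ T ≠ ⊥ ∧ M = normalizer (T : Set G)

/-- `M` is a maximal `p`-local subgroup. -/
def IsMaxLoc (M : Subgroup G) : Prop :=
  IsLoc p M ∧ ∀ L : Subgroup G, IsLoc p L → M ≤ L → L = M

/-- `T` is a maximal `p`-subgroup of `M` (among those containing `T`). -/
def IsMaxP (T M : Subgroup G) : Prop :=
  ∀ T' : Subgroup G, IsPGroup p T' → T ≤ T' → T' ≤ M → T' = T

theorem exists_maxLoc_ge {L : Subgroup G} (hL : IsLoc p L) : ∃ M, IsMaxLoc p M ∧ L ≤ M := by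
  have hne : Nonempty {M : Subgroup G // IsLoc p M ∧ L ≤ M} := ⟨⟨L, hL, le_rfl⟩⟩
  obtain ⟨M, hM⟩ := Finite.exists_max
    (fun M : {M : Subgroup G // IsLoc p M ∧ L ≤ M} => Nat.card (M : Subgroup G))
  refine ⟨M, ⟨M.2.1, ?_⟩, M.2.2⟩
  intro L' hL' hML'
  have h1 := hM ⟨L', hL', M.2.2.trans hML'⟩
  exact (Subgroup.eq_of_le_of_card_ge hML' h1).symm

theorem isLoc_normalizer {R : Subgroup G} (hR : IsPGroup p R) (hR1 : R ≠ ⊥) :
    IsLoc p (normalizer (R : Set G)) := ⟨R, hR, hR1, rfl⟩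

theorem IsLoc.pc_ne_bot {M : Subgroup G} (h : IsLoc p M) : pc p M ≠ ⊥ := by
  obtain ⟨T, hT, hT1, rfl⟩ := h
  intro hbot
  apply hT1
  have := le_pc p (normalizer (T : Set G)) T le_normalizer hT le_rfl
  rw [hbot] at this
  exact le_bot_iff.1 this

theorem IsMaxLoc.normalizer_pc {M : Subgroup G} (h : IsMaxLoc p M) :
    normalizer (pc p M : Set G) = M :=
  h.2 _ (isLoc_normalizer p (pc_pgroup p M) (h.1.pc_ne_bot p)) (pc_norm p M)

theorem IsMaxLoc.normalizer_self_le {M : Subgroup G} (h : IsMaxLoc p M) :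
    normalizer (M : Set G) ≤ M :=
  (normalizer_le_normalizer_pc p M).trans (h.normalizer_pc p).le

theorem IsMaxLoc.ne_top {M : Subgroup G} (h : IsMaxLoc p M) (hOp : Cfsg.pCore p G = ⊥) :
    M ≠ ⊤ := by
  intro htop
  apply h.1.pc_ne_bot p
  have hn : (pc p M).Normal := normalizer_eq_top_iff.1 (by rw [h.normalizer_pc p, htop])
  have := Fitting.le_pCore hn (pc_pgroup p M)
  rw [hOp] at this
  exact le_bot_iff.1 this

theorem IsLoc.dvd_card {M : Subgroup G} (h : IsLoc p M) : p ∣ Nat.card M := by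
  obtain ⟨T, hT, hT1, rfl⟩ := h
  obtain ⟨k, hk⟩ := IsPGroup.iff_card.1 hT
  have hdvd : Nat.card T ∣ Nat.card (normalizer (T : Set G)) :=
    Subgroup.card_dvd_of_le le_normalizer
  cases k with
  | zero => exact absurd (Subgroup.card_eq_one.1 (by simpa using hk)) hT1
  | succ k =>
    rw [hk] at hdvd
    exact dvd_trans (dvd_pow_self p (Nat.succ_ne_zero k)) hdvd

theorem IsLoc.charP (hloc : Cfsg.IsOfLocalCharacteristic p G) {M : Subgroup G}
    (h : IsLoc p M) : centralizer (Cfsg.pCore p ↥M : Set ↥M) ≤ Cfsg.pCore p ↥M := by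
  obtain ⟨T, hT, hT1, rfl⟩ := h
  exact hloc.2 T hT hT1

/-- In a group of characteristic `p`, nontrivial normal subgroups have nontrivial `O_p`. -/
theorem pc_ne_bot_of_normal {M A : Subgroup G}
    (hchar : centralizer (Cfsg.pCore p ↥M : Set ↥M) ≤ Cfsg.pCore p ↥M) (hA1 : A ≠ ⊥)
    (hAM : A ≤ M) (hMA : M ≤ normalizer (A : Set G)) : pc p A ≠ ⊥ := by
  intro hbot
  apply hA1
  have hdisj : A ⊓ pc p M = ⊥ := by
    have h1 : A ⊓ pc p M ≤ pc p A := by
      apply le_pc p A _ inf_le_left ((pc_pgroup p M).to_le inf_le_right)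
      intro a ha
      have h2 := mem_normalizer_iff.1 (le_normalizer ha : a ∈ normalizer (A : Set G))
      have h3 := mem_normalizer_iff.1 (pc_norm p M (hAM ha))
      rw [mem_normalizer_iff]
      intro h
      rw [mem_inf, mem_inf, ← h2 h, ← h3 h]
    rw [hbot] at h1
    exact le_bot_iff.1 h1
  have hcomm := CompInv.commute_of_normalize_disjoint (hAM.trans (pc_norm p M))
    ((pc_le p M).trans hMA) hdisj
  rw [eq_bot_iff]
  intro a ha
  have hmem : (⟨a, hAM ha⟩ : ↥M) ∈ centralizer (Cfsg.pCore p ↥M : Set ↥M) := by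
    rw [mem_centralizer_iff]
    intro y hy
    have := hcomm a ha (y : G) (mem_map_of_mem _ hy)
    exact Subtype.ext this.symm
  have h4 : a ∈ pc p M := ⟨⟨a, hAM ha⟩, hchar hmem, rfl⟩
  have h5 : a ∈ A ⊓ pc p M := mem_inf.2 ⟨ha, h4⟩
  rwa [hdisj] at h5

/-- Maximal `p`-locals are primitive (local characteristic `p`). -/
theorem IsMaxLoc.normalizer_eq (hloc : Cfsg.IsOfLocalCharacteristic p G) {M A : Subgroup G}
    (h : IsMaxLoc p M) (hA1 : A ≠ ⊥) (hAM : A ≤ M) (hMA : M ≤ normalizer (A : Set G)) :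
    normalizer (A : Set G) = M := by
  have hR := pc_ne_bot_of_normal p (h.1.charP p hloc) hA1 hAM hMA
  have h1 : normalizer (A : Set G) ≤ normalizer (pc p A : Set G) :=
    normalizer_le_normalizer_pc p A
  have h2 := h.2 _ (isLoc_normalizer p (pc_pgroup p A) hR) (hMA.trans h1)
  exact le_antisymm (h1.trans h2.le) hMA

theorem IsLoc.cj {M : Subgroup G} (h : IsLoc p M) (g : G) :
    IsLoc p (M.map (MulAut.conj g).toMonoidHom) := by
  obtain ⟨T, hT, hT1, rfl⟩ := h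
  refine ⟨T.map (MulAut.conj g).toMonoidHom, isPGroup_cj g hT, ?_, (normalizer_cj g T).symm⟩
  rw [Ne, map_eq_bot_iff_of_injective _ (cj_injective g)]
  exact hT1

theorem IsMaxLoc.cj {M : Subgroup G} (h : IsMaxLoc p M) (g : G) :
    IsMaxLoc p (M.map (MulAut.conj g).toMonoidHom) := by
  refine ⟨h.1.cj p g, ?_⟩
  intro L hL hML
  have h1 : M ≤ L.map (MulAut.conj g⁻¹).toMonoidHom := cj_le_iff.1 hML
  have h2 := h.2 _ (hL.cj p g⁻¹) h1
  rw [← h2, cj_cj_inv]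

theorem IsMaxLoc.cj_ne {M : Subgroup G} (h : IsMaxLoc p M) {g : G} (hg : g ∉ M) :
    M.map (MulAut.conj g).toMonoidHom ≠ M := by
  intro heq
  exact hg (h.normalizer_self_le p (mem_normalizer_iff_cj_eq.2 heq))

theorem pc_le_of_isMaxP {T M : Subgroup G} (hT : IsPGroup p T) (hTM : T ≤ M)
    (hmax : IsMaxP p T M) : pc p M ≤ T := by
  have h1 : IsPGroup p (T ⊔ pc p M : Subgroup G) :=
    hT.to_sup_of_normal_right' (pc_pgroup p M) (hTM.trans (pc_norm p M))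
  have h2 := hmax _ h1 le_sup_left (sup_le hTM (pc_le p M))
  rw [← h2]
  exact le_sup_right

theorem notMem_of_isMaxP {T M S : Subgroup G} (hTM : T ≤ M) (hT : IsPGroup p T)
    (hmax : IsMaxP p T M) (hS : IsPGroup p S) {x : G} (hxS : x ∈ S)
    (hxN : x ∈ normalizer (T : Set G)) (hxT : x ∉ T) : x ∉ M := by
  intro hxM
  have hz : IsPGroup p (zpowers x) := hS.to_le (zpowers_le.2 hxS)
  have h1 : IsPGroup p (zpowers x ⊔ T : Subgroup G) :=
    hz.to_sup_of_normal_right' hT (zpowers_le.2 hxN)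
  have h2 := hmax _ h1 le_sup_right (sup_le (zpowers_le.2 hxM) hTM)
  apply hxT
  rw [← h2]
  exact mem_sup_left (mem_zpowers x)

theorem exists_bigger {T S : Subgroup G} (hS : IsPGroup p S) (hTS : T ≤ S) (hne : S ≠ T) :
    ∃ U : Subgroup G, IsPGroup p U ∧ U ≤ S ∧ U ≤ normalizer (T : Set G) ∧
      Nat.card T < Nat.card U := by
  obtain ⟨x, hxS, hxN, hxT⟩ :=
    Cfsg.Agent.Lib.Helper49.AxB.exists_mem_normalizer_not_mem hS hTS (Ne.symm hne)
  refine ⟨T ⊔ zpowers x, hS.to_le (sup_le hTS (zpowers_le.2 hxS)),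
    sup_le hTS (zpowers_le.2 hxS), sup_le le_normalizer (zpowers_le.2 hxN), ?_⟩
  apply FStar.card_lt_of_le_of_ne le_sup_left
  intro h
  apply hxT
  rw [h]
  exact mem_sup_right (mem_zpowers x)

/-- the conclusion for a pair of maximal `p`-locals sharing a maximal `p`-subgroup. -/
theorem pair_ok (hloc : Cfsg.IsOfLocalCharacteristic p G) {M₁ M₂ T : Subgroup G}
    (h1 : IsMaxLoc p M₁) (h2 : IsMaxLoc p M₂) (hne : M₁ ≠ M₂) (hT : IsPGroup p T)
    (hT1 : T ≤ M₁) (hT2 : T ≤ M₂) (hm1 : IsMaxP p T M₁) (hm2 : IsMaxP p T M₂) :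
    M₁ ≠ M₂ ∧ (∀ A : Subgroup G, A ≠ ⊥ → A ≤ M₁ ⊓ M₂ →
      (M₁ ≤ normalizer (A : Set G) → M₂ ⊓ normalizer (A : Set G) = M₁ ⊓ M₂) ∧
      (M₂ ≤ normalizer (A : Set G) → M₁ ⊓ normalizer (A : Set G) = M₁ ⊓ M₂)) ∧
      centralizer (Cfsg.pCore p ↥M₁ : Set ↥M₁) ≤ Cfsg.pCore p ↥M₁ ∧
      centralizer (Cfsg.pCore p ↥M₂ : Set ↥M₂) ≤ Cfsg.pCore p ↥M₂ ∧
      (Cfsg.pCore p ↥M₁).map M₁.subtype ⊔ (Cfsg.pCore p ↥M₂).map M₂.subtype ≤ M₁ ⊓ M₂ := by
  refine ⟨hne, ?_, h1.1.charP p hloc, h2.1.charP p hloc, ?_⟩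
  · intro A hA hAle
    constructor
    · intro hn
      rw [h1.normalizer_eq p hloc hA (hAle.trans inf_le_left) hn, inf_comm]
    · intro hn
      rw [h2.normalizer_eq p hloc hA (hAle.trans inf_le_right) hn]
  · exact sup_le ((pc_le_of_isMaxP p hT hT1 hm1).trans (le_inf hT1 hT2))
      ((pc_le_of_isMaxP p hT hT2 hm2).trans (le_inf hT1 hT2))

theorem final_pair (hloc : Cfsg.IsOfLocalCharacteristic p G) {M₁ M₂ T : Subgroup G}
    (h1 : IsMaxLoc p M₁) (h2 : IsMaxLoc p M₂) (hne : M₁ ≠ M₂) (hT : IsPGroup p T)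
    (hT1 : T ≤ M₁) (hT2 : T ≤ M₂) (hmax : IsMaxP p T M₁) :
    ∃ M₁ M₂ : Subgroup G, M₁ ≠ M₂ ∧ (∀ A : Subgroup G, A ≠ ⊥ → A ≤ M₁ ⊓ M₂ →
      (M₁ ≤ normalizer (A : Set G) → M₂ ⊓ normalizer (A : Set G) = M₁ ⊓ M₂) ∧
      (M₂ ≤ normalizer (A : Set G) → M₁ ⊓ normalizer (A : Set G) = M₁ ⊓ M₂)) ∧
      centralizer (Cfsg.pCore p ↥M₁ : Set ↥M₁) ≤ Cfsg.pCore p ↥M₁ ∧
      centralizer (Cfsg.pCore p ↥M₂ : Set ↥M₂) ≤ Cfsg.pCore p ↥M₂ ∧
      (Cfsg.pCore p ↥M₁).map M₁.subtype ⊔ (Cfsg.pCore p ↥M₂).map M₂.subtype ≤ M₁ ⊓ M₂ := by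
  by_cases hm2 : IsMaxP p T M₂
  · exact ⟨M₁, M₂, pair_ok p hloc h1 h2 hne hT hT1 hT2 hmax hm2⟩
  · unfold IsMaxP at hm2
    push Not at hm2
    obtain ⟨S, hS, hTS, hSM, hST⟩ := hm2
    obtain ⟨x, hxS, hxN, hxT⟩ :=
      Cfsg.Agent.Lib.Helper49.AxB.exists_mem_normalizer_not_mem hS hTS (Ne.symm hST)
    have hxM : x ∉ M₁ := notMem_of_isMaxP p hT1 hT hmax hS hxS hxN hxT
    have hTx : T ≤ M₁.map (MulAut.conj x).toMonoidHom := by
      have := cj_mono (g := x) hT1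
      rwa [cj_eq_of_mem_normalizer hxN] at this
    have hmaxx : IsMaxP p T (M₁.map (MulAut.conj x).toMonoidHom) := by
      intro T' hT' hTT' hT'M
      have hxN' : x⁻¹ ∈ normalizer (T : Set G) := inv_mem hxN
      have e1 : T'.map (MulAut.conj x⁻¹).toMonoidHom ≤ M₁ := by
        rw [cj_le_iff, inv_inv]
        exact hT'M
      have e2 : T ≤ T'.map (MulAut.conj x⁻¹).toMonoidHom := by
        have := cj_mono (g := x⁻¹) hTT'
        rwa [cj_eq_of_mem_normalizer hxN'] at this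
      have e3 := hmax _ (isPGroup_cj x⁻¹ hT') e2 e1
      have e4 : (T'.map (MulAut.conj x⁻¹).toMonoidHom).map (MulAut.conj x).toMonoidHom =
          T.map (MulAut.conj x).toMonoidHom := by rw [e3]
      rwa [cj_cj_inv, cj_eq_of_mem_normalizer hxN] at e4
    exact ⟨M₁, M₁.map (MulAut.conj x).toMonoidHom,
      pair_ok p hloc h1 (h1.cj p x) (Ne.symm (h1.cj_ne p hxM)) hT hT1 hTx hmax hmaxx⟩

/-- Kurzweil–Stellmacher 10.1: local characteristic `p` and `O_p(G) = 1` give a primitive pair of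
characteristic `p`, or all maximal `p`-locals are strongly `p`-embedded. -/
theorem main (hloc : Cfsg.IsOfLocalCharacteristic p G) (hOp : Cfsg.pCore p G = ⊥) :
    (∃ M₁ M₂ : Subgroup G, M₁ ≠ M₂ ∧ (∀ A : Subgroup G, A ≠ ⊥ → A ≤ M₁ ⊓ M₂ →
      (M₁ ≤ normalizer (A : Set G) → M₂ ⊓ normalizer (A : Set G) = M₁ ⊓ M₂) ∧
      (M₂ ≤ normalizer (A : Set G) → M₁ ⊓ normalizer (A : Set G) = M₁ ⊓ M₂)) ∧
      centralizer (Cfsg.pCore p ↥M₁ : Set ↥M₁) ≤ Cfsg.pCore p ↥M₁ ∧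
      centralizer (Cfsg.pCore p ↥M₂ : Set ↥M₂) ≤ Cfsg.pCore p ↥M₂ ∧
      (Cfsg.pCore p ↥M₁).map M₁.subtype ⊔ (Cfsg.pCore p ↥M₂).map M₂.subtype ≤ M₁ ⊓ M₂) ∨
    (∀ M : Subgroup G, (∃ T : Subgroup G, IsPGroup p T ∧ T ≠ ⊥ ∧ M = normalizer (T : Set G)) →
      (∀ L : Subgroup G, (∃ T : Subgroup G, IsPGroup p T ∧ T ≠ ⊥ ∧ L = normalizer (T : Set G)) →
        M ≤ L → L = M) →
      M ≠ ⊤ ∧ p ∣ Nat.card M ∧
        ∀ g : G, g ∉ M → ¬ p ∣ Nat.card ↥(M ⊓ M.map (MulAut.conj g).toMonoidHom)) := by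
  by_cases hstr : ∀ M : Subgroup G, IsMaxLoc p M →
      ∀ g : G, g ∉ M → ¬ p ∣ Nat.card ↥(M ⊓ M.map (MulAut.conj g).toMonoidHom)
  · right
    intro M hMloc hMmax
    have hML : IsMaxLoc p M := ⟨hMloc, hMmax⟩
    exact ⟨hML.ne_top p hOp, hML.1.dvd_card p, hstr M hML⟩
  · left
    push Not at hstr
    obtain ⟨M, hML, g, hg, hdvd⟩ := hstr
    obtain ⟨x, hx⟩ := exists_prime_orderOf_dvd_card' p hdvd
    have hcard0 : Nat.card (zpowers (x : G)) = p := by
      rw [Nat.card_zpowers, Subgroup.orderOf_coe, hx]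
    have hT0 : IsPGroup p (zpowers (x : G)) := IsPGroup.of_card (n := 1) (by rw [hcard0, pow_one])
    have hT0le : zpowers (x : G) ≤ M ⊓ M.map (MulAut.conj g).toMonoidHom := zpowers_le.2 x.2
    have hne0 : Nonempty {t : Subgroup G × Subgroup G × Subgroup G //
        IsMaxLoc p t.1 ∧ IsMaxLoc p t.2.1 ∧ t.1 ≠ t.2.1 ∧ IsPGroup p t.2.2 ∧ t.2.2 ≤ t.1 ∧
          t.2.2 ≤ t.2.1} :=
      ⟨⟨(M, M.map (MulAut.conj g).toMonoidHom, zpowers (x : G)), hML, hML.cj p g,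
        (hML.cj_ne p hg).symm, hT0, hT0le.trans inf_le_left, hT0le.trans inf_le_right⟩⟩
    obtain ⟨t, ht⟩ := Finite.exists_max
      (fun t : {t : Subgroup G × Subgroup G × Subgroup G //
        IsMaxLoc p t.1 ∧ IsMaxLoc p t.2.1 ∧ t.1 ≠ t.2.1 ∧ IsPGroup p t.2.2 ∧ t.2.2 ≤ t.1 ∧
          t.2.2 ≤ t.2.1} => Nat.card t.1.2.2)
    obtain ⟨⟨M₁, M₂, T⟩, h1, h2, hne, hT, hT1, hT2⟩ := t
    have hTcard : p ≤ Nat.card T := by
      have h3 : Nat.card (zpowers (x : G)) ≤ Nat.card T :=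
        ht ⟨(M, M.map (MulAut.conj g).toMonoidHom, zpowers (x : G)), hML, hML.cj p g,
          (hML.cj_ne p hg).symm, hT0, hT0le.trans inf_le_left, hT0le.trans inf_le_right⟩
      rwa [hcard0] at h3
    have hTne : T ≠ ⊥ := by
      intro h
      rw [h, Subgroup.card_bot] at hTcard
      exact absurd hTcard (not_le.2 hp.out.one_lt)
    have hcl : IsMaxP p T M₁ ∨ IsMaxP p T M₂ := by
      by_contra hcon
      push Not at hcon
      obtain ⟨hc1, hc2⟩ := hcon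
      unfold IsMaxP at hc1 hc2
      push Not at hc1 hc2
      obtain ⟨S₁, hS₁, hTS₁, hS₁M, hS₁T⟩ := hc1
      obtain ⟨S₂, hS₂, hTS₂, hS₂M, hS₂T⟩ := hc2
      obtain ⟨U₁, hU₁, hU₁S, hU₁N, hU₁c⟩ := exists_bigger p hS₁ hTS₁ hS₁T
      obtain ⟨U₂, hU₂, hU₂S, hU₂N, hU₂c⟩ := exists_bigger p hS₂ hTS₂ hS₂T
      obtain ⟨L, hL, hNL⟩ := exists_maxLoc_ge p (isLoc_normalizer p hT hTne)
      by_cases hL1 : L = M₁
      · by_cases hL2 : L = M₂
        · exact hne (hL1.symm.trans hL2)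
        · have h3 : Nat.card U₂ ≤ Nat.card T :=
            ht ⟨(L, M₂, U₂), hL, h2, hL2, hU₂, hU₂N.trans hNL, hU₂S.trans hS₂M⟩
          omega
      · have h3 : Nat.card U₁ ≤ Nat.card T :=
          ht ⟨(L, M₁, U₁), hL, h1, hL1, hU₁, hU₁N.trans hNL, hU₁S.trans hS₁M⟩
        omega
    rcases hcl with hm | hm
    · exact final_pair p hloc h1 h2 hne hT hT1 hT2 hm
    · exact final_pair p hloc h2 h1 (Ne.symm hne) hT hT2 hT1 hm

end Cfsg.Agent.Lib.Helper21.LocChar
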