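import Cfsg.Agent.Lib.Helper21.LB2
import Cfsg.Agent.Lib.Helper22.CompInv
import Cfsg.Agent.Lib.Helper22.PComp2
import Cfsg.Agent.Lib.Helper34.LBal2

set_option autoImplicit false

/-!
A component `K` of `C_H(a)` (`a` an involution) lying in `E(H)` lies in `D ⊔ D^a` for some
component `D` of `H`.
-/

namespace Cfsg.Agent.Lib.Helper21.MC1

open Subgroup
open scoped commutatorElement
open Cfsg.Agent.Lib.Helper34.LBal2

universe u

section basic

variable {H : Type u} [Group H]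

/-- A perfect subgroup which centralizes all commutators of its elements is trivial. -/
theorem eq_bot_of_commutators_central {K : Subgroup H} (hperf : ⁅K, K⁆ = K)
    (h : ∀ x ∈ K, ∀ y ∈ K, ∀ k ∈ K, ⁅x, y⁆ * k = k * ⁅x, y⁆) : K = ⊥ := by
  have h1 : ⁅K, K⁆ ≤ centralizer (K : Set H) := by
    rw [Subgroup.commutator_le]
    intro x hx y hy
    rw [mem_centralizer_iff]
    intro k hk
    exact (h x hx y hy k hk).symm
  rw [hperf] at h1
  have h2 : ⁅K, K⁆ = ⊥ := by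
    rw [Subgroup.commutator_eq_bot_iff_le_centralizer]
    exact h1
  rw [hperf] at h2
  exact h2

/-- the commutator of products of commuting pairs -/
theorem commutator_mul_mul {x₁ x₂ y₁ y₂ : H} (h12 : x₁ * y₂ = y₂ * x₁) (h21 : x₂ * y₁ = y₁ * x₂)
    (hx : x₁ * x₂ = x₂ * x₁) (hy : y₁ * y₂ = y₂ * y₁) :
    ⁅x₁ * x₂, y₁ * y₂⁆ = ⁅x₁, y₁⁆ * ⁅x₂, y₂⁆ := by
  have c12 : Commute x₁ y₂ := h12
  have c21 : Commute x₂ y₁ := h21
  have cx : Commute x₁ x₂ := hx
  have cy : Commute y₁ y₂ := hy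
  rw [commutatorElement_def, commutatorElement_def, commutatorElement_def]
  have e1 : (x₁ * x₂)⁻¹ = x₁⁻¹ * x₂⁻¹ := by rw [mul_inv_rev]; exact (cx.inv_inv).symm.eq
  have e2 : (y₁ * y₂)⁻¹ = y₁⁻¹ * y₂⁻¹ := by rw [mul_inv_rev]; exact (cy.inv_inv).symm.eq
  rw [e1, e2]
  have a1 : x₂ * y₁ = y₁ * x₂ := h21
  have a2 : x₂ * x₁⁻¹ = x₁⁻¹ * x₂ := (cx.symm.inv_right).eq
  have a3 : x₂ * y₁⁻¹ = y₁⁻¹ * x₂ := (c21.inv_right).eq
  have a4 : y₂ * x₁⁻¹ = x₁⁻¹ * y₂ := (c12.symm.inv_right).eq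
  have a5 : y₂ * y₁⁻¹ = y₁⁻¹ * y₂ := (cy.symm.inv_right).eq
  have a6 : x₂⁻¹ * y₁⁻¹ = y₁⁻¹ * x₂⁻¹ := (c21.inv_inv).eq
  calc x₁ * x₂ * (y₁ * y₂) * (x₁⁻¹ * x₂⁻¹) * (y₁⁻¹ * y₂⁻¹)
      = x₁ * (x₂ * y₁) * y₂ * x₁⁻¹ * x₂⁻¹ * y₁⁻¹ * y₂⁻¹ := by simp only [mul_assoc]
    _ = x₁ * y₁ * x₂ * (y₂ * x₁⁻¹) * x₂⁻¹ * y₁⁻¹ * y₂⁻¹ := by rw [a1]; simp only [mul_assoc]
    _ = x₁ * y₁ * (x₂ * x₁⁻¹) * y₂ * x₂⁻¹ * y₁⁻¹ * y₂⁻¹ := by rw [a4]; simp only [mul_assoc]
    _ = x₁ * y₁ * x₁⁻¹ * x₂ * y₂ * (x₂⁻¹ * y₁⁻¹) * y₂⁻¹ := by rw [a2]; simp only [mul_assoc]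
    _ = x₁ * y₁ * x₁⁻¹ * x₂ * (y₂ * y₁⁻¹) * x₂⁻¹ * y₂⁻¹ := by rw [a6]; simp only [mul_assoc]
    _ = x₁ * y₁ * x₁⁻¹ * (x₂ * y₁⁻¹) * y₂ * x₂⁻¹ * y₂⁻¹ := by rw [a5]; simp only [mul_assoc]
    _ = x₁ * y₁ * x₁⁻¹ * y₁⁻¹ * (x₂ * y₂ * x₂⁻¹ * y₂⁻¹) := by rw [a3]; simp only [mul_assoc]

/-- **Splitting lemma.** `K` perfect, centralized by `a`, contained in the product of two
commuting `a`-invariant subgroups `N₁`, `N₂`, and centralizing `C_{N₁}(a)` and `C_{N₂}(a)`: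
then `K = 1`. -/
theorem split2 {a : H} {K N₁ N₂ : Subgroup H} (hKa : ∀ k ∈ K, a * k = k * a)
    (hperf : ⁅K, K⁆ = K) (hN₁ : ∀ n ∈ N₁, a * n * a⁻¹ ∈ N₁) (hN₂ : ∀ n ∈ N₂, a * n * a⁻¹ ∈ N₂)
    (hcomm : ∀ x ∈ N₁, ∀ y ∈ N₂, x * y = y * x) (hKle : K ≤ N₁ ⊔ N₂)
    (h1 : ∀ n ∈ N₁, a * n = n * a → ∀ k ∈ K, n * k = k * n)
    (h2 : ∀ n ∈ N₂, a * n = n * a → ∀ k ∈ K, n * k = k * n) : K = ⊥ := by
  apply eq_bot_of_commutators_central hperf
  intro x hx y hy k hk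
  obtain ⟨x₁, hx₁, x₂, hx₂, rfl⟩ := Layer.mem_sup_of_commute hcomm (hKle hx)
  obtain ⟨y₁, hy₁, y₂, hy₂, rfl⟩ := Layer.mem_sup_of_commute hcomm (hKle hy)
  -- the twist of each component is central
  have key : ∀ u₁ ∈ N₁, ∀ u₂ ∈ N₂, a * (u₁ * u₂) = (u₁ * u₂) * a →
      ∃ z ∈ N₁ ⊓ N₂, a * u₁ * a⁻¹ = u₁ * z ∧ a * u₂ * a⁻¹ = z⁻¹ * u₂ := by
    intro u₁ hu₁ u₂ hu₂ hu
    have e : (a * u₁ * a⁻¹) * (a * u₂ * a⁻¹) = u₁ * u₂ := by
      have : (a * u₁ * a⁻¹) * (a * u₂ * a⁻¹) = a * (u₁ * u₂) * a⁻¹ := by group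
      rw [this, hu]; group
    have ez : u₁⁻¹ * (a * u₁ * a⁻¹) = u₂ * (a * u₂ * a⁻¹)⁻¹ := by
      rw [eq_mul_inv_of_mul_eq e]; group
    refine ⟨u₁⁻¹ * (a * u₁ * a⁻¹), mem_inf.2 ⟨mul_mem (inv_mem hu₁) (hN₁ _ hu₁), ?_⟩, ?_, ?_⟩
    · rw [ez]; exact mul_mem hu₂ (inv_mem (hN₂ _ hu₂))
    · rw [← mul_assoc, mul_inv_cancel, one_mul]
    · rw [ez]; group
  obtain ⟨z, hz, hzx₁, hzx₂⟩ := key x₁ hx₁ x₂ hx₂ (hKa _ hx)
  obtain ⟨w, hw, hwy₁, hwy₂⟩ := key y₁ hy₁ y₂ hy₂ (hKa _ hy)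
  have hz1 := (mem_inf.1 hz).1
  have hz2 := (mem_inf.1 hz).2
  have hw1 := (mem_inf.1 hw).1
  have hw2 := (mem_inf.1 hw).2
  -- commutators of the components are centralized by `a`
  have hc1 : a * ⁅x₁, y₁⁆ = ⁅x₁, y₁⁆ * a := by
    have e : a * ⁅x₁, y₁⁆ * a⁻¹ = ⁅a * x₁ * a⁻¹, a * y₁ * a⁻¹⁆ := by
      rw [commutatorElement_def, commutatorElement_def]; group
    have e2 : ⁅a * x₁ * a⁻¹, a * y₁ * a⁻¹⁆ = ⁅x₁, y₁⁆ := by
      rw [hzx₁, hwy₁]
      have cz : ∀ n ∈ N₁, Commute n z := fun n hn => hcomm n hn z hz2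
      have cw : ∀ n ∈ N₁, Commute n w := fun n hn => hcomm n hn w hw2
      have := commutator_mul_mul (x₁ := x₁) (x₂ := z) (y₁ := y₁) (y₂ := w)
        (cw x₁ hx₁).eq (cz y₁ hy₁).symm.eq (cz x₁ hx₁).eq (cw y₁ hy₁).eq
      rw [this]
      have : ⁅z, w⁆ = 1 := by
        rw [commutatorElement_eq_one_iff_commute]
        exact cw z hz1
      rw [this, mul_one]
    rw [e2] at e
    exact mul_inv_eq_iff_eq_mul.1 e
  have hc2 : a * ⁅x₂, y₂⁆ = ⁅x₂, y₂⁆ * a := by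
    have e : a * ⁅x₂, y₂⁆ * a⁻¹ = ⁅a * x₂ * a⁻¹, a * y₂ * a⁻¹⁆ := by
      rw [commutatorElement_def, commutatorElement_def]; group
    have e2 : ⁅a * x₂ * a⁻¹, a * y₂ * a⁻¹⁆ = ⁅x₂, y₂⁆ := by
      rw [hzx₂, hwy₂]
      have cz : ∀ n ∈ N₂, Commute z⁻¹ n := fun n hn => (hcomm z⁻¹ (inv_mem hz1) n hn)
      have cw : ∀ n ∈ N₂, Commute w⁻¹ n := fun n hn => (hcomm w⁻¹ (inv_mem hw1) n hn)
      have := commutator_mul_mul (x₁ := z⁻¹) (x₂ := x₂) (y₁ := w⁻¹) (y₂ := y₂)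
        (cz y₂ hy₂).eq (cw x₂ hx₂).symm.eq (cz x₂ hx₂).eq (cw y₂ hy₂).eq
      rw [this]
      have : ⁅z⁻¹, w⁻¹⁆ = 1 := by
        rw [commutatorElement_eq_one_iff_commute]
        exact cz w⁻¹ (inv_mem hw2)
      rw [this, one_mul]
    rw [e2] at e
    exact mul_inv_eq_iff_eq_mul.1 e
  have hm1 : ⁅x₁, y₁⁆ ∈ N₁ := by
    rw [commutatorElement_def]
    exact mul_mem (mul_mem (mul_mem hx₁ hy₁) (inv_mem hx₁)) (inv_mem hy₁)
  have hm2 : ⁅x₂, y₂⁆ ∈ N₂ := by
    rw [commutatorElement_def]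
    exact mul_mem (mul_mem (mul_mem hx₂ hy₂) (inv_mem hx₂)) (inv_mem hy₂)
  rw [commutator_mul_mul (hcomm x₁ hx₁ y₂ hy₂) (hcomm y₁ hy₁ x₂ hx₂).symm
    (hcomm x₁ hx₁ x₂ hx₂) (hcomm y₁ hy₁ y₂ hy₂)]
  rw [mul_assoc, h2 _ hm2 hc2 k hk, ← mul_assoc, h1 _ hm1 hc1 k hk, mul_assoc]

end basic

section layer

variable {H : Type u} [Group H] [Finite H]

/-- dichotomy: a component `K` of `C_H(a)` and a `K`-invariant subgroup `N` -/
theorem dich {a : H} {K : Subgroup H} (hKa : K ≤ centralizer ({a} : Set H))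
    (hK : Cfsg.IsComponent (K.subgroupOf (centralizer ({a} : Set H)))) (N : Subgroup H)
    (hN : K ≤ normalizer (N : Set H)) :
    K ≤ N ∨ ∀ n ∈ N, a * n = n * a → ∀ k ∈ K, n * k = k * n := by
  have hLT : K.subgroupOf (centralizer ({a} : Set H)) ≤
      normalizer ((N.subgroupOf (centralizer ({a} : Set H)) : Subgroup _) : Set _) := by
    intro k hk
    rw [mem_subgroupOf] at hk
    rw [mem_normalizer_iff]
    intro n
    rw [mem_subgroupOf, mem_subgroupOf]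
    exact (mem_normalizer_iff.1 (hN hk)) n
  rcases Cfsg.Agent.Lib.Helper22.CompInv.component_le_or_commutator_eq_bot hK hLT with h | h
  · left
    exact Comp.le_of_subgroupOf_le hKa h
  · right
    intro n hn hna k hk
    rw [Subgroup.commutator_eq_bot_iff_le_centralizer] at h
    have hnC : n ∈ centralizer ({a} : Set H) := by
      rw [mem_centralizer_iff]; intro y hy; rw [Set.mem_singleton_iff] at hy; rw [hy]; exact hna
    have hkC := hKa hk
    have h3 := h (show (⟨k, hkC⟩ : centralizer ({a} : Set H)) ∈ K.subgroupOf _ from by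
      rw [mem_subgroupOf]; exact hk)
    rw [mem_centralizer_iff] at h3
    have h4 := h3 ⟨n, hnC⟩ (by rw [SetLike.mem_coe, mem_subgroupOf]; exact hn)
    exact congrArg Subtype.val h4

/-- `pr a D = D ⊔ D^a` -/
abbrev pr (a : H) (D : Subgroup H) : Subgroup H := D ⊔ cm a D

omit [Finite H] in
theorem mem_normalizer_finset_sup {ι : Type*} (s : Finset ι) (f : ι → Subgroup H) (x : H)
    (h : ∀ i ∈ s, x ∈ normalizer (f i : Set H)) :
    x ∈ normalizer ((s.sup f : Subgroup H) : Set H) := by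
  classical
  induction s using Finset.induction_on with
  | empty =>
    rw [Finset.sup_empty, mem_normalizer_iff]
    intro n
    rw [mem_bot, mem_bot]
    constructor
    · intro hn; rw [hn]; group
    · intro hn
      have : n = x⁻¹ * (x * n * x⁻¹) * x := by group
      rw [this, hn]; group
  | insert i s hi ih =>
    rw [Finset.sup_insert]
    exact LB2.mem_normalizer_sup (h i (Finset.mem_insert_self i s))
      (ih (fun j hj => h j (Finset.mem_insert_of_mem hj)))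

theorem exists_le_pr_aux {a : H} (ha : a * a = 1) {K : Subgroup H}
    (hKa : K ≤ centralizer ({a} : Set H))
    (hK : Cfsg.IsComponent (K.subgroupOf (centralizer ({a} : Set H))))
    (hKE : K ≤ Cfsg.layer H) (s : Finset (Subgroup H)) :
    (∀ D ∈ s, Cfsg.IsComponent D) → K ≤ s.sup (pr a) → ∃ D ∈ s, K ≤ pr a D := by
  classical
  have hKq : Cfsg.IsQuasisimple ↥K := Quasi.of_mulEquiv (subgroupOfEquivOfLe hKa) hK.2
  have hperf : ⁅K, K⁆ = K := Comp.commutator_self hKq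
  have hKne : K ≠ ⊥ := Comp.ne_bot_of_quasisimple hKq
  have hcmcm : ∀ D : Subgroup H, cm a (cm a D) = D := by
    intro D; rw [← cm_mul, ha, cm_one]
  induction s using Finset.induction_on with
  | empty =>
    intro _ hle
    rw [Finset.sup_empty, le_bot_iff] at hle
    exact absurd hle hKne
  | insert D₀ s hD₀ ih =>
    intro hcomp hle
    rw [Finset.sup_insert] at hle
    have hs : ∀ D ∈ s, Cfsg.IsComponent D := fun D hD => hcomp D (Finset.mem_insert_of_mem hD)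
    have hD₀c : Cfsg.IsComponent D₀ := hcomp D₀ (Finset.mem_insert_self _ _)
    by_cases hcase : D₀ ∈ s ∨ cm a D₀ ∈ s
    · have hle' : pr a D₀ ≤ s.sup (pr a) := by
        rcases hcase with h | h
        · exact Finset.le_sup (f := pr a) h
        · have h5 := Finset.le_sup (f := pr a) h
          refine le_trans ?_ h5
          show D₀ ⊔ cm a D₀ ≤ cm a D₀ ⊔ cm a (cm a D₀)
          rw [hcmcm, sup_comm]
      obtain ⟨D, hD, hKD⟩ := ih hs (hle.trans (sup_le hle' le_rfl))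
      exact ⟨D, Finset.mem_insert_of_mem hD, hKD⟩
    · rw [not_or] at hcase
      obtain ⟨hc1, hc2⟩ := hcase
      have hcen : s.sup (pr a) ≤ centralizer ((pr a D₀ : Subgroup H) : Set H) := by
        apply Finset.sup_le
        intro D hD
        have hDc := hs D hD
        have n1 : D₀ ≠ D := fun h => hc1 (h ▸ hD)
        have n2 : cm a D₀ ≠ D := fun h => hc2 (h ▸ hD)
        have n3 : D₀ ≠ cm a D := fun h => hc2 (by rw [h, hcmcm]; exact hD)
        have n4 : cm a D₀ ≠ cm a D := fun h => hc1 (by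
          have h6 := congrArg (cm a) h
          rw [hcmcm, hcmcm] at h6
          rw [h6]; exact hD)
        have e1 := Comp.components_commute D₀ D hD₀c hDc n1
        have e2 := Comp.components_commute (cm a D₀) D (isComponent_cm hD₀c a) hDc n2
        have e3 := Comp.components_commute D₀ (cm a D) hD₀c (isComponent_cm hDc a) n3
        have e4 := Comp.components_commute (cm a D₀) (cm a D) (isComponent_cm hD₀c a)
          (isComponent_cm hDc a) n4
        rw [Subgroup.commutator_eq_bot_iff_le_centralizer] at e1 e2 e3 e4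
        rw [Subgroup.le_centralizer_iff]
        apply sup_le
        · rw [Subgroup.le_centralizer_iff]
          exact sup_le (Subgroup.le_centralizer_iff.1 e1) (Subgroup.le_centralizer_iff.1 e3)
        · rw [Subgroup.le_centralizer_iff]
          exact sup_le (Subgroup.le_centralizer_iff.1 e2) (Subgroup.le_centralizer_iff.1 e4)
      have hcomm : ∀ x ∈ pr a D₀, ∀ y ∈ s.sup (pr a), x * y = y * x := by
        intro x hx y hy
        have h7 := hcen hy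
        rw [mem_centralizer_iff] at h7
        exact h7 x hx
      have hKn : ∀ D, Cfsg.IsComponent D →
          K ≤ normalizer ((pr a D : Subgroup H) : Set H) := by
        intro D hD k hk
        exact LB2.mem_normalizer_sup (Layer.layer_le_normalizer hD (hKE hk))
          (Layer.layer_le_normalizer (isComponent_cm hD a) (hKE hk))
      have hKn2 : K ≤ normalizer ((s.sup (pr a) : Subgroup H) : Set H) := by
        intro k hk
        exact mem_normalizer_finset_sup s (pr a) k (fun D hD => hKn D (hs D hD) hk)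
      rcases dich hKa hK (pr a D₀) (hKn D₀ hD₀c) with h1 | h1
      · exact ⟨D₀, Finset.mem_insert_self _ _, h1⟩
      rcases dich hKa hK (s.sup (pr a)) hKn2 with h2 | h2
      · obtain ⟨D, hD, hKD⟩ := ih hs h2
        exact ⟨D, Finset.mem_insert_of_mem hD, hKD⟩
      exfalso
      apply hKne
      have hainv : ∀ D : Subgroup H, a ∈ normalizer ((pr a D : Subgroup H) : Set H) := by
        intro D
        rw [← cm_eq_iff]
        show (D ⊔ cm a D).map (MulAut.conj a).toMonoidHom = D ⊔ cm a D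
        rw [Subgroup.map_sup]
        show cm a D ⊔ cm a (cm a D) = _
        rw [hcmcm, sup_comm]
      have hainv2 : a ∈ normalizer ((s.sup (pr a) : Subgroup H) : Set H) :=
        mem_normalizer_finset_sup s (pr a) a (fun D _ => hainv D)
      refine split2 (a := a) (N₁ := pr a D₀) (N₂ := s.sup (pr a)) ?_ hperf ?_ ?_ hcomm hle h1 h2
      · intro k hk
        have h8 := hKa hk
        rw [mem_centralizer_iff] at h8
        exact h8 a rfl
      · intro n hn; exact (mem_normalizer_iff.1 (hainv D₀) n).1 hn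
      · intro n hn; exact (mem_normalizer_iff.1 hainv2 n).1 hn

/-- **Orbit lemma.** A component `K` of `C_H(a)`, `a² = 1`, which lies in `E(H)`, lies in
`D ⊔ D^a` for a component `D` of `H`. -/
theorem exists_le_pr {a : H} (ha : a * a = 1) {K : Subgroup H}
    (hKa : K ≤ centralizer ({a} : Set H))
    (hK : Cfsg.IsComponent (K.subgroupOf (centralizer ({a} : Set H))))
    (hKE : K ≤ Cfsg.layer H) : ∃ D, Cfsg.IsComponent D ∧ K ≤ D ⊔ cm a D := by
  classical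
  have hfin : Set.Finite {D : Subgroup H | Cfsg.IsComponent D} := Set.toFinite _
  have hmem : ∀ D, D ∈ hfin.toFinset ↔ Cfsg.IsComponent D := by
    intro D; rw [Set.Finite.mem_toFinset]; rfl
  obtain ⟨D, hD, hKD⟩ := exists_le_pr_aux ha hKa hK hKE hfin.toFinset
    (fun D hD => (hmem D).1 hD) (by
      refine hKE.trans ?_
      apply sSup_le
      intro D hD
      exact le_trans le_sup_left (Finset.le_sup (f := pr a) ((hmem D).2 hD)))
  exact ⟨D, (hmem D).1 hD, hKD⟩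

end layer

end Cfsg.Agent.Lib.Helper21.MC1
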