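import Cfsg.Agent.Lib.Helper21.MC1

set_option autoImplicit false

/-!
The diagonal case: a perfect `K ≤ C(a)` inside `D ⊔ D^a` (`D ≠ D^a` components) with
`|D| ≤ |K|` is the diagonal `{d * d^a}`; consequences for elementary abelian `2`-subgroups.
-/

namespace Cfsg.Agent.Lib.Helper21.MC2

open Subgroup
open scoped commutatorElement
open Cfsg.Agent.Lib.Helper34.LBal2

universe u

variable {H : Type u} [Group H]

/-- A perfect subgroup inside `R·Z`, `Z` abelian and commuting with `R`, lies in `R`. -/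
theorem perfect_le_of_le_sup_central {B R Z : Subgroup H} (hB : ⁅B, B⁆ = B)
    (hRZ : ∀ r ∈ R, ∀ z ∈ Z, r * z = z * r) (hZ : ∀ z ∈ Z, ∀ w ∈ Z, z * w = w * z)
    (h : B ≤ R ⊔ Z) : B ≤ R := by
  rw [← hB, Subgroup.commutator_le]
  intro x hx y hy
  obtain ⟨r, hr, z, hz, rfl⟩ := Layer.mem_sup_of_commute hRZ (h hx)
  obtain ⟨r', hr', z', hz', rfl⟩ := Layer.mem_sup_of_commute hRZ (h hy)
  rw [MC1.commutator_mul_mul (hRZ r hr z' hz') (hRZ r' hr' z hz).symm (hRZ r hr z hz)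
    (hRZ r' hr' z' hz')]
  have h1 : ⁅z, z'⁆ = 1 := by
    rw [commutatorElement_eq_one_iff_commute]; exact hZ z hz z' hz'
  rw [h1, mul_one, commutatorElement_def]
  exact mul_mem (mul_mem (mul_mem hr hr') (inv_mem hr)) (inv_mem hr')

/-- the diagonal map `d ↦ d * d^a` -/
def delta (a : H) (D : Subgroup H)
    (hc : ∀ x ∈ D, ∀ y ∈ D, x * (a * y * a⁻¹) = a * y * a⁻¹ * x) : D →* H where
  toFun d := (d : H) * (a * d * a⁻¹)
  map_one' := by simp
  map_mul' x y := by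
    have h := hc y y.2 x x.2
    show ((x : H) * y) * (a * (x * y) * a⁻¹) = x * (a * x * a⁻¹) * (y * (a * y * a⁻¹))
    calc ((x : H) * y) * (a * (x * y) * a⁻¹)
        = x * (y * (a * x * a⁻¹)) * (a * y * a⁻¹) := by group
      _ = x * (a * x * a⁻¹) * (y * (a * y * a⁻¹)) := by rw [h]; group

theorem diag_struct [Finite H] {a : H} (ha : a * a = 1) {D K : Subgroup H}
    (hc : ∀ x ∈ D, ∀ y ∈ cm a D, x * y = y * x)
    (hKa : ∀ k ∈ K, a * k = k * a) (hperf : ⁅K, K⁆ = K) (hKle : K ≤ D ⊔ cm a D)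
    (hcard : Nat.card D ≤ Nat.card K) :
    (∀ d ∈ D, d * (a * d * a⁻¹) ∈ K) ∧
    (∀ d ∈ D, ∀ d' ∈ D, d * (a * d * a⁻¹) = d' * (a * d' * a⁻¹) → d = d') ∧
    (∀ k ∈ K, ∃ d ∈ D, k = d * (a * d * a⁻¹)) := by
  have hc' : ∀ x ∈ D, ∀ y ∈ D, x * (a * y * a⁻¹) = a * y * a⁻¹ * x :=
    fun x hx y hy => hc x hx _ (conj_mem_cm hy)
  have hainv : a⁻¹ = a := inv_eq_of_mul_eq_one_left ha
  obtain ⟨δ, hδ⟩ : ∃ δ : D →* H, δ = delta a D hc' := ⟨_, rfl⟩
  have hδa : ∀ d : D, δ d = (d : H) * (a * d * a⁻¹) := by intro d; rw [hδ]; rfl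
  obtain ⟨Z, hZ⟩ : ∃ Z : Subgroup H, Z = D ⊓ cm a D := ⟨_, rfl⟩
  have hZD : ∀ z ∈ Z, z ∈ D := fun z hz => by rw [hZ] at hz; exact (mem_inf.1 hz).1
  have hZDa : ∀ z ∈ Z, z ∈ cm a D := fun z hz => by rw [hZ] at hz; exact (mem_inf.1 hz).2
  have hRZ : ∀ r ∈ δ.range, ∀ z ∈ Z, r * z = z * r := by
    rintro _ ⟨d, rfl⟩ z hz
    rw [hδa]
    have e1 : (d : H) * z = z * d := hc d d.2 z (hZDa z hz)
    have e2 : (a * d * a⁻¹) * z = z * (a * d * a⁻¹) :=
      (hc z (hZD z hz) _ (conj_mem_cm d.2)).symm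
    rw [mul_assoc, e2, ← mul_assoc, e1, mul_assoc]
  have hZZ : ∀ z ∈ Z, ∀ w ∈ Z, z * w = w * z :=
    fun z hz w hw => hc z (hZD z hz) w (hZDa w hw)
  have hKRZ : K ≤ δ.range ⊔ Z := by
    intro k hk
    obtain ⟨d, hd, e, he, rfl⟩ := Layer.mem_sup_of_commute hc (hKle hk)
    rw [mem_cm] at he
    obtain ⟨e', he', hee'⟩ : ∃ e' ∈ D, e = a * e' * a⁻¹ := ⟨a⁻¹ * e * a, he, by group⟩
    subst hee'
    have hk' := hKa _ hk
    have h1 : (a * d * a⁻¹) * e' = d * (a * e' * a⁻¹) := by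
      have h0 : (a * d * a⁻¹) * e' = a * (d * (a * e' * a⁻¹)) * a⁻¹ := by
        rw [hainv]
        have h00 : a * (d * (a * e' * a)) * a = a * d * a * e' * (a * a) := by group
        rw [h00, ha, mul_one]
      rw [h0, hk']; group
    have h2 : e' * (a * d * a⁻¹) = d * (a * e' * a⁻¹) := by rw [hc' e' he' d hd]; exact h1
    have hz1 : d⁻¹ * e' ∈ D := mul_mem (inv_mem hd) he'
    have hz2 : d⁻¹ * e' ∈ cm a D := by
      have h4 : d⁻¹ * e' = a * (e' * d⁻¹) * a⁻¹ := by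
        have h3 : d⁻¹ * e' = (a * e' * a⁻¹) * (a * d * a⁻¹)⁻¹ := by
          rw [eq_mul_inv_iff_mul_eq, mul_assoc, h2, ← mul_assoc, inv_mul_cancel, one_mul]
        rw [h3]; group
      rw [h4]; exact conj_mem_cm (mul_mem he' (inv_mem hd))
    have hz' : a * (d⁻¹ * e') * a⁻¹ ∈ Z := by
      rw [hZ]; refine mem_inf.2 ⟨?_, conj_mem_cm hz1⟩
      have h5 := mem_cm.1 hz2
      rw [hainv] at h5 ⊢
      exact h5
    have h6 : d * (a * e' * a⁻¹) = δ ⟨d, hd⟩ * (a * (d⁻¹ * e') * a⁻¹) := by rw [hδa]; group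
    rw [h6]
    exact mul_mem (mem_sup_left ⟨_, rfl⟩) (mem_sup_right hz')
  have hKR : K ≤ δ.range := perfect_le_of_le_sup_central hperf hRZ hZZ hKRZ
  have hc1 : Nat.card δ.range ≤ Nat.card D :=
    Nat.card_le_card_of_surjective _ δ.rangeRestrict_surjective
  have hc2 : Nat.card K ≤ Nat.card δ.range := Subgroup.card_le_of_le hKR
  have hKeq : K = δ.range := Subgroup.eq_of_le_of_card_ge hKR (by omega)
  have hbij : Function.Bijective δ.rangeRestrict :=
    (Nat.bijective_iff_surjective_and_card _).2 ⟨δ.rangeRestrict_surjective, by omega⟩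
  refine ⟨?_, ?_, ?_⟩
  · intro d hd; rw [hKeq]; exact ⟨⟨d, hd⟩, hδa _⟩
  · intro d hd d' hd' h
    have h7 : δ.rangeRestrict ⟨d, hd⟩ = δ.rangeRestrict ⟨d', hd'⟩ := by
      apply Subtype.ext
      show δ ⟨d, hd⟩ = δ ⟨d', hd'⟩
      rw [hδa, hδa]; exact h
    exact congrArg Subtype.val (hbij.1 h7)
  · intro k hk
    rw [hKeq] at hk
    obtain ⟨d, rfl⟩ := hk
    exact ⟨d, d.2, hδa d⟩

theorem diag_perm [Finite H] {a c : H} (ha : a * a = 1) {D K : Subgroup H}
    (hD : Cfsg.IsComponent D) (hperf : ⁅K, K⁆ = K) (hKne : K ≠ ⊥) (hKle : K ≤ D ⊔ cm a D)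
    (hca : c * a = a * c) (hcK : ∀ k ∈ K, c * k = k * c) : cm c D = D ∨ cm c D = cm a D := by
  by_contra hcon
  rw [not_or] at hcon
  obtain ⟨n1, n2⟩ := hcon
  have hcmcm : ∀ D : Subgroup H, cm a (cm a D) = D := by intro D; rw [← cm_mul, ha, cm_one]
  have hsw : cm c (cm a D) = cm a (cm c D) := by rw [← cm_mul, ← cm_mul, hca]
  have n3 : cm c (cm a D) ≠ D := by
    intro h; rw [hsw] at h
    apply n2
    have h1 := congrArg (cm a) h; rw [hcmcm] at h1; exact h1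
  have n4 : cm c (cm a D) ≠ cm a D := by
    intro h; rw [hsw] at h
    apply n1
    have h1 := congrArg (cm a) h; rw [hcmcm, hcmcm] at h1; exact h1
  have hDa := isComponent_cm hD a
  have hDc := isComponent_cm hD c
  have hDac := isComponent_cm hDa c
  have e1 := Comp.components_commute _ _ hDc hD n1
  have e2 := Comp.components_commute _ _ hDc hDa n2
  have e3 := Comp.components_commute _ _ hDac hD n3
  have e4 := Comp.components_commute _ _ hDac hDa n4
  rw [Subgroup.commutator_eq_bot_iff_le_centralizer] at e1 e2 e3 e4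
  have hcen : cm c D ⊔ cm c (cm a D) ≤ centralizer ((D ⊔ cm a D : Subgroup H) : Set H) := by
    rw [Subgroup.le_centralizer_iff]
    apply sup_le
    · rw [Subgroup.le_centralizer_iff]; exact sup_le e1 e3
    · rw [Subgroup.le_centralizer_iff]; exact sup_le e2 e4
  have hK2 : K ≤ cm c D ⊔ cm c (cm a D) := by
    intro k hk
    have h1 : k ∈ cm c (D ⊔ cm a D) := by
      rw [mem_cm]
      have h2 : c⁻¹ * k * c = k := by
        rw [mul_assoc, ← hcK k hk, ← mul_assoc, inv_mul_cancel, one_mul]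
      rw [h2]; exact hKle hk
    have h5 : cm c (D ⊔ cm a D) = cm c D ⊔ cm c (cm a D) := Subgroup.map_sup _ _ _
    rw [h5] at h1; exact h1
  apply hKne
  apply MC1.eq_bot_of_commutators_central hperf
  intro x hx y hy k hk
  have hxy : ⁅x, y⁆ ∈ K := by
    rw [commutatorElement_def]
    exact mul_mem (mul_mem (mul_mem hx hy) (inv_mem hx)) (inv_mem hy)
  have h6 := hcen (hK2 hxy)
  rw [mem_centralizer_iff] at h6
  exact (h6 k (hKle hk)).symm

/-- **Diagonal case.** In the diagonal situation, with `B` elementary abelian containing `a`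
and centralizing `K`, and `A ≤ K` elementary abelian, there is an elementary abelian
`W ≤ C(D^a)` with `|B| * |A| ≤ 2 * |W|`. -/
theorem diag_contra [Finite H] {a : H} (ha : a * a = 1) {D K B A : Subgroup H}
    (hD : Cfsg.IsComponent D) (hne : cm a D ≠ D)
    (hKa : ∀ k ∈ K, a * k = k * a) (hperf : ⁅K, K⁆ = K) (hKne : K ≠ ⊥)
    (hKle : K ≤ D ⊔ cm a D) (hcard : Nat.card D ≤ Nat.card K)
    (hBK : ∀ c ∈ B, ∀ k ∈ K, c * k = k * c) (hBcomm : ∀ c ∈ B, ∀ c' ∈ B, c * c' = c' * c)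
    (hBexp : ∀ c ∈ B, c * c = 1) (haB : a ∈ B)
    (hAK : A ≤ K) (hAcomm : ∀ x ∈ A, ∀ y ∈ A, x * y = y * x) (hAexp : ∀ x ∈ A, x * x = 1) :
    Nat.card D = Nat.card K ∧
    ∃ W : Subgroup H, W ≤ centralizer ((cm a D : Subgroup H) : Set H) ∧
      (∀ x ∈ W, ∀ y ∈ W, x * y = y * x) ∧ (∀ x ∈ W, x * x = 1) ∧
      Nat.card B * Nat.card A ≤ 2 * Nat.card W := by
  classical
  have hDa := isComponent_cm hD a
  have hcc := Comp.components_commute D (cm a D) hD hDa (Ne.symm hne)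
  rw [Subgroup.commutator_eq_bot_iff_le_centralizer] at hcc
  have hc : ∀ x ∈ D, ∀ y ∈ cm a D, x * y = y * x := by
    intro x hx y hy
    have h1 := hcc hx; rw [mem_centralizer_iff] at h1
    exact (h1 y hy).symm
  obtain ⟨hδK, hinj, hsurj⟩ := diag_struct ha hc hKa hperf hKle hcard
  have hmul : ∀ d ∈ D, ∀ d' ∈ D, (d * d') * (a * (d * d') * a⁻¹)
      = (d * (a * d * a⁻¹)) * (d' * (a * d' * a⁻¹)) := by
    intro d hd d' hd'
    have h := hc d' hd' _ (conj_mem_cm (y := a) hd)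
    calc (d * d') * (a * (d * d') * a⁻¹)
        = d * (d' * (a * d * a⁻¹)) * (a * d' * a⁻¹) := by group
      _ = (d * (a * d * a⁻¹)) * (d' * (a * d' * a⁻¹)) := by rw [h]; group
  have hone : ∀ d ∈ D, d * (a * d * a⁻¹) = 1 → d = 1 := by
    intro d hd h
    apply hinj d hd 1 D.one_mem
    rw [h]; group
  have hperm : ∀ c ∈ B, cm c D = D ∨ cm c D = cm a D := fun c hc' =>
    diag_perm ha hD hperf hKne hKle (hBcomm c hc' a haB) (hBK c hc')
  obtain ⟨B₁, hB₁⟩ : ∃ B₁ : Subgroup H, B₁ = B ⊓ normalizer (D : Set H) := ⟨_, rfl⟩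
  have hB₁B : ∀ c ∈ B₁, c ∈ B := fun c hc' => by rw [hB₁] at hc'; exact (mem_inf.1 hc').1
  have hB₁N : ∀ c ∈ B₁, c ∈ normalizer (D : Set H) :=
    fun c hc' => by rw [hB₁] at hc'; exact (mem_inf.1 hc').2
  have hB₁D : ∀ c ∈ B₁, ∀ d ∈ D, c * d = d * c := by
    intro c hc' d hd
    have hcd : c * d * c⁻¹ ∈ D := (mem_normalizer_iff.1 (hB₁N c hc') d).1 hd
    have hca : c * a = a * c := hBcomm c (hB₁B c hc') a haB
    have e : (c * d * c⁻¹) * (a * (c * d * c⁻¹) * a⁻¹) = d * (a * d * a⁻¹) := by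
      have e1 : (c * d * c⁻¹) * (a * (c * d * c⁻¹) * a⁻¹)
          = c * (d * (a * d * a⁻¹)) * c⁻¹ := by
        have e0 : a * (c * d * c⁻¹) * a⁻¹ = c * (a * d * a⁻¹) * c⁻¹ := by
          have h1 : a * c = c * a := hca.symm
          have h2 : c⁻¹ * a⁻¹ = a⁻¹ * c⁻¹ := by rw [← mul_inv_rev, ← mul_inv_rev, h1]
          calc a * (c * d * c⁻¹) * a⁻¹ = (a * c) * d * (c⁻¹ * a⁻¹) := by group
            _ = c * (a * d * a⁻¹) * c⁻¹ := by rw [h1, h2]; group
        rw [e0]; group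
      rw [e1, hBK c (hB₁B c hc') _ (hδK d hd)]; group
    exact mul_inv_eq_iff_eq_mul.1 (hinj _ hcd d hd e)
  obtain ⟨U₀, hU₀⟩ : ∃ U₀ : Subgroup H, ∀ u, u ∈ U₀ ↔ u ∈ D ∧ u * (a * u * a⁻¹) ∈ A := by
    have hm : ∀ x y : H, (x ∈ D ∧ x * (a * x * a⁻¹) ∈ A) → (y ∈ D ∧ y * (a * y * a⁻¹) ∈ A) →
        (x * y ∈ D ∧ (x * y) * (a * (x * y) * a⁻¹) ∈ A) := by
      rintro x y ⟨hx, hxA⟩ ⟨hy, hyA⟩
      refine ⟨mul_mem hx hy, ?_⟩
      rw [hmul x hx y hy]; exact mul_mem hxA hyA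
    have h1 : ((1 : H) ∈ D ∧ (1 : H) * (a * 1 * a⁻¹) ∈ A) := by
      refine ⟨D.one_mem, ?_⟩
      have h1 : (1 : H) * (a * 1 * a⁻¹) = 1 := by group
      rw [h1]; exact A.one_mem
    have hi : ∀ x : H, (x ∈ D ∧ x * (a * x * a⁻¹) ∈ A) →
        (x⁻¹ ∈ D ∧ x⁻¹ * (a * x⁻¹ * a⁻¹) ∈ A) := by
      rintro x ⟨hx, hxA⟩
      refine ⟨inv_mem hx, ?_⟩
      have h1 := hmul x hx x⁻¹ (inv_mem hx)
      have h2 : (x * x⁻¹) * (a * (x * x⁻¹) * a⁻¹) = 1 := by group
      rw [h2] at h1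
      have h3 : x⁻¹ * (a * x⁻¹ * a⁻¹) = (x * (a * x * a⁻¹))⁻¹ :=
        eq_inv_of_mul_eq_one_right h1.symm
      rw [h3]; exact inv_mem hxA
    exact ⟨{ carrier := {u | u ∈ D ∧ u * (a * u * a⁻¹) ∈ A}
             mul_mem' := fun {x y} hx hy => hm x y hx hy
             one_mem' := h1
             inv_mem' := fun {x} hx => hi x hx }, fun u => Iff.rfl⟩
  have hU₀D : ∀ u ∈ U₀, u ∈ D := fun u hu => ((hU₀ u).1 hu).1
  have hU₀exp : ∀ u ∈ U₀, u * u = 1 := by
    intro u hu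
    obtain ⟨hd, hA⟩ := (hU₀ u).1 hu
    apply hone _ (mul_mem hd hd)
    rw [hmul u hd u hd]; exact hAexp _ hA
  have hU₀comm : ∀ u ∈ U₀, ∀ v ∈ U₀, u * v = v * u := by
    intro u hu v hv
    obtain ⟨hd, hA⟩ := (hU₀ u).1 hu
    obtain ⟨hd', hA'⟩ := (hU₀ v).1 hv
    apply hinj _ (mul_mem hd hd') _ (mul_mem hd' hd)
    rw [hmul u hd v hd', hmul v hd' u hd]; exact hAcomm _ hA _ hA'
  have hcardA : Nat.card A ≤ Nat.card U₀ := by
    let f : U₀ → A := fun u => ⟨(u : H) * (a * u * a⁻¹), ((hU₀ u).1 u.2).2⟩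
    apply Nat.card_le_card_of_surjective f
    rintro ⟨x, hx⟩
    obtain ⟨d, hd, rfl⟩ := hsurj x (hAK hx)
    exact ⟨⟨d, (hU₀ d).2 ⟨hd, hx⟩⟩, rfl⟩
  have hB₁U : ∀ c ∈ B₁, ∀ u ∈ U₀, c * u = u * c :=
    fun c hc' u hu => hB₁D c hc' u (hU₀D u hu)
  have hcardKD : Nat.card K ≤ Nat.card D := by
    let f : D → K := fun d => ⟨(d : H) * (a * d * a⁻¹), hδK d d.2⟩
    apply Nat.card_le_card_of_surjective f
    rintro ⟨x, hx⟩
    obtain ⟨d, hd, rfl⟩ := hsurj x hx
    exact ⟨⟨d, hd⟩, rfl⟩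
  refine ⟨le_antisymm hcard hcardKD, B₁ ⊔ U₀, ?_, ?_, ?_, ?_⟩
  · apply sup_le
    · intro c hc'
      rw [mem_centralizer_iff]
      intro e he
      rw [SetLike.mem_coe, mem_cm] at he
      have ca : Commute c a := hBcomm c (hB₁B c hc') a haB
      have cd : Commute c (a⁻¹ * e * a) := hB₁D c hc' _ he
      have h1 : Commute c (a * (a⁻¹ * e * a) * a⁻¹) := (ca.mul_right cd).mul_right ca.inv_right
      have h2 : a * (a⁻¹ * e * a) * a⁻¹ = e := by group
      rw [h2] at h1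
      exact h1.symm.eq
    · intro u hu
      rw [mem_centralizer_iff]
      intro e he
      exact (hc u (hU₀D u hu) e he).symm
  · intro x hx y hy
    obtain ⟨c, hc', u, hu, rfl⟩ := Layer.mem_sup_of_commute hB₁U hx
    obtain ⟨c', hc'', u', hu', rfl⟩ := Layer.mem_sup_of_commute hB₁U hy
    have e1 : Commute c c' := hBcomm c (hB₁B c hc') c' (hB₁B c' hc'')
    have e2 : Commute c u' := hB₁U c hc' u' hu'
    have e3 : Commute u c' := (hB₁U c' hc'' u hu).symm
    have e4 : Commute u u' := hU₀comm u hu u' hu'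
    exact ((e1.mul_right e2).mul_left (e3.mul_right e4)).eq
  · intro x hx
    obtain ⟨c, hc', u, hu, rfl⟩ := Layer.mem_sup_of_commute hB₁U hx
    have e2 : u * c = c * u := (hB₁U c hc' u hu).symm
    calc c * u * (c * u) = c * (u * c) * u := by group
      _ = (c * c) * (u * u) := by rw [e2]; group
      _ = 1 := by rw [hBexp c (hB₁B c hc'), hU₀exp u hu, one_mul]
  · have hcardB : Nat.card B ≤ 2 * Nat.card B₁ := by
      have hmem : ∀ c : B, (c : H) ∉ normalizer (D : Set H) → a * c ∈ B₁ := by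
        intro c hcn
        rw [hB₁]
        refine mem_inf.2 ⟨mul_mem haB c.2, ?_⟩
        rw [← cm_eq_iff, cm_mul]
        rcases hperm c c.2 with h | h
        · exact absurd (cm_eq_iff.1 h) hcn
        · rw [h, ← cm_mul, ha, cm_one]
      let f : B → Bool × B₁ := fun c =>
        if h : (c : H) ∈ normalizer (D : Set H) then
          (false, ⟨c, by rw [hB₁]; exact mem_inf.2 ⟨c.2, h⟩⟩)
        else (true, ⟨a * c, hmem c h⟩)
      have hf : Function.Injective f := by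
        intro c c' hcc'
        by_cases h : (c : H) ∈ normalizer (D : Set H) <;>
          by_cases h' : (c' : H) ∈ normalizer (D : Set H)
        · simp only [f, dif_pos h, dif_pos h'] at hcc'
          exact Subtype.ext (congrArg (fun p : Bool × B₁ => (p.2 : H)) hcc')
        · simp only [f, dif_pos h, dif_neg h'] at hcc'
          exact absurd (congrArg Prod.fst hcc') (by simp)
        · simp only [f, dif_neg h, dif_pos h'] at hcc'
          exact absurd (congrArg Prod.fst hcc') (by simp)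
        · simp only [f, dif_neg h, dif_neg h'] at hcc'
          have h9 := congrArg (fun p : Bool × B₁ => (p.2 : H)) hcc'
          exact Subtype.ext (mul_left_cancel h9)
      have h10 := Nat.card_le_card_of_injective f hf
      have hb : Nat.card Bool = 2 := by rw [Nat.card_eq_fintype_card, Fintype.card_bool]
      rw [Nat.card_prod, hb] at h10
      exact h10
    have hcardW : Nat.card B₁ * Nat.card U₀ ≤ Nat.card (B₁ ⊔ U₀ : Subgroup H) := by
      let g : B₁ × U₀ → (B₁ ⊔ U₀ : Subgroup H) := fun p =>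
        ⟨(p.1 : H) * p.2, mul_mem (mem_sup_left p.1.2) (mem_sup_right p.2.2)⟩
      have hg : Function.Injective g := by
        rintro ⟨c, u⟩ ⟨c', u'⟩ h
        have h1 : (c : H) * u = c' * u' := congrArg Subtype.val h
        have hx : (c' : H)⁻¹ * c = u' * (u : H)⁻¹ := by
          rw [inv_mul_eq_iff_eq_mul, ← mul_assoc, ← h1, mul_inv_cancel_right]
        have hxB : (c' : H)⁻¹ * c ∈ B₁ := mul_mem (inv_mem c'.2) c.2
        have hxU : (c' : H)⁻¹ * c ∈ U₀ := by rw [hx]; exact mul_mem u'.2 (inv_mem u.2)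
        have hx1 : (c' : H)⁻¹ * c = 1 := by
          apply hone _ (hU₀D _ hxU)
          have hxa : a * ((c' : H)⁻¹ * c) * a⁻¹ = (c' : H)⁻¹ * c := by
            rw [hBcomm a haB _ (hB₁B _ hxB), mul_inv_cancel_right]
          rw [hxa]; exact hBexp _ (hB₁B _ hxB)
        have hcc : (c : H) = c' := (inv_mul_eq_one.1 hx1).symm
        have hu : (u : H) = u' := by
          rw [hcc] at h1; exact mul_left_cancel h1
        exact Prod.ext (Subtype.ext hcc) (Subtype.ext hu)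
      have h11 := Nat.card_le_card_of_injective g hg
      rw [Nat.card_prod] at h11
      exact h11
    calc Nat.card B * Nat.card A ≤ (2 * Nat.card B₁) * Nat.card U₀ :=
          Nat.mul_le_mul hcardB hcardA
      _ = 2 * (Nat.card B₁ * Nat.card U₀) := by ring
      _ ≤ 2 * Nat.card (B₁ ⊔ U₀ : Subgroup H) := Nat.mul_le_mul_left 2 hcardW

end Cfsg.Agent.Lib.Helper21.MC2
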