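import Cfsg.Agent.Lib.Helper21.MC2
import Cfsg.Agent.Lib.Helper23.TwoComp

set_option autoImplicit false

/-!
Maximal components of involution centralizers (S1305): a component `K` of `C_G(a)` of maximal
order (and maximal `2`-rank of `C_{C(a)}(K)`), with `m_2(K) ≥ 2`, is a component of `C_G(b)`
for each `b ≠ 1` in a maximal elementary abelian `2`-subgroup of `C_{C(a)}(K)`.
-/

namespace Cfsg.Agent.Lib.Helper21.MC3

open Subgroup
open scoped commutatorElement
open Cfsg.Agent.Lib.Helper34.LBal2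
open Cfsg.Agent.Lib.Helper76

universe u

section tools

variable {G : Type u} [Group G]

theorem elab_iff {A : Subgroup G} :
    Cfsg.IsElementaryAbelian 2 A ↔
      (∀ x ∈ A, ∀ y ∈ A, x * y = y * x) ∧ (∀ x ∈ A, x * x = 1) := by
  unfold Cfsg.IsElementaryAbelian
  rw [isMulCommutative_iff]
  constructor
  · rintro ⟨h1, h2⟩
    refine ⟨fun x hx y hy => congrArg Subtype.val (h1 ⟨x, hx⟩ ⟨y, hy⟩), fun x hx => ?_⟩
    rw [← pow_two]; exact h2 x hx
  · rintro ⟨h1, h2⟩
    refine ⟨fun x y => Subtype.ext (h1 x x.2 y y.2), fun x hx => ?_⟩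
    rw [pow_two]; exact h2 x hx

theorem prank_le_of_le {S W : Subgroup G} {k : ℕ} (h : Cfsg.PRankLE 2 k ↥S) (hWS : W ≤ S)
    (hc : ∀ x ∈ W, ∀ y ∈ W, x * y = y * x) (he : ∀ x ∈ W, x * x = 1) :
    Nat.card W ≤ 2 ^ k := by
  have h1 := h (W.subgroupOf S) (isMulCommutative_iff.2 ?_) ?_
  · rw [Nat.card_congr (subgroupOfEquivOfLe hWS).toEquiv] at h1; exact h1
  · rintro ⟨x, hx⟩ ⟨y, hy⟩
    rw [mem_subgroupOf] at hx hy
    apply Subtype.ext; apply Subtype.ext
    exact hc _ hx _ hy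
  · intro x hx
    rw [mem_subgroupOf] at hx
    apply Subtype.ext
    show (x : G) ^ 2 = 1
    rw [pow_two]; exact he _ hx

theorem prank_of_max {S : Subgroup G} {k : ℕ}
    (h : ∀ W : Subgroup G, W ≤ S → (∀ x ∈ W, ∀ y ∈ W, x * y = y * x) →
      (∀ x ∈ W, x * x = 1) → Nat.card W ≤ 2 ^ k) :
    Cfsg.PRankLE 2 k ↥S := by
  intro A hAc hAe
  have h1 := h (A.map S.subtype) ?_ ?_ ?_
  · rw [Subgroup.card_map_of_injective S.subtype_injective] at h1; exact h1
  · rintro _ ⟨x, _, rfl⟩; exact x.2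
  · rintro _ ⟨x, hx, rfl⟩ _ ⟨y, hy, rfl⟩
    have h0 := (isMulCommutative_iff.1 hAc) ⟨x, hx⟩ ⟨y, hy⟩
    have h00 : x * y = y * x := congrArg Subtype.val h0
    exact congrArg Subtype.val h00
  · rintro _ ⟨x, hx, rfl⟩
    have h2 := hAe x hx
    rw [pow_two] at h2
    exact congrArg Subtype.val h2

theorem isComponent_nested (Cb : Subgroup G) (a : G) (ha : a ∈ Cb)
    (K : Subgroup G) (hKa : K ≤ centralizer ({a} : Set G)) (hKb : K ≤ Cb)
    (hK : Cfsg.IsComponent (K.subgroupOf (centralizer ({a} : Set G)))) :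
    Cfsg.IsComponent
      ((K.subgroupOf Cb).subgroupOf (centralizer ({(⟨a, ha⟩ : Cb)} : Set Cb))) := by
  have hKq : Cfsg.IsQuasisimple ↥K := Quasi.of_mulEquiv (subgroupOfEquivOfLe hKa) hK.2
  have hle : K.subgroupOf Cb ≤ centralizer ({(⟨a, ha⟩ : Cb)} : Set Cb) := by
    intro k hk; rw [mem_subgroupOf] at hk
    rw [mem_centralizer_iff]; intro y hy; rw [Set.mem_singleton_iff] at hy; rw [hy]
    have h := hKa hk
    rw [mem_centralizer_iff] at h
    exact Subtype.ext (h a rfl)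
  refine ⟨?_, Quasi.of_mulEquiv
    ((subgroupOfEquivOfLe hle).trans (subgroupOfEquivOfLe hKb)).symm hKq⟩
  have hf : ∀ x : centralizer ({(⟨a, ha⟩ : Cb)} : Set Cb),
      (Cb.subtype.comp (centralizer ({(⟨a, ha⟩ : Cb)} : Set Cb)).subtype) x
        ∈ centralizer ({a} : Set G) := by
    intro x
    have h := x.2
    rw [mem_centralizer_iff] at h ⊢
    intro y hy; rw [Set.mem_singleton_iff] at hy; rw [hy]
    exact congrArg Subtype.val (h ⟨a, ha⟩ rfl)
  have h1 := hK.1.comap (MonoidHom.codRestrict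
    (Cb.subtype.comp (centralizer ({(⟨a, ha⟩ : Cb)} : Set Cb)).subtype) _ hf)
  have h2 : (K.subgroupOf (centralizer ({a} : Set G))).comap (MonoidHom.codRestrict
      (Cb.subtype.comp (centralizer ({(⟨a, ha⟩ : Cb)} : Set Cb)).subtype) _ hf)
      = (K.subgroupOf Cb).subgroupOf (centralizer ({(⟨a, ha⟩ : Cb)} : Set Cb)) := by
    ext x
    rw [mem_comap, mem_subgroupOf, mem_subgroupOf, mem_subgroupOf]
    rfl
  rw [h2] at h1
  exact h1

end tools

section core

variable {G : Type u} [Group G] [Finite G]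

theorem core (Cb : Subgroup G) (a : G) (haa : a * a = 1)
    (haCb : a ∈ Cb) (K : Subgroup G) (hKa : K ≤ centralizer ({a} : Set G))
    (hK : Cfsg.IsComponent (K.subgroupOf (centralizer ({a} : Set G)))) (hKb : K ≤ Cb)
    (hlay : ⁅Cfsg.pLayer 2 ↥Cb, Cfsg.pPrimeCore 2 ↥Cb⁆ = ⊥)
    (B : Subgroup G)
    (hmaxb : ∀ K' : Subgroup G, K' ≤ Cb → Cfsg.IsComponent (K'.subgroupOf Cb) →
      Nat.card K' ≤ Nat.card K ∧ (Nat.card K' = Nat.card K →
        ∀ W : Subgroup G, W ≤ Cb ⊓ centralizer (K' : Set G) →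
          (∀ x ∈ W, ∀ y ∈ W, x * y = y * x) →
          (∀ x ∈ W, x * x = 1) → Nat.card W ≤ Nat.card B))
    (hBCb : B ≤ Cb) (hBK : ∀ c ∈ B, ∀ k ∈ K, c * k = k * c)
    (hBcomm : ∀ c ∈ B, ∀ c' ∈ B, c * c' = c' * c) (hBexp : ∀ c ∈ B, c * c = 1) (haB : a ∈ B)
    (A : Subgroup G) (hAK : A ≤ K) (hAcomm : ∀ x ∈ A, ∀ y ∈ A, x * y = y * x)
    (hAexp : ∀ x ∈ A, x * x = 1) (hAcard : 2 < Nat.card A) :
    Cfsg.IsComponent (K.subgroupOf Cb) := by
  classical
  have hp2 : Fact (Nat.Prime 2) := ⟨Nat.prime_two⟩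
  obtain ⟨a', ha'⟩ : ∃ a' : Cb, a' = ⟨a, haCb⟩ := ⟨_, rfl⟩
  obtain ⟨K', hK'⟩ : ∃ K' : Subgroup Cb, K' = K.subgroupOf Cb := ⟨_, rfl⟩
  have hKa' : ∀ k ∈ K, a * k = k * a := by
    intro k hk
    have h := hKa hk
    rw [mem_centralizer_iff] at h
    exact h a rfl
  have ha'a' : a' * a' = 1 := by rw [ha']; exact Subtype.ext haa
  have hK'a : K' ≤ centralizer ({a'} : Set Cb) := by
    intro k hk; rw [hK', mem_subgroupOf] at hk
    rw [mem_centralizer_iff]; intro y hy; rw [Set.mem_singleton_iff] at hy; rw [hy, ha']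
    exact Subtype.ext (hKa' _ hk)
  have hK'comp : Cfsg.IsComponent (K'.subgroupOf (centralizer ({a'} : Set Cb))) := by
    rw [hK', ha']; exact isComponent_nested Cb a haCb K hKa hKb hK
  have hKq : Cfsg.IsQuasisimple ↥K := Quasi.of_mulEquiv (subgroupOfEquivOfLe hKa) hK.2
  have hK'q : Cfsg.IsQuasisimple ↥K' := by
    rw [hK']; exact Quasi.of_mulEquiv (subgroupOfEquivOfLe hKb).symm hKq
  have hcardK' : Nat.card K' = Nat.card K := by
    rw [hK']; exact Nat.card_congr (subgroupOfEquivOfLe hKb).toEquiv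
  obtain ⟨x, hxA, hx1⟩ : ∃ x ∈ A, x ≠ 1 := by
    by_contra hcon
    have h0 : A = ⊥ := by
      rw [Subgroup.eq_bot_iff_forall]
      intro x hx
      by_contra hx1
      exact hcon ⟨x, hx, hx1⟩
    rw [h0, Subgroup.card_bot] at hAcard
    omega
  have hK'L : K' ≤ Cfsg.pLayer 2 ↥Cb := by
    obtain ⟨C', hC'⟩ : ∃ C' : Subgroup Cb, C' = centralizer ({a'} : Set Cb) := ⟨_, rfl⟩
    rw [← hC'] at hK'comp hK'a
    have hC'T : C' = centralizer ((zpowers a' : Subgroup Cb) : Set Cb) := by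
      rw [hC']
      ext y
      rw [mem_centralizer_iff, mem_centralizer_iff]
      constructor
      · intro h z hz
        rw [SetLike.mem_coe, mem_zpowers_iff] at hz
        obtain ⟨n, rfl⟩ := hz
        have h1 : Commute a' y := h a' rfl
        exact (h1.zpow_left n).eq
      · intro h z hz
        rw [Set.mem_singleton_iff] at hz
        rw [hz]
        exact h a' (mem_zpowers a')
    have hT : IsPGroup 2 (zpowers a' : Subgroup Cb) := by
      rintro ⟨z, hz⟩
      refine ⟨1, ?_⟩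
      apply Subtype.ext
      rw [mem_zpowers_iff] at hz
      obtain ⟨n, rfl⟩ := hz
      show (a' ^ n) ^ 2 ^ 1 = 1
      rw [pow_one, ← zpow_natCast, ← zpow_mul, mul_comm, zpow_mul, zpow_natCast, pow_two,
        ha'a', one_zpow]
    have hI : Cfsg.IsPComponent 2 (K'.subgroupOf C') := by
      apply Cfsg.Agent.Lib.Helper22.PComp2.isPComponent_of_isComponent 2 hK'comp
      intro hbot
      rw [Subgroup.map_eq_bot_iff, QuotientGroup.ker_mk'] at hbot
      have hxK : x ∈ K := hAK hxA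
      have hxCb : x ∈ Cb := hKb hxK
      have hxK' : (⟨x, hxCb⟩ : Cb) ∈ K' := by rw [hK', mem_subgroupOf]; exact hxK
      have hxC' : (⟨x, hxCb⟩ : Cb) ∈ C' := hK'a hxK'
      have hmem : (⟨⟨x, hxCb⟩, hxC'⟩ : C') ∈ K'.subgroupOf C' := by
        rw [mem_subgroupOf]; exact hxK'
      have hO := hbot hmem
      have hord : orderOf (⟨⟨x, hxCb⟩, hxC'⟩ : C') = 2 := by
        apply orderOf_eq_prime
        · apply Subtype.ext; apply Subtype.ext
          show x ^ 2 = 1
          rw [pow_two]; exact hAexp x hxA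
        · intro h
          apply hx1
          exact congrArg (fun z : C' => ((z : Cb) : G)) h
      have hdvd := Subgroup.orderOf_dvd_natCard _ hO
      rw [hord] at hdvd
      have hcop : (Nat.card (Cfsg.pPrimeCore 2 ↥C')).Coprime 2 := PSolv.pPrimeCore_coprime 2
      have h21 := Nat.Coprime.eq_one_of_dvd hcop.symm hdvd
      omega
    have h := LB2.pComp_centralizer_le_pLayer (zpowers a') hT C' hC'T (K'.subgroupOf C') hI
    rw [Subgroup.subgroupOf_map_subtype, inf_eq_left.2 hK'a] at h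
    exact h
  have hLE : Cfsg.pLayer 2 ↥Cb ≤ Cfsg.layer ↥Cb := by
    apply sSup_le
    intro J hJ
    have hJ' : Cfsg.IsPComponent 2 J := hJ
    have hJL : J ≤ Cfsg.pLayer 2 ↥Cb := le_sSup hJ
    have hOJ := Cfsg.Agent.Lib.Helper23.TwoComp.pPrimeCore_subnormal_le 2 J hJ'.1
    have hcomm : ⁅J, (Cfsg.pPrimeCore 2 ↥J).map J.subtype⁆ = ⊥ := by
      rw [eq_bot_iff, ← hlay]
      exact Subgroup.commutator_mono hJL hOJ
    have hq := (Cfsg.Agent.Lib.Helper22.PComp2.isPComponent_quasisimple_iff 2 hJ').2 hcomm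
    exact le_sSup (show Cfsg.IsComponent J from ⟨hJ'.1, hq⟩)
  have hK'E : K' ≤ Cfsg.layer ↥Cb := hK'L.trans hLE
  obtain ⟨D, hD, hK'D⟩ := MC1.exists_le_pr ha'a' hK'a hK'comp hK'E
  have hcompG : ∀ D' : Subgroup Cb, Cfsg.IsComponent D' → Nat.card D' ≤ Nat.card K ∧
      (Nat.card D' = Nat.card K → ∀ W : Subgroup Cb, W ≤ centralizer (D' : Set Cb) →
        (∀ x ∈ W, ∀ y ∈ W, x * y = y * x) → (∀ x ∈ W, x * x = 1) →
        Nat.card W ≤ Nat.card B) := by
    intro D' hD'
    have h1 : (D'.map Cb.subtype).subgroupOf Cb = D' := by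
      ext y; rw [mem_subgroupOf]; constructor
      · rintro ⟨z, hz, hzy⟩
        have h0 : z = y := Subtype.ext hzy
        rw [← h0]; exact hz
      · intro hy; exact ⟨y, hy, rfl⟩
    have hle : D'.map Cb.subtype ≤ Cb := by rintro _ ⟨z, _, rfl⟩; exact z.2
    have hcardD : Nat.card (D'.map Cb.subtype) = Nat.card D' :=
      Subgroup.card_map_of_injective Cb.subtype_injective
    obtain ⟨h2, h3⟩ := hmaxb (D'.map Cb.subtype) hle (by rw [h1]; exact hD')
    rw [hcardD] at h2 h3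
    refine ⟨h2, fun heq W hW hWc hWe => ?_⟩
    have h4 := h3 heq (W.map Cb.subtype) ?_ ?_ ?_
    · rw [Subgroup.card_map_of_injective Cb.subtype_injective] at h4; exact h4
    · rintro _ ⟨w, hw, rfl⟩
      refine mem_inf.2 ⟨w.2, ?_⟩
      rw [mem_centralizer_iff]
      rintro _ ⟨d, hd, rfl⟩
      have h5 := hW hw; rw [mem_centralizer_iff] at h5
      exact congrArg Subtype.val (h5 d hd)
    · rintro _ ⟨w, hw, rfl⟩ _ ⟨w', hw', rfl⟩
      exact congrArg Subtype.val (hWc w hw w' hw')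
    · rintro _ ⟨w, hw, rfl⟩
      exact congrArg Subtype.val (hWe w hw)
  by_cases hcm : cm a' D = D
  · rw [hcm, sup_idem] at hK'D
    have h1 := (hcompG D hD).1
    have h2 : K' = D := Subgroup.eq_of_le_of_card_ge hK'D (by rw [hcardK']; exact h1)
    rw [← hK', h2]; exact hD
  · exfalso
    have hcardD := (hcompG D hD).1
    have g1 : ∀ k ∈ K', a' * k = k * a' := by
      intro k hk
      have h := hK'a hk
      rw [mem_centralizer_iff] at h
      exact h a' rfl
    have g2 : ∀ c ∈ B.subgroupOf Cb, ∀ k ∈ K', c * k = k * c := by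
      intro c hc k hk
      rw [mem_subgroupOf] at hc; rw [hK', mem_subgroupOf] at hk
      exact Subtype.ext (hBK _ hc _ hk)
    have g3 : ∀ c ∈ B.subgroupOf Cb, ∀ c' ∈ B.subgroupOf Cb, c * c' = c' * c := by
      intro c hc c' hc'
      rw [mem_subgroupOf] at hc hc'
      exact Subtype.ext (hBcomm _ hc _ hc')
    have g4 : ∀ c ∈ B.subgroupOf Cb, c * c = 1 := by
      intro c hc; rw [mem_subgroupOf] at hc; exact Subtype.ext (hBexp _ hc)
    have g5 : a' ∈ B.subgroupOf Cb := by rw [mem_subgroupOf, ha']; exact haB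
    have g6 : A.subgroupOf Cb ≤ K' := by
      intro x hx; rw [mem_subgroupOf] at hx; rw [hK', mem_subgroupOf]; exact hAK hx
    have g7 : ∀ x ∈ A.subgroupOf Cb, ∀ y ∈ A.subgroupOf Cb, x * y = y * x := by
      intro x hx y hy; rw [mem_subgroupOf] at hx hy; exact Subtype.ext (hAcomm _ hx _ hy)
    have g8 : ∀ x ∈ A.subgroupOf Cb, x * x = 1 := by
      intro x hx; rw [mem_subgroupOf] at hx; exact Subtype.ext (hAexp _ hx)
    obtain ⟨hDK, W, hW, hWc, hWe, hWcard⟩ := MC2.diag_contra (B := B.subgroupOf Cb)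
      (A := A.subgroupOf Cb) ha'a' hD hcm g1 (Comp.commutator_self hK'q)
      (Comp.ne_bot_of_quasisimple hK'q) hK'D (by rw [hcardK']; exact hcardD) g2 g3 g4 g5 g6 g7 g8
    have hDa := isComponent_cm hD a'
    have hcardDa : Nat.card (cm a' D) = Nat.card D :=
      Subgroup.card_map_of_injective (MulAut.conj a').injective
    have h5 := (hcompG (cm a' D) hDa).2 (by rw [hcardDa, hDK, hcardK']) W hW hWc hWe
    have hcB : Nat.card (B.subgroupOf Cb) = Nat.card B :=
      Nat.card_congr (subgroupOfEquivOfLe hBCb).toEquiv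
    have hcA : Nat.card (A.subgroupOf Cb) = Nat.card A :=
      Nat.card_congr (subgroupOfEquivOfLe (hAK.trans hKb)).toEquiv
    rw [hcB, hcA] at hWcard
    have hBpos : 0 < Nat.card B := Nat.card_pos
    have h6 : Nat.card B * 3 ≤ Nat.card B * Nat.card A := Nat.mul_le_mul_left _ hAcard
    omega

/-- **S1305.** -/
theorem main (hO : Cfsg.oddCore G = ⊥) (hB : Cfsg.HasBProperty G)
    (a : G) (ha : orderOf a = 2) (K : Subgroup G)
    (hKa : K ≤ Subgroup.centralizer ({a} : Set G))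
    (hK : Cfsg.IsComponent (K.subgroupOf (Subgroup.centralizer ({a} : Set G))))
    (hmax : ∀ y : G, orderOf y = 2 → ∀ K' : Subgroup G,
      K' ≤ Subgroup.centralizer ({y} : Set G) →
      Cfsg.IsComponent (K'.subgroupOf (Subgroup.centralizer ({y} : Set G))) →
      Nat.card ↥K' ≤ Nat.card ↥K ∧ (Nat.card ↥K' = Nat.card ↥K → ∀ k : ℕ,
        Cfsg.PRankLE 2 k
          ↥(Subgroup.centralizer ({a} : Set G) ⊓ Subgroup.centralizer (K : Set G)) →
        Cfsg.PRankLE 2 k
          ↥(Subgroup.centralizer ({y} : Set G) ⊓ Subgroup.centralizer (K' : Set G))))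
    (hrk : ¬ Cfsg.PRankLE 2 1 ↥K) (B : Subgroup G)
    (hBle : B ≤ Subgroup.centralizer ({a} : Set G) ⊓ Subgroup.centralizer (K : Set G))
    (hBel : Cfsg.IsElementaryAbelian 2 B)
    (hBmax : ∀ B' : Subgroup G,
      B' ≤ Subgroup.centralizer ({a} : Set G) ⊓ Subgroup.centralizer (K : Set G) →
      Cfsg.IsElementaryAbelian 2 B' → Nat.card ↥B' ≤ Nat.card ↥B)
    (b : G) (hb : b ∈ B) (hb1 : b ≠ 1) :
    K ≤ Subgroup.centralizer ({b} : Set G) ∧
      Cfsg.IsComponent (K.subgroupOf (Subgroup.centralizer ({b} : Set G))) := by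
  classical
  have hp2 : Fact (Nat.Prime 2) := ⟨Nat.prime_two⟩
  have haa : a * a = 1 := by rw [← pow_two, ← ha, pow_orderOf_eq_one]
  obtain ⟨hBcomm, hBexp⟩ := elab_iff.1 hBel
  have hKa' : ∀ k ∈ K, a * k = k * a := by
    intro k hk
    have h := hKa hk
    rw [mem_centralizer_iff] at h
    exact h a rfl
  have hBa : ∀ x ∈ B, a * x = x * a := by
    intro x hx
    have h := (mem_inf.1 (hBle hx)).1
    rw [mem_centralizer_iff] at h
    exact h a rfl
  have hBK : ∀ x ∈ B, ∀ k ∈ K, x * k = k * x := by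
    intro x hx k hk
    have h := (mem_inf.1 (hBle hx)).2
    rw [mem_centralizer_iff] at h
    exact (h k hk).symm
  have haB : a ∈ B := by
    have hle : B ⊔ zpowers a ≤ centralizer ({a} : Set G) ⊓ centralizer (K : Set G) := by
      apply sup_le hBle
      rw [zpowers_le]
      refine mem_inf.2 ⟨?_, ?_⟩
      · rw [mem_centralizer_iff]; intro y hy; rw [Set.mem_singleton_iff] at hy; rw [hy]
      · rw [mem_centralizer_iff]; intro k hk; exact (hKa' k hk).symm
    have hcz : ∀ x ∈ B, ∀ z ∈ zpowers a, x * z = z * x := by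
      intro x hx z hz
      obtain ⟨n, rfl⟩ := mem_zpowers_iff.1 hz
      have h1 : Commute x a := (hBa x hx).symm
      exact (h1.zpow_right n).eq
    have hzexp : ∀ z ∈ zpowers a, z * z = 1 := by
      intro z hz
      obtain ⟨n, rfl⟩ := mem_zpowers_iff.1 hz
      rw [← zpow_add, ← two_mul, zpow_mul, zpow_two, haa, one_zpow]
    have hel : Cfsg.IsElementaryAbelian 2 (B ⊔ zpowers a) := by
      rw [elab_iff]
      constructor
      · intro x hx y hy
        obtain ⟨c, hc, z, hz, rfl⟩ := Layer.mem_sup_of_commute hcz hx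
        obtain ⟨c', hc', z', hz', rfl⟩ := Layer.mem_sup_of_commute hcz hy
        have e1 : Commute c c' := hBcomm c hc c' hc'
        have e2 : Commute c z' := hcz c hc z' hz'
        have e3 : Commute z c' := (hcz c' hc' z hz).symm
        have e4 : Commute z z' := by
          obtain ⟨n, rfl⟩ := mem_zpowers_iff.1 hz
          obtain ⟨m, rfl⟩ := mem_zpowers_iff.1 hz'
          exact (Commute.refl a).zpow_zpow n m
        exact ((e1.mul_right e2).mul_left (e3.mul_right e4)).eq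
      · intro x hx
        obtain ⟨c, hc, z, hz, rfl⟩ := Layer.mem_sup_of_commute hcz hx
        have e2 : z * c = c * z := (hcz c hc z hz).symm
        calc c * z * (c * z) = c * (z * c) * z := by group
          _ = (c * c) * (z * z) := by rw [e2]; group
          _ = 1 := by rw [hBexp c hc, hzexp z hz, one_mul]
    have hcard := hBmax _ hle hel
    have h0 : B = B ⊔ zpowers a := Subgroup.eq_of_le_of_card_ge le_sup_left hcard
    rw [h0]; exact mem_sup_right (mem_zpowers a)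
  have hbb : b * b = 1 := hBexp b hb
  have hbo : orderOf b = 2 := orderOf_eq_prime (by rw [pow_two]; exact hbb) hb1
  have hKb : K ≤ centralizer ({b} : Set G) := by
    intro k hk; rw [mem_centralizer_iff]; intro y hy; rw [Set.mem_singleton_iff] at hy; rw [hy]
    exact hBK b hb k hk
  refine ⟨hKb, ?_⟩
  have hBp : IsPGroup 2 ↥B := by
    intro g
    refine ⟨1, ?_⟩
    apply Subtype.ext
    show (g : G) ^ 2 ^ 1 = 1
    rw [pow_one, pow_two]; exact hBexp g g.2
  obtain ⟨k₀, hk₀⟩ := IsPGroup.iff_card.1 hBp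
  have hrankA : Cfsg.PRankLE 2 k₀
      ↥(centralizer ({a} : Set G) ⊓ centralizer (K : Set G)) := by
    apply prank_of_max
    intro W hW hWc hWe
    rw [← hk₀]
    exact hBmax W hW (elab_iff.2 ⟨hWc, hWe⟩)
  obtain ⟨A, hAK, hAcomm, hAexp, hAcard⟩ : ∃ A : Subgroup G, A ≤ K ∧
      (∀ x ∈ A, ∀ y ∈ A, x * y = y * x) ∧ (∀ x ∈ A, x * x = 1) ∧ 2 < Nat.card A := by
    by_contra hcon
    apply hrk
    apply prank_of_max
    intro W hWK hWc hWe
    by_contra hlt
    exact hcon ⟨W, hWK, hWc, hWe, by rw [pow_one] at hlt; omega⟩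
  have hlay : ⁅Cfsg.pLayer 2 ↥(centralizer ({b} : Set G)),
      Cfsg.pPrimeCore 2 ↥(centralizer ({b} : Set G))⁆ = ⊥ := by
    have h := hB b hbo
    rw [hO, le_bot_iff] at h
    exact (Subgroup.map_eq_bot_iff_of_injective _ (Subgroup.subtype_injective _)).1 h
  apply core (centralizer ({b} : Set G)) a haa ?_ K hKa hK hKb hlay B ?_ ?_ hBK hBcomm hBexp
    haB A hAK hAcomm hAexp hAcard
  · rw [mem_centralizer_iff]; intro y hy; rw [Set.mem_singleton_iff] at hy; rw [hy]
    exact hBcomm b hb a haB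
  · intro K' hK'b hK'comp
    obtain ⟨h1, h2⟩ := hmax b hbo K' hK'b hK'comp
    refine ⟨h1, fun heq W hW hWc hWe => ?_⟩
    rw [hk₀]
    exact prank_le_of_le (h2 heq k₀ hrankA) hW hWc hWe
  · intro x hx; rw [mem_centralizer_iff]; intro y hy; rw [Set.mem_singleton_iff] at hy; rw [hy]
    exact hBcomm b hb x hx

end core

end Cfsg.Agent.Lib.Helper21.MC3
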