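import Mathlib
import Cfsg.Agent.Lib.Helper94.OPStmt

/-! S5989 piece FIXNDP (helper21; port of `Helper78.HypFIXND` to the plus form): the fixed space
of an isometry of order prime to `p` is nondegenerate. -/

set_option autoImplicit false

namespace Cfsg.Agent.Lib.Helper21.OPFIXNDP

open Cfsg.Agent.Lib.Helper94
open scoped Matrix

universe u

/-- the polar form of the standard plus form -/
theorem polar_formula (d : ℕ) (F : Type u) [Field F] (u v : OPStmt.P d → F) :
    QuadraticMap.polar (Cfsg.quadFormPlus d F) u v =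
      ∑ i : Fin d, (u (.inl i) * v (.inr i) + v (.inl i) * u (.inr i)) := by
  unfold QuadraticMap.polar Cfsg.quadFormPlus
  simp only [Pi.add_apply]
  rw [← Finset.sum_sub_distrib, ← Finset.sum_sub_distrib]
  apply Finset.sum_congr rfl
  intro i _
  ring

theorem polar_symm (d : ℕ) (F : Type u) [Field F] (u v : OPStmt.P d → F) :
    QuadraticMap.polar (Cfsg.quadFormPlus d F) u v =
      QuadraticMap.polar (Cfsg.quadFormPlus d F) v u :=
  QuadraticMap.polar_comm _ _ _

/-- the vector `J v` with `B(u, v) = u ⬝ᵥ J v` -/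
def J (d : ℕ) (F : Type u) [Field F] (v : OPStmt.P d → F) : OPStmt.P d → F :=
  fun k => Sum.elim (fun i => v (.inr i)) (fun i => v (.inl i)) k

theorem polar_eq_dot (d : ℕ) (F : Type u) [Field F] (u v : OPStmt.P d → F) :
    QuadraticMap.polar (Cfsg.quadFormPlus d F) u v = u ⬝ᵥ J d F v := by
  have e1 : ∑ i : Fin d, v (.inl i) * u (.inr i) = ∑ i : Fin d, u (.inr i) * v (.inl i) :=
    Finset.sum_congr rfl (fun i _ => mul_comm _ _)
  rw [polar_formula, Finset.sum_add_distrib, e1]
  show _ = ∑ k, u k * J d F v k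
  rw [Fintype.sum_sum_type]
  simp only [J, Sum.elim_inl, Sum.elim_inr]

theorem polar_sum_left (d : ℕ) (F : Type u) [Field F] {ι : Type} (s : Finset ι)
    (f : ι → OPStmt.P d → F) (v : OPStmt.P d → F) :
    QuadraticMap.polar (Cfsg.quadFormPlus d F) (∑ j ∈ s, f j) v =
      ∑ j ∈ s, QuadraticMap.polar (Cfsg.quadFormPlus d F) (f j) v := by
  rw [polar_eq_dot, sum_dotProduct]
  apply Finset.sum_congr rfl
  intro j _
  rw [polar_eq_dot]

/-- the plus form is nondegenerate -/
theorem top_nd (d : ℕ) (F : Type u) [Field F] (v : OPStmt.P d → F) (hv : v ≠ 0) :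
    ∃ w : OPStmt.P d → F, QuadraticMap.polar (Cfsg.quadFormPlus d F) w v ≠ 0 := by
  classical
  have hex : ∃ j, v j ≠ 0 := by
    by_contra hno
    push Not at hno
    exact hv (funext hno)
  obtain ⟨j, hj⟩ := hex
  rcases j with i | i
  · refine ⟨Pi.single (Sum.inr i) 1, ?_⟩
    rw [polar_eq_dot, single_dotProduct, one_mul]
    simpa [J] using hj
  · refine ⟨Pi.single (Sum.inl i) 1, ?_⟩
    rw [polar_eq_dot, single_dotProduct, one_mul]
    simpa [J] using hj

theorem main : OPStmt.FixNDP.{u} := by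
  intro F _ _ p _ _ hodd d r _ hrp x hx hxr
  have hr : r.Prime := Fact.out
  have hp : p.Prime := Fact.out
  have hrF : (r : F) ≠ 0 := by
    intro h0
    rw [CharP.cast_eq_zero_iff F p r] at h0
    exact hrp ((Nat.prime_dvd_prime_iff_eq hp hr).mp h0).symm
  -- isometries preserve the polar form
  have hiso : ∀ g : Matrix.GeneralLinearGroup (OPStmt.P d) F,
      g ∈ Cfsg.isometryGroup F (Cfsg.quadFormPlus d F) → ∀ u v : OPStmt.P d → F,
      QuadraticMap.polar (Cfsg.quadFormPlus d F)
        ((g : Matrix (OPStmt.P d) (OPStmt.P d) F) *ᵥ u)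
        ((g : Matrix (OPStmt.P d) (OPStmt.P d) F) *ᵥ v) =
      QuadraticMap.polar (Cfsg.quadFormPlus d F) u v := by
    intro g hg u v
    have hQ : ∀ u' : OPStmt.P d → F, Cfsg.quadFormPlus d F
        ((g : Matrix (OPStmt.P d) (OPStmt.P d) F) *ᵥ u') = Cfsg.quadFormPlus d F u' :=
      fun u' => hg u' u'
    unfold QuadraticMap.polar
    rw [← Matrix.mulVec_add, hQ, hQ, hQ]
  -- powers fix the fixed vectors
  have hfixpow : ∀ v : OPStmt.P d → F, (x : Matrix (OPStmt.P d) (OPStmt.P d) F) *ᵥ v = v →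
      ∀ j : ℕ, ((x ^ j : Matrix.GeneralLinearGroup (OPStmt.P d) F) :
        Matrix (OPStmt.P d) (OPStmt.P d) F) *ᵥ v = v := by
    intro v hv j
    induction j with
    | zero => simp
    | succ j ih =>
      rw [pow_succ, Units.val_mul, ← Matrix.mulVec_mulVec, hv, ih]
  have key : ∀ v ∈ OPStmt.FxP (x : Matrix (OPStmt.P d) (OPStmt.P d) F), v ≠ 0 →
      ∃ w1 ∈ OPStmt.FxP (x : Matrix (OPStmt.P d) (OPStmt.P d) F),
        QuadraticMap.polar (Cfsg.quadFormPlus d F) w1 v ≠ 0 := by
    intro v hv hv0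
    rw [OPStmt.mem_FxP] at hv
    obtain ⟨w, hw⟩ := top_nd d F v hv0
    set f : ℕ → OPStmt.P d → F := fun j =>
      ((x ^ j : Matrix.GeneralLinearGroup (OPStmt.P d) F) :
        Matrix (OPStmt.P d) (OPStmt.P d) F) *ᵥ w with hf
    refine ⟨∑ j ∈ Finset.range r, f j, ?_, ?_⟩
    · rw [OPStmt.mem_FxP, Matrix.mulVec_sum]
      have hstep : ∀ j : ℕ, (x : Matrix (OPStmt.P d) (OPStmt.P d) F) *ᵥ f j = f (j + 1) := by
        intro j
        rw [hf]
        show (x : Matrix (OPStmt.P d) (OPStmt.P d) F) *ᵥ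
          (((x ^ j : Matrix.GeneralLinearGroup (OPStmt.P d) F) :
            Matrix (OPStmt.P d) (OPStmt.P d) F) *ᵥ w) =
          ((x ^ (j + 1) : Matrix.GeneralLinearGroup (OPStmt.P d) F) :
            Matrix (OPStmt.P d) (OPStmt.P d) F) *ᵥ w
        rw [pow_succ', Units.val_mul, Matrix.mulVec_mulVec]
      rw [Finset.sum_congr rfl (fun j _ => hstep j)]
      have h1 := Finset.sum_range_succ f r
      have h2 := Finset.sum_range_succ' f r
      have hfr : f r = f 0 := by
        rw [hf]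
        show ((x ^ r : Matrix.GeneralLinearGroup (OPStmt.P d) F) :
            Matrix (OPStmt.P d) (OPStmt.P d) F) *ᵥ w =
          ((x ^ 0 : Matrix.GeneralLinearGroup (OPStmt.P d) F) :
            Matrix (OPStmt.P d) (OPStmt.P d) F) *ᵥ w
        rw [hxr, pow_zero]
      rw [h1, hfr] at h2
      exact (add_right_cancel h2).symm
    · rw [polar_sum_left]
      have hterm : ∀ j ∈ Finset.range r,
          QuadraticMap.polar (Cfsg.quadFormPlus d F) (f j) v =
            QuadraticMap.polar (Cfsg.quadFormPlus d F) w v := by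
        intro j _
        have h1 := hiso (x ^ j) (Subgroup.pow_mem _ hx j) w v
        rw [hfixpow v hv j] at h1
        exact h1
      rw [Finset.sum_congr rfl hterm, Finset.sum_const, Finset.card_range, nsmul_eq_mul]
      exact mul_ne_zero hrF hw
  intro v hv hv0
  obtain ⟨w1, hw1, hne⟩ := key v hv hv0
  refine ⟨⟨w1, hw1, hne⟩, ⟨w1, hw1, ?_⟩⟩
  rw [polar_symm]
  exact hne

end Cfsg.Agent.Lib.Helper21.OPFIXNDP
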