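import Mathlib
import Cfsg.Agent.Lib.Helper9.S51IStmt

set_option autoImplicit false

/-! S1351 part I, piece FIXC (helper21): `C_{H_σ}(c) = M ∩ H_σ` for `1 ≠ c ∈ C_{M_σ}(R0)`. -/

namespace Cfsg.Agent.Lib.Helper21.S51FIXC

open Cfsg Cfsg.Agent.Lib.Helper9.S51IStmt

universe u

theorem main : SDj.{u} → Gen3.{u} → MH.{u} → CentC.{u} → FixC.{u} := by
  intro hSD hG3 hMH hCC G _ _ hG M R0 H r hHS c hc hc1
  apply le_antisymm
  · intro x hx
    rw [Subgroup.mem_inf] at hx ⊢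
    exact ⟨hCC hG M R0 H r hHS c hc hc1 hx.2, hx.1⟩
  · intro x hx
    have hx' := hx
    rw [Subgroup.mem_inf] at hx'
    refine Subgroup.mem_inf.mpr ⟨hx'.2, ?_⟩
    rw [Subgroup.mem_centralizer_iff]
    intro h hh
    rw [Set.mem_singleton_iff] at hh
    subst hh
    have hcM : h ∈ Cfsg.sigmaCore M ⊓ H := by
      rw [hMH hG M R0 H r hHS]; exact hc
    exact hG3 hG M H hHS.hM hHS.hH (hSD hG M R0 H r hHS) h hcM x hx

end Cfsg.Agent.Lib.Helper21.S51FIXC
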