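import Mathlib
import Cfsg.Agent.Lib.Helper9.S51IStmt

set_option autoImplicit false

/-! S1351 part I, piece FIXD (helper21): `C_{M_σ}(d) = C_{M_σ}(R0)` for `1 ≠ d ∈ M ∩ H_σ`. -/

namespace Cfsg.Agent.Lib.Helper21.S51FIXD

open Cfsg Cfsg.Agent.Lib.Helper9.S51IStmt

universe u

theorem main : SDj.{u} → Gen3.{u} → MH.{u} → CentD.{u} → FixD.{u} := by
  intro hSD hG3 hMH hCD G _ _ hG M R0 H r hHS d hd hd1
  apply le_antisymm
  · intro x hx
    rw [Subgroup.mem_inf] at hx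
    rw [← hMH hG M R0 H r hHS]
    exact Subgroup.mem_inf.mpr ⟨hx.1, hCD hG M R0 H r hHS d hd hd1 hx.2⟩
  · intro x hx
    have hx' : x ∈ Cfsg.sigmaCore M ⊓ H := by
      rw [hMH hG M R0 H r hHS]; exact hx
    refine Subgroup.mem_inf.mpr ⟨(Subgroup.mem_inf.mp hx').1, ?_⟩
    rw [Subgroup.mem_centralizer_iff]
    intro h hh
    rw [Set.mem_singleton_iff] at hh
    subst hh
    exact (hG3 hG M H hHS.hM hHS.hH (hSD hG M R0 H r hHS) x hx' h hd).symm

end Cfsg.Agent.Lib.Helper21.S51FIXD
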