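import Mathlib
import Cfsg.Agent.Lib.Helper41.SubfStmt

set_option autoImplicit false

namespace Cfsg.Agent.Lib.Helper21.SubfFROB

open Cfsg.Agent.Lib.Helper41
open Polynomial Matrix

universe u

theorem expand_charpoly_pow {K : Type*} [Field K] (p : ℕ) [Fact p.Prime] [CharP K p] {n : ℕ}
    [Nonempty (Fin n)] (M : Matrix (Fin n) (Fin n) K) (k : ℕ) :
    Polynomial.expand K (p ^ k) (M ^ (p ^ k)).charpoly = M.charpoly ^ (p ^ k) := by
  unfold Matrix.charpoly
  rw [AlgHom.map_det, ← Matrix.coe_detMonoidHom,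
    ← (Matrix.detMonoidHom : Matrix (Fin n) (Fin n) K[X] →* K[X]).map_pow]
  apply congr_arg Matrix.det
  refine matPolyEquiv.injective ?_
  rw [map_pow, matPolyEquiv_charmatrix, sub_pow_char_pow_of_commute, ← C_pow]
  · exact (id (matPolyEquiv_eq_X_pow_sub_C (p ^ k) M) :)
  · exact (C M).commute_X

theorem main : SubfStmt.Frob.{u} := by
  intro F _ _ n F₀ M hM
  classical
  rcases Nat.eq_zero_or_pos n with hn | hn
  · subst hn
    refine ⟨1, ?_⟩
    rw [Polynomial.map_one]
    unfold Matrix.charpoly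
    exact Matrix.det_isEmpty
  haveI : Nonempty (Fin n) := ⟨⟨0, hn⟩⟩
  obtain ⟨p, hchar⟩ := CharP.exists F
  haveI := hchar
  have hp : p.Prime := CharP.char_is_prime F p
  haveI : Fact p.Prime := ⟨hp⟩
  haveI : CharP F₀ p := (RingHom.charP_iff F₀.subtype F₀.subtype.injective p).2 inferInstance
  haveI : Fintype F₀ := Fintype.ofFinite F₀
  obtain ⟨e, -, he⟩ := FiniteField.card F₀ p
  have hq0 : Nat.card F₀ = p ^ (e : ℕ) := by rw [Nat.card_eq_fintype_card]; exact he
  rw [hq0] at hM
  have h1 := expand_charpoly_pow p M (e : ℕ)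
  rw [hM] at h1
  have h2 := Polynomial.map_iterateFrobenius_expand (R := F) (p := p) M.charpoly (e : ℕ)
  rw [Polynomial.map_expand] at h2
  have h3 : M.charpoly.map (iterateFrobenius F p e) = M.charpoly := by
    apply Polynomial.expand_injective (pow_pos hp.pos (e : ℕ))
    rw [h2, h1]
  have hcoeff : ∀ i : ℕ, (M.charpoly.coeff i) ^ (p ^ (e : ℕ)) = M.charpoly.coeff i := by
    intro i
    have := congrArg (fun g => g.coeff i) h3
    simpa [Polynomial.coeff_map, iterateFrobenius_def] using this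
  have hfix : ∀ a : F, a ^ (p ^ (e : ℕ)) = a → a ∈ F₀ := by
    intro a ha
    obtain ⟨g, hg⟩ : ∃ g : F[X], g = X ^ (p ^ (e : ℕ)) - X := ⟨_, rfl⟩
    have hq1 : 1 < p ^ (e : ℕ) := Nat.one_lt_pow (PNat.ne_zero e) hp.one_lt
    have hg0 : g ≠ 0 := by rw [hg]; exact FiniteField.X_pow_card_sub_X_ne_zero F hq1
    have hgdeg : g.natDegree = p ^ (e : ℕ) := by
      rw [hg]; exact FiniteField.X_pow_card_sub_X_natDegree_eq F hq1
    have hroot : ∀ b : F, b ∈ g.roots.toFinset ↔ b ^ (p ^ (e : ℕ)) = b := by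
      intro b
      rw [Multiset.mem_toFinset, Polynomial.mem_roots hg0, Polynomial.IsRoot, hg]
      simp only [Polynomial.eval_sub, Polynomial.eval_pow, Polynomial.eval_X]
      exact sub_eq_zero
    have hScard : g.roots.toFinset.card ≤ p ^ (e : ℕ) := by
      calc g.roots.toFinset.card ≤ Multiset.card g.roots := Multiset.toFinset_card_le _
        _ ≤ g.natDegree := Polynomial.card_roots' g
        _ = _ := hgdeg
    obtain ⟨T, hT⟩ : ∃ T : Finset F,
        T = Finset.univ.map ⟨(Subtype.val : F₀ → F), Subtype.val_injective⟩ := ⟨_, rfl⟩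
    have hTcard : T.card = p ^ (e : ℕ) := by
      rw [hT, Finset.card_map, Finset.card_univ]; exact he
    have hTS : T ⊆ g.roots.toFinset := by
      intro b hb
      rw [hT, Finset.mem_map] at hb
      obtain ⟨b0, -, rfl⟩ := hb
      rw [hroot]
      have := FiniteField.pow_card b0
      rw [he] at this
      have h' := congrArg (Subtype.val) this
      simpa using h'
    have hTSeq : T = g.roots.toFinset :=
      Finset.eq_of_subset_of_card_le hTS (by rw [hTcard]; exact hScard)
    have haS : a ∈ g.roots.toFinset := (hroot a).2 ha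
    rw [← hTSeq, hT, Finset.mem_map] at haS
    obtain ⟨b0, -, rfl⟩ := haS
    exact b0.2
  have hlift : M.charpoly ∈ Polynomial.lifts (F₀.subtype : F₀ →+* F) := by
    rw [Polynomial.lifts_iff_coeff_lifts]
    intro i
    exact ⟨⟨M.charpoly.coeff i, hfix _ (hcoeff i)⟩, rfl⟩
  obtain ⟨χ₀, hχ₀⟩ := (Polynomial.mem_lifts _).1 hlift
  exact ⟨χ₀, hχ₀.symm⟩

end Cfsg.Agent.Lib.Helper21.SubfFROB
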