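import Mathlib
import Cfsg.Agent.Lib.Helper41.SubfStmt

set_option autoImplicit false

namespace Cfsg.Agent.Lib.Helper21.SubfROOTMULT

open Cfsg.Agent.Lib.Helper41

universe u

theorem main : SubfStmt.RootMult.{u} := by
  intro F _ n x hss
  have h1 := LinearMap.finrank_maxGenEigenspace_eq (Matrix.toLin' x) (1 : F)
  rw [hss.isFinitelySemisimple.maxGenEigenspace_eq_eigenspace, Matrix.charpoly_toLin'] at h1
  rw [← h1, Module.End.eigenspace_def]
  rw [one_smul]

end Cfsg.Agent.Lib.Helper21.SubfROOTMULT
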