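import Mathlib
import Cfsg.Agent.Lib.Helper41.SubfStmt

set_option autoImplicit false

namespace Cfsg.Agent.Lib.Helper21.SubfUNITPOW

open Cfsg.Agent.Lib.Helper41

universe u

theorem main : SubfStmt.UnitPow.{u} := by
  intro F _ _ q₀ r hcard hr ω hω
  classical
  have hq0 : 2 ≤ q₀ := by
    by_contra h
    have h2 : 1 < Fintype.card F := Fintype.one_lt_card
    have : q₀ ^ 2 ≤ 1 := by
      have h1 : q₀ ≤ 1 := by omega
      interval_cases q₀ <;> norm_num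
    omega
  have hr0 : r ≠ 0 := by rintro rfl; simp at hr
  have hω0 : ω ≠ 0 := by
    rintro rfl
    rw [zero_pow hr0] at hω
    exact zero_ne_one hω
  have hω1 : ω ^ (q₀ + 1) = 1 := by
    obtain ⟨s, hs⟩ := hr
    rw [hs, pow_mul, hω, one_pow]
  obtain ⟨g, hg⟩ := IsCyclic.exists_generator (α := Fˣ)
  have hord : orderOf g = q₀ ^ 2 - 1 := by
    rw [orderOf_eq_card_of_forall_mem_zpowers hg, Nat.card_eq_fintype_card, Fintype.card_units,
      hcard]
  obtain ⟨ω', hω'⟩ : ∃ ω' : Fˣ, (ω' : F) = ω := ⟨Units.mk0 ω hω0, rfl⟩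
  have hmem : ω' ∈ Submonoid.powers g := by
    rw [mem_powers_iff_mem_zpowers]; exact hg ω'
  obtain ⟨t, ht⟩ := hmem
  have ht' : g ^ t = ω' := ht
  have hω'1 : ω' ^ (q₀ + 1) = 1 := by
    apply Units.ext
    rw [Units.val_pow_eq_pow_val, hω', hω1, Units.val_one]
  have hdvd : q₀ ^ 2 - 1 ∣ t * (q₀ + 1) := by
    rw [← hord]; apply orderOf_dvd_of_pow_eq_one; rw [pow_mul, ht']; exact hω'1
  obtain ⟨s, rfl⟩ : ∃ s, q₀ = s + 1 := ⟨q₀ - 1, by omega⟩
  have hfac : (s + 1) ^ 2 - 1 = s * (s + 1 + 1) := by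
    have : (s + 1) ^ 2 = s * (s + 1 + 1) + 1 := by ring
    rw [this, Nat.add_sub_cancel]
  rw [hfac] at hdvd
  have hdvd' : s ∣ t := Nat.dvd_of_mul_dvd_mul_right (Nat.succ_pos (s + 1)) hdvd
  obtain ⟨m, hm⟩ := hdvd'
  refine ⟨((g ^ m : Fˣ) : F), Units.ne_zero _, ?_⟩
  have key : (g ^ m) ^ (s + 1) = g ^ m * ω' := by
    rw [← ht', hm, ← pow_mul, ← pow_add]
    congr 1
    ring
  have h3 := congrArg (Units.val) key
  rw [Units.val_mul, hω', Units.val_pow_eq_pow_val] at h3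
  exact h3

end Cfsg.Agent.Lib.Helper21.SubfUNITPOW
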