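import Mathlib
import Cfsg.Agent.Lib.Helper14.TC3Stmt

/-!
S4460 piece B2D (helper21): if `L` is normal and `⁅L, L⁆ ≤ ⁅L, P⁆` then
`⁅L ⊔ P, L ⊔ P⁆ ≤ ⁅L, P⁆ ⊔ ⁅P, P⁆`.
-/

set_option autoImplicit false

namespace Cfsg.Agent.Lib.Helper21.TC3B2D

open Cfsg.Agent.Lib.Helper14
open scoped commutatorElement

universe u

theorem conj_eq {G : Type u} [Group G] (a b : G) : a * b * a⁻¹ = ⁅a, b⁆ * b := by
  rw [commutatorElement_def]; group

theorem comm_mul_left {G : Type u} [Group G] (a b c : G) :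
    ⁅a * b, c⁆ = a * ⁅b, c⁆ * a⁻¹ * ⁅a, c⁆ := by
  simp only [commutatorElement_def]; group

theorem comm_mul_right {G : Type u} [Group G] (a b c : G) :
    ⁅a, b * c⁆ = ⁅a, b⁆ * (b * ⁅a, c⁆ * b⁻¹) := by
  simp only [commutatorElement_def]; group

theorem main : TC3Stmt.B2D.{u} := by
  intro G _ L P hL hLL
  haveI := hL
  set E : Subgroup G := ⁅L, P⁆ with hE
  set T : Subgroup G := E ⊔ ⁅P, P⁆ with hT
  have hEL : E ≤ L := Subgroup.commutator_le_left L P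
  have hET : E ≤ T := le_sup_left
  have hPT : ⁅P, P⁆ ≤ T := le_sup_right
  have hPP : ⁅P, P⁆ ≤ P := Subgroup.commutator_le.mpr fun a ha b hb =>
    P.mul_mem (P.mul_mem (P.mul_mem ha hb) (P.inv_mem ha)) (P.inv_mem hb)
  have hLP : ∀ l ∈ L, ∀ y ∈ P, ⁅l, y⁆ ∈ E := fun l hl y hy =>
    Subgroup.commutator_mem_commutator hl hy
  have hPL : ∀ y ∈ P, ∀ l ∈ L, ⁅y, l⁆ ∈ E := fun y hy l hl => by
    rw [hE, Subgroup.commutator_comm]
    exact Subgroup.commutator_mem_commutator hy hl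
  have hLLE : ∀ l ∈ L, ∀ l' ∈ L, ⁅l, l'⁆ ∈ E := fun l hl l' hl' =>
    hLL (Subgroup.commutator_mem_commutator hl hl')
  -- `L` normalizes `E`
  have hLE : ∀ l ∈ L, ∀ e ∈ E, l * e * l⁻¹ ∈ E := fun l hl e he => by
    rw [conj_eq]
    exact E.mul_mem (hLLE l hl e (hEL he)) he
  -- `L` normalizes `T`
  have hLT : ∀ l ∈ L, ∀ t ∈ T, l * t * l⁻¹ ∈ T := by
    intro l hl t ht
    have hle : T ≤ T.comap (MulAut.conj l).toMonoidHom := by
      rw [hT]
      refine sup_le ?_ ?_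
      · intro e he
        exact hET (hLE l hl e he)
      · intro c hc
        show l * c * l⁻¹ ∈ T
        rw [conj_eq]
        exact T.mul_mem (hET (hLP l hl c (hPP hc))) (hPT hc)
    exact hle ht
  -- commutators with an element of `L`
  have h1 : ∀ l ∈ L, ∀ b ∈ L ⊔ P, ⁅l, b⁆ ∈ T := by
    intro l hl b hb
    obtain ⟨l', hl', y', hy', rfl⟩ := Subgroup.mem_sup_of_normal_left.mp hb
    rw [comm_mul_right]
    exact T.mul_mem (hET (hLLE l hl l' hl')) (hET (hLE l' hl' _ (hLP l hl y' hy')))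
  -- commutators with an element of `P`
  have h2 : ∀ y ∈ P, ∀ b ∈ L ⊔ P, ⁅y, b⁆ ∈ T := by
    intro y hy b hb
    obtain ⟨l', hl', y', hy', rfl⟩ := Subgroup.mem_sup_of_normal_left.mp hb
    rw [comm_mul_right]
    exact T.mul_mem (hET (hPL y hy l' hl'))
      (hLT l' hl' _ (hPT (Subgroup.commutator_mem_commutator hy hy')))
  refine Subgroup.commutator_le.mpr ?_
  intro a ha b hb
  obtain ⟨l, hl, y, hy, rfl⟩ := Subgroup.mem_sup_of_normal_left.mp ha
  rw [comm_mul_left]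
  exact T.mul_mem (hLT l hl _ (h2 y hy b hb)) (h1 l hl b hb)

end Cfsg.Agent.Lib.Helper21.TC3B2D
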