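import Mathlib
import Cfsg.Agent.Lib.Helper14.TC3Stmt
import Cfsg.Agent.Lib.Helper14.HHG3

/-!
S4460 piece CHIEFP (helper21): a chief factor `K/L` of `H` with `H/L` a `p`-group has order `p`
(so its order is not a square).  In `Q = H/L` the normal subgroup `K/L` meets the centre; a
central element of order `p` there generates a normal subgroup, whose preimage is `K`.
-/

set_option autoImplicit false

namespace Cfsg.Agent.Lib.Helper21.TC3CHIEFP

open Cfsg.Agent.Lib.Helper14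

universe u

theorem main : TC3Stmt.ChiefP.{u} := by
  intro G _ _ A p hA hp hAidx H K L hAL hLK hKH hK hL hmin
  haveI : Fact p.Prime := ⟨hp⟩
  obtain ⟨k, hk⟩ := hAidx
  have hLH : L ≤ H := hLK.le.trans hKH
  haveI hLn : (L.subgroupOf H).Normal := by
    refine ⟨fun l hl h => ?_⟩
    rw [Subgroup.mem_subgroupOf] at hl ⊢
    exact hL h.1 h.2 l.1 hl
  haveI hKn : (K.subgroupOf H).Normal := by
    refine ⟨fun l hl h => ?_⟩
    rw [Subgroup.mem_subgroupOf] at hl ⊢
    exact hK h.1 h.2 l.1 hl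
  -- `Q = H/L` is a `p`-group
  have hQcard : ∃ j, Nat.card (↥H ⧸ L.subgroupOf H) = p ^ j := by
    have h1 : Nat.card (↥H ⧸ L.subgroupOf H) = L.relIndex H := rfl
    have h2 : L.relIndex H ∣ L.index := Dvd.intro _ (Subgroup.relIndex_mul_index hLH)
    have h3 : L.index ∣ A.index := Subgroup.index_dvd_of_le hAL
    obtain ⟨j, -, hj⟩ := (Nat.dvd_prime_pow hp).mp (hk ▸ h2.trans h3)
    exact ⟨j, h1.trans hj⟩
  obtain ⟨j, hj⟩ := hQcard
  have hQ : IsPGroup p (↥H ⧸ L.subgroupOf H) := IsPGroup.of_card hj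
  have hker : (QuotientGroup.mk' (L.subgroupOf H)).ker = L.subgroupOf H :=
    QuotientGroup.ker_mk' _
  have hπ1 : ∀ w : ↥H, QuotientGroup.mk' (L.subgroupOf H) w = 1 ↔ (w : G) ∈ L := by
    intro w
    rw [← MonoidHom.mem_ker, hker, Subgroup.mem_subgroupOf]
  haveI hKbn : ((K.subgroupOf H).map (QuotientGroup.mk' (L.subgroupOf H))).Normal :=
    Subgroup.Normal.map hKn _ (QuotientGroup.mk'_surjective _)
  have hKbne : (K.subgroupOf H).map (QuotientGroup.mk' (L.subgroupOf H)) ≠ ⊥ := by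
    intro h0
    obtain ⟨x, hxK, hxL⟩ := SetLike.exists_of_lt hLK
    have hmem : QuotientGroup.mk' (L.subgroupOf H) ⟨x, hKH hxK⟩ ∈
        (K.subgroupOf H).map (QuotientGroup.mk' (L.subgroupOf H)) :=
      ⟨⟨x, hKH hxK⟩, Subgroup.mem_subgroupOf.mpr hxK, rfl⟩
    rw [h0, Subgroup.mem_bot, hπ1] at hmem
    exact hxL hmem
  -- a central element of `K/L`
  obtain ⟨x, hxK, hx1, hxZ⟩ := HHG3.center_meets_normal hQ _ hKbne
  -- of order `p`
  have hpx : p ∣ orderOf x := by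
    obtain ⟨m, hm⟩ := hQ x
    obtain ⟨i, -, hi⟩ := (Nat.dvd_prime_pow hp).mp (orderOf_dvd_of_pow_eq_one hm)
    rcases Nat.eq_zero_or_pos i with h0 | h0
    · rw [h0, pow_zero, orderOf_eq_one_iff] at hi
      exact absurd hi hx1
    · rw [hi]
      exact dvd_pow_self p (by omega)
  have hox : orderOf x ≠ 0 := (orderOf_pos x).ne'
  have hz : orderOf (x ^ (orderOf x / p)) = p := orderOf_pow_orderOf_div hox hpx
  set z := x ^ (orderOf x / p) with hzdef
  have hzK : z ∈ (K.subgroupOf H).map (QuotientGroup.mk' (L.subgroupOf H)) :=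
    Subgroup.pow_mem _ hxK _
  have hzZ : z ∈ Subgroup.center (↥H ⧸ L.subgroupOf H) := Subgroup.pow_mem _ hxZ _
  have hz1 : z ≠ 1 := by
    intro h1
    rw [h1, orderOf_one] at hz
    exact hp.one_lt.ne hz
  have hcardZ : Nat.card (Subgroup.zpowers z) = p := by rw [Nat.card_zpowers, hz]
  -- the preimage `M` of `⟨z⟩`
  set M : Subgroup G :=
    ((Subgroup.zpowers z).comap (QuotientGroup.mk' (L.subgroupOf H))).map H.subtype with hM
  have hmemM : ∀ w : ↥H, (w : G) ∈ M ↔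
      QuotientGroup.mk' (L.subgroupOf H) w ∈ Subgroup.zpowers z := by
    intro w
    constructor
    · rintro ⟨w', hw', hww'⟩
      have : w' = w := Subtype.ext hww'
      rw [← this]
      exact hw'
    · intro hw
      exact ⟨w, hw, rfl⟩
  have hLM : L ≤ M := by
    intro l hl
    have h1 : QuotientGroup.mk' (L.subgroupOf H) ⟨l, hLH hl⟩ = 1 := (hπ1 _).mpr hl
    exact (hmemM ⟨l, hLH hl⟩).mpr (h1 ▸ Subgroup.one_mem _)
  have hMH : M ≤ H := by
    rintro _ ⟨w, -, rfl⟩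
    exact w.2
  have hMK : M ≤ K := by
    intro y hy
    have hy' := (hmemM ⟨y, hMH hy⟩).mp hy
    have hy'' := (Subgroup.zpowers_le.mpr hzK) hy'
    obtain ⟨w', hw', hww'⟩ := hy''
    have h1 : QuotientGroup.mk' (L.subgroupOf H) (w'⁻¹ * ⟨y, hMH hy⟩) = 1 := by
      rw [map_mul, map_inv, hww', inv_mul_cancel]
    have h2 := (hπ1 _).mp h1
    have h3 : y = (w' : G) * ((w' : G)⁻¹ * y) := by group
    rw [h3]
    exact K.mul_mem (Subgroup.mem_subgroupOf.mp hw') (hLK.le h2)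
  have hMinv : ∀ h ∈ H, ∀ m ∈ M, h * m * h⁻¹ ∈ M := by
    intro h hh m hm
    have hm' := (hmemM ⟨m, hMH hm⟩).mp hm
    have hc : QuotientGroup.mk' (L.subgroupOf H) (⟨h, hh⟩ * ⟨m, hMH hm⟩ * ⟨h, hh⟩⁻¹) =
        QuotientGroup.mk' (L.subgroupOf H) ⟨m, hMH hm⟩ := by
      rw [map_mul, map_mul, map_inv]
      have hcen := (Subgroup.zpowers_le.mpr hzZ) hm'
      rw [Subgroup.mem_center_iff] at hcen
      rw [hcen, mul_inv_cancel_right]
    have := (hmemM (⟨h, hh⟩ * ⟨m, hMH hm⟩ * ⟨h, hh⟩⁻¹)).mpr (hc ▸ hm')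
    exact this
  -- `M ≠ L`
  have hML : M ≠ L := by
    intro h0
    obtain ⟨w, hw⟩ := QuotientGroup.mk'_surjective (L.subgroupOf H) z
    have h1 : (w : G) ∈ M := (hmemM w).mpr (hw ▸ Subgroup.mem_zpowers z)
    rw [h0] at h1
    exact hz1 (hw ▸ (hπ1 w).mpr h1)
  have hMKeq : M = K := (hmin M hLM hMK hMinv).resolve_left hML
  -- `K/L = ⟨z⟩`
  have hKb : (K.subgroupOf H).map (QuotientGroup.mk' (L.subgroupOf H)) = Subgroup.zpowers z := by
    apply le_antisymm
    · rintro _ ⟨w, hw, rfl⟩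
      have h1 : (w : G) ∈ M := hMKeq ▸ Subgroup.mem_subgroupOf.mp hw
      exact (hmemM w).mp h1
    · exact Subgroup.zpowers_le.mpr hzK
  -- the index
  have hidx : L.relIndex K = p := by
    have h1 := Subgroup.relIndex_comap (H := (⊥ : Subgroup (↥H ⧸ L.subgroupOf H)))
      (QuotientGroup.mk' (L.subgroupOf H)) (K.subgroupOf H)
    rw [MonoidHom.comap_bot, hker, Subgroup.relIndex_bot_left, hKb, hcardZ,
      Subgroup.relIndex_subgroupOf hKH] at h1
    exact h1
  rw [hidx]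
  exact hp.prime.not_isSquare

end Cfsg.Agent.Lib.Helper21.TC3CHIEFP
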