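import Mathlib
import Cfsg.Agent.Lib.Helper14.TC3Stmt
import Cfsg.Agent.Lib.Helper53.SylowConj

/-!
S4460 piece ENORM (helper21): if `N = L ⋊ P` is normal in `G` (`L` a normal `p'`-subgroup of `G`,
`P` a `p`-group), then `⁅L, P⁆` is normal in `G` (Frattini argument: `G = N * N_G(P)`, and
`⁅L, P⁆` is normalized by `L`, by `P`, and by `N_G(P)`).
-/

set_option autoImplicit false

namespace Cfsg.Agent.Lib.Helper21.TC3ENORM

open Cfsg.Agent.Lib.Helper14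
open scoped commutatorElement

universe u

theorem comm_mul_left {G : Type u} [Group G] (a b c : G) :
    ⁅a * b, c⁆ = a * ⁅b, c⁆ * a⁻¹ * ⁅a, c⁆ := by
  simp only [commutatorElement_def]; group

theorem main : TC3Stmt.ENorm.{u} := by
  intro G _ _ N L P p hN hp hS
  obtain ⟨hL, hLN, hPN, hcop, hPp, hsup, hinf, -⟩ := hS
  haveI := hL
  haveI := hN
  haveI : Fact p.Prime := ⟨hp⟩
  -- `L` normalizes `⁅L, P⁆`
  have hLE : ∀ l ∈ L, ∀ e ∈ ⁅L, P⁆, l * e * l⁻¹ ∈ ⁅L, P⁆ := by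
    intro l hl e he
    have hle : ⁅L, P⁆ ≤ (⁅L, P⁆).comap (MulAut.conj l).toMonoidHom := by
      refine Subgroup.commutator_le.mpr ?_
      intro l₁ hl₁ y hy
      show l * ⁅l₁, y⁆ * l⁻¹ ∈ ⁅L, P⁆
      have h1 := comm_mul_left l l₁ y
      have h2 : l * ⁅l₁, y⁆ * l⁻¹ = ⁅l * l₁, y⁆ * ⁅l, y⁆⁻¹ := by rw [h1]; group
      rw [h2]
      exact Subgroup.mul_mem _ (Subgroup.commutator_mem_commutator (L.mul_mem hl hl₁) hy)
        (Subgroup.inv_mem _ (Subgroup.commutator_mem_commutator hl hy))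
    exact hle he
  -- elements normalizing `P` normalize `⁅L, P⁆`
  have hnE : ∀ n : G, (∀ y ∈ P, n * y * n⁻¹ ∈ P) → ∀ e ∈ ⁅L, P⁆, n * e * n⁻¹ ∈ ⁅L, P⁆ := by
    intro n hn e he
    have hle : ⁅L, P⁆ ≤ (⁅L, P⁆).comap (MulAut.conj n).toMonoidHom := by
      refine Subgroup.commutator_le.mpr ?_
      intro l₁ hl₁ y hy
      show n * ⁅l₁, y⁆ * n⁻¹ ∈ ⁅L, P⁆
      have h2 : n * ⁅l₁, y⁆ * n⁻¹ = ⁅n * l₁ * n⁻¹, n * y * n⁻¹⁆ := by
        simp only [commutatorElement_def]; group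
      rw [h2]
      exact Subgroup.commutator_mem_commutator (hL.conj_mem l₁ hl₁ n) (hn y hy)
    exact hle he
  have hPE : ∀ y ∈ P, ∀ e ∈ ⁅L, P⁆, y * e * y⁻¹ ∈ ⁅L, P⁆ := fun y hy =>
    hnE y (fun y' hy' => P.mul_mem (P.mul_mem hy hy') (P.inv_mem hy))
  -- `N` normalizes `⁅L, P⁆`
  have hNE : ∀ x ∈ N, ∀ e ∈ ⁅L, P⁆, x * e * x⁻¹ ∈ ⁅L, P⁆ := by
    intro x hx e he
    rw [← hsup] at hx
    obtain ⟨l, hl, y, hy, rfl⟩ := Subgroup.mem_sup_of_normal_left.mp hx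
    have h := hLE l hl _ (hPE y hy e he)
    have h' : l * y * e * (l * y)⁻¹ = l * (y * e * y⁻¹) * l⁻¹ := by group
    rw [h']
    exact h
  -- a Sylow `p`-subgroup of `N` containing `P` is `P`
  have hp' : IsPGroup p (P.subgroupOf N) := hPp.comap_subtype
  obtain ⟨Q, hQ⟩ := hp'.exists_le_sylow
  have hPP₁ : P ≤ (Q : Subgroup N).map N.subtype := by
    intro y hy
    exact ⟨⟨y, hPN hy⟩, hQ (Subgroup.mem_subgroupOf.mpr hy), rfl⟩
  have hP₁p : IsPGroup p ((Q : Subgroup N).map N.subtype) := Q.isPGroup'.map N.subtype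
  have hP₁L : (Q : Subgroup N).map N.subtype ⊓ L = ⊥ := by
    obtain ⟨n, hn⟩ := IsPGroup.iff_card.mp hP₁p
    apply Subgroup.inf_eq_bot_of_coprime
    rw [hn]
    exact Nat.Coprime.pow_left n hcop.symm
  have hP₁P : (Q : Subgroup N).map N.subtype ≤ P := by
    intro z hz
    have hzN : z ∈ N := by
      obtain ⟨w, _, rfl⟩ := hz
      exact w.2
    rw [← hsup] at hzN
    obtain ⟨l, hl, y, hy, rfl⟩ := Subgroup.mem_sup_of_normal_left.mp hzN
    have hl1 : l ∈ (Q : Subgroup N).map N.subtype ⊓ L := by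
      refine ⟨?_, hl⟩
      have h' : l = (l * y) * y⁻¹ := by group
      rw [h']
      exact Subgroup.mul_mem _ hz (Subgroup.inv_mem _ (hPP₁ hy))
    rw [hP₁L, Subgroup.mem_bot] at hl1
    rw [hl1, one_mul]
    exact hy
  -- Frattini argument
  refine ⟨fun e he g => ?_⟩
  have hR : P.map (MulAut.conj g).toMonoidHom ≤ N := by
    rintro _ ⟨y, hy, rfl⟩
    exact hN.conj_mem y (hPN hy) g
  obtain ⟨h, hh, hr⟩ := Cfsg.Agent.Lib.Helper53.SylowConj.exists_conj_le_sylow_sub N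
    (P.map (MulAut.conj g).toMonoidHom) hR (hPp.map _) Q
  have hn : ∀ y ∈ P, (h * g) * y * (h * g)⁻¹ ∈ P := by
    intro y hy
    have h3 := hP₁P (hr (g * y * g⁻¹) ⟨y, hy, rfl⟩)
    have h' : h * g * y * (h * g)⁻¹ = h * (g * y * g⁻¹) * h⁻¹ := by group
    rw [h']
    exact h3
  have h4 := hnE (h * g) hn e he
  have h5 := hNE h⁻¹ (N.inv_mem hh) _ h4
  have h' : g * e * g⁻¹ = h⁻¹ * (h * g * e * (h * g)⁻¹) * h⁻¹⁻¹ := by group
  rw [h']
  exact h5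

end Cfsg.Agent.Lib.Helper21.TC3ENORM
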