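import Mathlib
import Cfsg.Agent.Lib.Helper14.TC3Stmt

/-!
S4460 piece UMN (helper21): a finite nonsolvable group all of whose proper quotients are solvable
has a unique minimal normal subgroup.
-/

set_option autoImplicit false

namespace Cfsg.Agent.Lib.Helper21.TC3UMN

open Cfsg.Agent.Lib.Helper14

universe u

theorem main : TC3Stmt.Umn.{u} := by
  intro G _ _ hns hq
  let S : Set (Subgroup G) := {K | K.Normal ∧ K ≠ ⊥}
  have hne : S.Nonempty := by
    refine ⟨⊤, inferInstance, ?_⟩
    intro h
    apply hns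
    exact Group.isSolvable_of_top_eq_bot G h
  obtain ⟨M, hM⟩ := Set.Finite.exists_minimal (Set.toFinite S) hne
  refine ⟨M, hM.1.1, hM.1.2, ?_⟩
  intro L hL hLne
  by_contra hML
  haveI := hM.1.1
  haveI := hL
  have hinf : M ⊓ L = ⊥ := by
    by_contra hne'
    have hmem : M ⊓ L ∈ S := ⟨inferInstance, hne'⟩
    exact hML ((hM.2 hmem inf_le_left).trans inf_le_right)
  haveI : Group.IsSolvable (G ⧸ M) := hq M hM.1.2
  haveI : Group.IsSolvable (G ⧸ L) := hq L hLne
  apply hns
  refine Group.isSolvable_of_isSolvable_injective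
    (f := (QuotientGroup.mk' M).prod (QuotientGroup.mk' L)) ?_
  rw [← MonoidHom.ker_eq_bot_iff, MonoidHom.ker_prod, QuotientGroup.ker_mk',
    QuotientGroup.ker_mk', hinf]

end Cfsg.Agent.Lib.Helper21.TC3UMN
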