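import Mathlib
import Cfsg.Agent.Lib.Helper44.TPStmt
import Cfsg.Agent.Lib.Helper44.WittND2
import Cfsg.Agent.Lib.Helper44.NegPairs

/-!
# S5973 / PERP (call by helper44; helper21, port of `Helper82.HypPERP` to the plus form, all `q`)

Orthogonal complement of a nondegenerate subspace for the standard plus form.
-/

set_option autoImplicit false

universe u

open scoped Matrix

namespace Cfsg.Agent.Lib.Helper21.TPPERP

open Cfsg.Agent.Lib.Helper44.TPStmt
open Cfsg.Agent.Lib.Helper44.QSpace Cfsg.Agent.Lib.Helper44.NegPairs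
open Cfsg.Agent.Lib.Helper44.WittND Cfsg.Agent.Lib.Helper44.WittND2
open QuadraticMap

/-- `Perp` without hypotheses. -/
theorem perp : Perp.{u} := by
  intro F _ _ d G hG
  classical
  have hS : Sep (plusQ d F) := sep_plusQ d
  have hinf : G ⊓ LinearMap.BilinForm.orthogonal (polarBilin (plusQ d F)) G = ⊥ := by
    rw [eq_bot_iff]
    intro v hv
    obtain ⟨hv1, hv2⟩ := Submodule.mem_inf.1 hv
    by_contra hv0
    have hv0' : v ≠ 0 := fun h => hv0 ((Submodule.mem_bot F).2 h)
    obtain ⟨⟨x, hx, hxv⟩, -⟩ := hG v hv1 hv0'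
    exact hxv (hv2 x hx)
  refine ⟨LinearMap.BilinForm.orthogonal (polarBilin (plusQ d F)) G, ?_, ?_, hinf, ?_, ?_⟩
  · intro g hg y hy
    exact hy g hg
  · have hnd := ndsub_orth hS hinf
    intro w hw hw0
    have h1 : ∃ y ∈ LinearMap.BilinForm.orthogonal (polarBilin (plusQ d F)) G,
        polar (plusQ d F) w y ≠ 0 := by
      by_contra hcon
      push Not at hcon
      exact hw0 (hnd w hw hcon)
    obtain ⟨y, hy, hwy⟩ := h1
    refine ⟨⟨y, hy, ?_⟩, ⟨y, hy, hwy⟩⟩
    have h3 : polar (plusQ d F) y w = polar (plusQ d F) w y := polar_comm _ _ _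
    intro h4
    exact hwy (h3 ▸ h4)
  · have h1 : Module.finrank F ↥(LinearMap.BilinForm.orthogonal (polarBilin (plusQ d F)) G)
        = Module.finrank F (J d → F) - Module.finrank F ↥G :=
      LinearMap.BilinForm.finrank_orthogonal (nondegenerate_of_sep hS) G
    have h3 : Module.finrank F (J d → F) = 2 * d := by
      rw [Module.finrank_pi]
      simp
      omega
    have h4 : Module.finrank F ↥G ≤ Module.finrank F (J d → F) := Submodule.finrank_le G
    rw [h3] at h1 h4
    rw [h1]
    omega
  · intro x hx hst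
    have hQ : ∀ u : J d → F, Cfsg.quadFormPlus d F ((x : Matrix (J d) (J d) F) *ᵥ u)
        = Cfsg.quadFormPlus d F u := fun u => hx u u
    have hinj : Function.Injective (Matrix.toLin' (x : Matrix (J d) (J d) F)) := by
      intro u v huv
      rw [Matrix.toLin'_apply, Matrix.toLin'_apply] at huv
      have h5 := congrArg (fun z => ((x⁻¹ : Matrix.GeneralLinearGroup (J d) F) :
        Matrix (J d) (J d) F) *ᵥ z) huv
      simp only [Matrix.mulVec_mulVec] at h5
      have h6 : ((x⁻¹ : Matrix.GeneralLinearGroup (J d) F) : Matrix (J d) (J d) F)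
          * (x : Matrix (J d) (J d) F) = 1 := by
        rw [← Units.val_mul, inv_mul_cancel, Units.val_one]
      rw [h6, Matrix.one_mulVec, Matrix.one_mulVec] at h5
      exact h5
    have hmap : G.map (Matrix.toLin' (x : Matrix (J d) (J d) F)) = G := by
      apply Submodule.eq_of_le_of_finrank_le hst
      rw [← (Submodule.equivMapOfInjective _ hinj G).finrank_eq]
    rintro _ ⟨y, hy, rfl⟩
    intro g hg
    rw [← hmap] at hg
    obtain ⟨g', hg', rfl⟩ := hg
    have h7 : polar (plusQ d F) g' y = 0 := hy g' hg'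
    show polar (Cfsg.quadFormPlus d F) (Matrix.toLin' (x : Matrix (J d) (J d) F) g')
      (Matrix.toLin' (x : Matrix (J d) (J d) F) y) = 0
    have h8 : polar (Cfsg.quadFormPlus d F) g' y = 0 := h7
    unfold polar at h8 ⊢
    rw [← map_add, Matrix.toLin'_apply, Matrix.toLin'_apply, Matrix.toLin'_apply, hQ, hQ, hQ]
    exact h8

theorem main : Top.{u} → Perp.{u} := fun _ => perp

end Cfsg.Agent.Lib.Helper21.TPPERP
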