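import Mathlib
import Cfsg.Agent.Lib.Helper44.TPStmt

/-!
# S5973 / RIMG (call by helper44; helper21, port of `Helper97.TSRIMG` to the plus form)

`R = (x - 1) W` for an invariant `W` of a matrix with `x ^ r = 1`, `r ≠ p`.
-/

set_option autoImplicit false

universe u

open scoped Matrix

namespace Cfsg.Agent.Lib.Helper21.TPRIMG

open Cfsg.Agent.Lib.Helper44.TPStmt

theorem mem_Fx' {F : Type u} [Field F] {d : ℕ} (x : Matrix (J d) (J d) F) (v : J d → F) :
    v ∈ Fx x ↔ x *ᵥ v = v := by
  unfold Fx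
  rw [LinearMap.mem_ker, LinearMap.sub_apply, Matrix.toLin'_apply, LinearMap.id_apply, sub_eq_zero]

theorem main : RImg.{u} := by
  intro F _ _ p _ _ d r _ hrp x hxr W hW
  classical
  obtain ⟨f, hf⟩ : ∃ f : (J d → F) →ₗ[F] (J d → F),
      f = Matrix.toLin' (x : Matrix (J d) (J d) F) - LinearMap.id := ⟨_, rfl⟩
  have hfa : ∀ v, f v = (x : Matrix (J d) (J d) F) *ᵥ v - v := by
    intro v
    rw [hf, LinearMap.sub_apply, Matrix.toLin'_apply, LinearMap.id_apply]
  have hxW : ∀ w ∈ W, (x : Matrix (J d) (J d) F) *ᵥ w ∈ W := by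
    intro w hw
    apply hW
    exact ⟨w, hw, by rw [Matrix.toLin'_apply]⟩
  have hr0 : ((r : ℕ) : F) ≠ 0 := by
    intro h
    have h1 : p ∣ r := (CharP.cast_eq_zero_iff F p r).1 h
    have h2 := (Nat.prime_dvd_prime_iff_eq (Fact.out : p.Prime) (Fact.out : r.Prime)).1 h1
    exact hrp h2.symm
  have hxrM : (x : Matrix (J d) (J d) F) ^ r = 1 := by
    rw [← Units.val_pow_eq_pow_val, hxr, Units.val_one]
  refine ⟨W.map f, ?_, ?_, ?_, ?_, ?_⟩
  · rintro _ ⟨w, hw, rfl⟩
    rw [hfa]
    exact W.sub_mem (hxW w hw) hw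
  · rintro _ ⟨_, ⟨w, hw, rfl⟩, rfl⟩
    refine ⟨(x : Matrix (J d) (J d) F) *ᵥ w, hxW w hw, ?_⟩
    rw [Matrix.toLin'_apply, hfa, hfa, Matrix.mulVec_sub]
  · rw [eq_bot_iff]
    rintro v ⟨⟨w, hw, rfl⟩, hv2⟩
    have hv2' : (x : Matrix (J d) (J d) F) *ᵥ (f w) = f w := (mem_Fx' _ _).1 hv2
    have hk : ∀ k : ℕ, ((x : Matrix (J d) (J d) F) ^ k) *ᵥ w = w + (k : F) • f w := by
      intro k
      induction k with
      | zero => simp
      | succ k ih =>
        rw [pow_succ', ← Matrix.mulVec_mulVec, ih, Matrix.mulVec_add, Matrix.mulVec_smul, hv2']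
        have : (x : Matrix (J d) (J d) F) *ᵥ w = w + f w := by rw [hfa]; abel
        rw [this, Nat.cast_succ, add_smul, one_smul]
        abel
    have h1 := hk r
    rw [hxrM, Matrix.one_mulVec] at h1
    have h2 : (r : F) • f w = 0 := by
      have : w + (r : F) • f w = w + 0 := by rw [add_zero]; exact h1.symm
      exact add_left_cancel this
    rcases smul_eq_zero.1 h2 with h | h
    · exact absurd h hr0
    · exact (Submodule.mem_bot F).2 h
  · have h1 := LinearMap.finrank_range_add_finrank_ker (f.domRestrict W)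
    have h2 : LinearMap.range (f.domRestrict W) = W.map f := by
      ext v
      constructor
      · rintro ⟨w, rfl⟩
        exact ⟨w.1, w.2, rfl⟩
      · rintro ⟨w, hw, rfl⟩
        exact ⟨⟨w, hw⟩, rfl⟩
    have h3 : Module.finrank F ↥(LinearMap.ker (f.domRestrict W)) =
        Module.finrank F ↥(W ⊓ Fx (x : Matrix (J d) (J d) F)) := by
      have h4 : (LinearMap.ker (f.domRestrict W)).map W.subtype =
          W ⊓ Fx (x : Matrix (J d) (J d) F) := by
        ext v
        constructor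
        · rintro ⟨w, hw, rfl⟩
          refine Submodule.mem_inf.mpr ⟨w.2, ?_⟩
          have : f (w : J d → F) = 0 := hw
          unfold Fx
          rw [LinearMap.mem_ker, ← hf]
          exact this
        · intro hv
          obtain ⟨hv1, hv2⟩ := Submodule.mem_inf.1 hv
          refine ⟨⟨v, hv1⟩, ?_, rfl⟩
          unfold Fx at hv2
          rw [LinearMap.mem_ker, ← hf] at hv2
          exact hv2
      rw [← h4]
      exact (Submodule.finrank_map_subtype_eq W _).symm
    rw [h2, h3] at h1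
    exact h1
  · rintro _ ⟨w, hw, rfl⟩
    exact ⟨w, hw, hfa w⟩

end Cfsg.Agent.Lib.Helper21.TPRIMG
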