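import Mathlib
import Cfsg.Agent.Lib.Helper44.TPStmt
import Cfsg.Agent.Lib.Helper44.NegPairs
import Cfsg.Agent.Lib.Helper21.TPPERP

/-!
# S5973 / SUBPERP (call by helper44; helper21, port of `Helper97.TSSUBPERP` to the plus form)

Relative orthogonal complement of a nondegenerate `B` inside a nondegenerate `Y`.
-/

set_option autoImplicit false

universe u

open scoped Matrix

namespace Cfsg.Agent.Lib.Helper21.TPSUBPERP

open Cfsg.Agent.Lib.Helper44.TPStmt
open Cfsg.Agent.Lib.Helper44.NegPairs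
open QuadraticMap

theorem pol_add_left' {F : Type u} [Field F] (d : ℕ) (a b c : J d → F) :
    polar (Cfsg.quadFormPlus d F) (a + b) c =
      polar (Cfsg.quadFormPlus d F) a c + polar (Cfsg.quadFormPlus d F) b c :=
  QuadraticMap.polar_add_left (plusQ d F) a b c

theorem pol_comm' {F : Type u} [Field F] (d : ℕ) (a b : J d → F) :
    polar (Cfsg.quadFormPlus d F) a b = polar (Cfsg.quadFormPlus d F) b a :=
  QuadraticMap.polar_comm _ _ _

theorem of_perp (hP : Perp.{u}) : SubPerp.{u} := by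
  intro F _ _ d Y B hY hB hBY
  classical
  obtain ⟨Z, hZ1, hZ2, hZ3, hZ4, hZ5⟩ := hP F d B hB
  have hVdim : Module.finrank F (J d → F) = 2 * d := by
    rw [Module.finrank_pi]
    simp
    omega
  have hsup : B ⊔ Z = ⊤ := by
    apply Submodule.eq_top_of_finrank_eq
    have h := Submodule.finrank_sup_add_finrank_inf_eq B Z
    rw [hZ3, finrank_bot, add_zero] at h
    rw [h, hZ4, hVdim]
  have hdec : ∀ y ∈ Y, ∃ b ∈ B, ∃ c ∈ Y ⊓ Z, y = b + c := by
    intro y hy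
    have hy' : y ∈ B ⊔ Z := by rw [hsup]; exact Submodule.mem_top
    obtain ⟨b, hb, c, hc, rfl⟩ := Submodule.mem_sup.1 hy'
    refine ⟨b, hb, c, Submodule.mem_inf.mpr ⟨?_, hc⟩, rfl⟩
    have : c = (b + c) - b := by abel
    rw [this]
    exact Y.sub_mem hy (hBY hb)
  have hinf : B ⊓ (Y ⊓ Z) = ⊥ := by
    rw [eq_bot_iff]
    intro v hv
    obtain ⟨hv1, hv2⟩ := Submodule.mem_inf.1 hv
    have : v ∈ B ⊓ Z := Submodule.mem_inf.mpr ⟨hv1, (Submodule.mem_inf.1 hv2).2⟩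
    rw [hZ3] at this
    exact this
  refine ⟨Y ⊓ Z, inf_le_left, ?_, hinf, ?_, ?_, ?_⟩
  · intro w hw hw0
    obtain ⟨hwY, hwZ⟩ := Submodule.mem_inf.1 hw
    obtain ⟨⟨y, hy, hyw⟩, -⟩ := hY w hwY hw0
    obtain ⟨b, hb, c, hc, rfl⟩ := hdec y hy
    have h1 : polar (Cfsg.quadFormPlus d F) c w ≠ 0 := by
      rw [pol_add_left', hZ1 b hb w hwZ, zero_add] at hyw
      exact hyw
    refine ⟨⟨c, hc, h1⟩, ⟨c, hc, ?_⟩⟩
    rw [pol_comm']
    exact h1
  · intro b hb y hy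
    exact hZ1 b hb y (Submodule.mem_inf.1 hy).2
  · have h := Submodule.finrank_sup_add_finrank_inf_eq B (Y ⊓ Z)
    rw [hinf, finrank_bot, add_zero] at h
    have hs : B ⊔ (Y ⊓ Z) = Y := by
      apply le_antisymm
      · exact sup_le hBY inf_le_left
      · intro y hy
        obtain ⟨b, hb, c, hc, rfl⟩ := hdec y hy
        exact Submodule.add_mem _ (Submodule.mem_sup_left hb) (Submodule.mem_sup_right hc)
    rw [← h, hs]
  · intro x hx hxY hxB
    have hxZ := hZ5 x hx hxB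
    rintro _ ⟨y, hy, rfl⟩
    obtain ⟨hy1, hy2⟩ := Submodule.mem_inf.1 hy
    exact Submodule.mem_inf.mpr ⟨hxY ⟨y, hy1, rfl⟩, hxZ ⟨y, hy2, rfl⟩⟩

theorem main : SubPerp.{u} := of_perp Cfsg.Agent.Lib.Helper21.TPPERP.perp

end Cfsg.Agent.Lib.Helper21.TPSUBPERP
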